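import Mathlib
import Cfsg.Agent.Lib.C6.Frame5

/-!
Orthogonal frames in dimension six: a group containing the even sign changes and the even
permutations contains all Eichler transformations, or the frame is determined by any monomial
conjugate of a product of two reflections in basis vectors.  See `plans/C6.md`.
-/

set_option autoImplicit false

namespace CfsgLib.C6

open CfsgLib.Forms CfsgLib.ClMax CfsgLib.RootMax CfsgLib.OrthE CfsgLib.SUMax CfsgLib.OMax Module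
open QuadraticMap Matrix Finset

variable {F : Type*} [Field F]

theorem exists_hat' {V : Type*} [AddCommGroup V] [Module F V] {Q : QuadraticForm F V}
    (X : Subgroup (O Q)) (u : V) : ∃ N : Subgroup (O Q),
      (∀ g ∈ X, refl Q u * refl Q (g.1 u) ∈ X → g ∈ N) ∧
      (∀ v, refl Q u * refl Q v ∈ X → refl Q v ∈ N) ∧ ∀ g ∈ N, g * g ∈ X := by
  set r := refl Q u with hr
  have rr : r * r = 1 := refl_mul_self u
  have ri : r⁻¹ = r := refl_inv u
  have e : ∀ a b : O Q, a * b = a * r * (r * b) := fun a b => by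
    rw [mul_assoc, ← mul_assoc r, rr, one_mul]
  let N : Subgroup (O Q) :=
    { carrier := {y | (y ∈ X ∧ r * y * r ∈ X) ∨ (y * r ∈ X ∧ r * y ∈ X)}
      mul_mem' := by
        rintro a b (⟨a1, a2⟩ | ⟨a1, a2⟩) (⟨b1, b2⟩ | ⟨b1, b2⟩)
        · exact Or.inl ⟨X.mul_mem a1 b1, by
            simpa only [mul_assoc, ← e] using X.mul_mem a2 b2⟩
        · exact Or.inr ⟨by simpa only [mul_assoc] using X.mul_mem a1 b1, by
            simpa only [mul_assoc, ← e] using X.mul_mem a2 b2⟩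
        · exact Or.inr ⟨by simpa only [mul_assoc, ← e] using X.mul_mem a1 b2, by
            simpa only [mul_assoc] using X.mul_mem a2 b1⟩
        · exact Or.inl ⟨by simpa only [mul_assoc, ← e] using X.mul_mem a1 b2, by
            simpa only [mul_assoc] using X.mul_mem a2 b1⟩
      one_mem' := Or.inl ⟨X.one_mem, by simp [rr]⟩
      inv_mem' := by
        rintro a (⟨a1, a2⟩ | ⟨a1, a2⟩)
        · exact Or.inl ⟨X.inv_mem a1, by simpa [ri, mul_assoc] using X.inv_mem a2⟩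
        · exact Or.inr ⟨by simpa [ri] using X.inv_mem a2, by simpa [ri] using X.inv_mem a1⟩ }
  refine ⟨N, fun g hg h => Or.inl ⟨hg, ?_⟩,
    fun v h => Or.inr ⟨by simpa [ri, refl_inv] using X.inv_mem h, h⟩, ?_⟩
  · rw [← conj_refl] at h
    simpa [mul_assoc] using X.mul_mem h hg
  · rintro g (h | h)
    · exact X.mul_mem h.1 h.1
    · exact e g g ▸ X.mul_mem h.1 h.2

theorem three_orth {a a' b b' c c' : F} (h1 : a * a + a' * a' ≠ 0) (h2 : b * b + b' * b' ≠ 0)
    (h3 : c * c + c' * c' ≠ 0) (e1 : a * b + a' * b' = 0) (e2 : a * c + a' * c' = 0)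
    (e3 : b * c + b' * c' = 0) : False := by
  have h4 : a * b' - a' * b ≠ 0 := fun h0 => mul_ne_zero h1 h2 (by
    linear_combination (a * b' - a' * b) * h0 + (a * b + a' * b') * e1)
  have h5 : c = 0 := mul_left_cancel₀ h4 (by linear_combination b' * e2 - a' * e3)
  have h6 : c' = 0 := mul_left_cancel₀ h4 (by linear_combination a * e3 - b * e2)
  exact h3 (by rw [h5, h6]; ring)

theorem two_orth {a a' b b' c c' : F} (h1 : a * a + a' * a' ≠ 0) (h2 : b * b + b' * b' ≠ 0)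
    (e1 : a * b + a' * b' = 0) (e2 : a * c + a' * c' = 0) (e3 : b * c + b' * c' = 0) :
    c = 0 ∧ c' = 0 := by
  have h4 : a * b' - a' * b ≠ 0 := fun h0 => mul_ne_zero h1 h2 (by
    linear_combination (a * b' - a' * b) * h0 + (a * b + a' * b') * e1)
  exact ⟨mul_left_cancel₀ h4 (by linear_combination b' * e2 - a' * e3),
    mul_left_cancel₀ h4 (by linear_combination a * e3 - b * e2)⟩

theorem isSquare_two {s : F} (h : 2 * (s * s) = 1) : IsSquare (2 : F) :=
  ⟨2 * s, by linear_combination -2 * h⟩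

variable {κ : Type*} [DecidableEq κ] [Fintype κ] {Q : QuadraticForm F (κ → F)} {X : Subgroup (O Q)}

theorem Std5.dot_map (h : Std5 Q) (g : O Q) (u v : κ → F) : g.1 u ⬝ᵥ g.1 v = u ⬝ᵥ v := by
  rw [← h.B, O_polar, h.B]

theorem Std5.exists_ne (h : Std5 Q) (g : O Q) (k : κ) : ∃ b, g.1 (bv b) k ≠ 0 := by
  have _ := h
  by_contra! h0
  have := congrFun (O_apply_inv_apply g (bv k)) k
  rw [← rs_sp (g⁻¹.1 (bv k)), rs_eq_sum, map_sum] at this
  simp [Finset.sum_apply, h0] at this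

theorem isPt_of {v : κ → F} {a : κ} (h : ∀ l, l ≠ a → v l = 0) : IsPt bv v F :=
  ⟨a, v a, funext fun l => by by_cases hl : l = a <;> simp [hl, h]⟩

theorem dot_two {v w : κ → F} {a b : κ} (hab : a ≠ b) (h : ∀ l, l ≠ a → l ≠ b → v l = 0) :
    v ⬝ᵥ w = v a * w a + v b * w b :=
  Finset.sum_eq_add a b hab (fun l _ hl => by rw [h l hl.1 hl.2, zero_mul]) (by simp) (by simp)

/-- The rigid situation. -/
structure R6 (X : Subgroup (O Q)) : Prop extends Std5 Q where
  rr : ∀ i j, refl Q (bv i) * refl Q (bv j) ∈ X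
  sw : ∀ a b c d, a ≠ b → c ≠ d → refl Q (bv a - bv b) * refl Q (bv c - bv d) ∈ X
  rot : IsSquare (2 : F) → ∀ a b, a ≠ b → refl Q (bv a) * refl Q (bv a - bv b) ∈ X
  st : ∀ g ∈ X, ∀ i, IsPt bv (g.1 (bv i)) F → Mon bv g.1

/-- `g` preserves the frame `k e`. -/
def Pres (k g : O Q) : Prop := ∀ l, g.1 (k.1 (bv l)) = k.1 (bv l) ∨ g.1 (k.1 (bv l)) = -k.1 (bv l) ∨
  k.1 (bv l) ⬝ᵥ g.1 (k.1 (bv l)) = 0

namespace R6

variable (h : R6 X) {k : O Q} (hk : k ∈ X)
include h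

theorem unit (k : O Q) (l : κ) : k.1 (bv l) ⬝ᵥ k.1 (bv l) = 1 := by simp [h.dot_map]

theorem orth (k : O Q) {l m : κ} (hlm : l ≠ m) : k.1 (bv l) ⬝ᵥ k.1 (bv m) = 0 := by
  simp [h.dot_map, hlm.symm]

theorem pres_of_mon {g : O Q} (hm : Mon bv (k⁻¹ * g * k).1) : Pres k g := fun l => by
  obtain ⟨m, c, e⟩ := hm l
  have e1 : g.1 (k.1 (bv l)) = c • k.1 (bv m) := by
    rw [← map_smul, ← e, O_mul_apply, O_mul_apply, O_apply_inv_apply]
  by_cases hml : l = m
  · subst hml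
    have h1 := h.dot_map g (k.1 (bv l)) (k.1 (bv l))
    rw [e1, smul_dotProduct, dotProduct_smul, h.unit] at h1
    rcases mul_self_eq_one_iff.1 (by simpa using h1) with rfl | rfl
    · exact Or.inl (by rw [e1, one_smul])
    · exact Or.inr (Or.inl (by rw [e1, neg_one_smul]))
  · exact Or.inr (Or.inr (by rw [e1, dotProduct_smul, h.orth k hml, smul_zero]))

include hk

theorem pres_of_fix {g : O Q} (hg : g ∈ X) {i : κ} (e : g.1 (k.1 (bv i)) = k.1 (bv i)) : Pres k g :=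
  h.pres_of_mon (h.st _ (X.mul_mem (X.mul_mem (X.inv_mem hk) hg) hk) i (by
    rw [O_mul_apply, O_mul_apply, e, O_inv_apply_apply]; exact isPt_self i))

variable (hn : ¬ Mon bv k.1)
include hn

theorem np (l : κ) {a : κ} (h0 : ∀ m, m ≠ a → k.1 (bv l) m = 0) : False :=
  hn (h.st k hk l (isPt_of h0))

omit hn hk in
theorem rr_ap {a b : κ} (hab : a ≠ b) (v : κ → F) : (refl Q (bv a) * refl Q (bv b)).1 v =
    v - (2 * v a) • bv a - (2 * v b) • bv b := by
  rw [O_mul_apply, h.refl_bv, h.refl_bv]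
  simp [hab, sub_right_comm]

theorem rr_cases {a b : κ} (hab : a ≠ b) (hp : Pres k (refl Q (bv a) * refl Q (bv b))) (l : κ) :
    (k.1 (bv l) a = 0 ∧ k.1 (bv l) b = 0) ∨
    (k.1 (bv l) a ≠ 0 ∧ k.1 (bv l) b ≠ 0 ∧ ∀ m, m ≠ a → m ≠ b → k.1 (bv l) m = 0) ∨
    2 * (k.1 (bv l) a * k.1 (bv l) a + k.1 (bv l) b * k.1 (bv l) b) = 1 := by
  have h2 := h.h2
  rcases hp l with e | e | e <;> rw [h.rr_ap hab] at e
  · exact Or.inl ⟨by simpa [hab, h2] using congrFun e a, by simpa [hab.symm, h2] using congrFun e b⟩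
  · have h1 : ∀ m, m ≠ a → m ≠ b → k.1 (bv l) m = 0 := fun m h3 h4 =>
      mul_left_cancel₀ h2 (by simpa [h3, h4, two_mul, ← eq_neg_iff_add_eq_zero] using congrFun e m)
    refine Or.inr (Or.inl ⟨fun h0 => h.np hk hn l (a := b) fun m hm => ?_,
      fun h0 => h.np hk hn l (a := a) fun m hm => ?_, h1⟩)
    · by_cases h3 : m = a
      · rw [h3, h0]
      · exact h1 m h3 hm
    · by_cases h3 : m = b
      · rw [h3, h0]
      · exact h1 m hm h3
  · simp only [dotProduct_sub, dotProduct_smul, dot_bv, h.unit, smul_eq_mul] at e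
    exact Or.inr (Or.inr (by linear_combination -e))

/-- a vector of the frame vanishes on three coordinates -/
theorem triple {a b c i : κ} (hab : a ≠ b) (hac : a ≠ c) (hbc : b ≠ c) (ha : k.1 (bv i) a = 0)
    (hb : k.1 (bv i) b = 0) (hc : k.1 (bv i) c = 0) {l : κ} (hl : k.1 (bv l) a ≠ 0) :
    ¬ IsSquare (2 : F) ∧ k.1 (bv l) b * k.1 (bv l) b = k.1 (bv l) a * k.1 (bv l) a ∧
      k.1 (bv l) c * k.1 (bv l) c = k.1 (bv l) a * k.1 (bv l) a := by
  have h2 := h.h2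
  have r1 := h.rr_cases hk hn hab (h.pres_of_fix hk (h.rr a b) (i := i) (by simp [h.refl_bv, ha, hb])) l
  have r2 := h.rr_cases hk hn hac (h.pres_of_fix hk (h.rr a c) (i := i) (by simp [h.refl_bv, ha, hc])) l
  have r3 := h.rr_cases hk hn hbc (h.pres_of_fix hk (h.rr b c) (i := i) (by simp [h.refl_bv, hb, hc])) l
  have r4 := h.pres_of_fix hk (h.sw a b b c hab hbc) (i := i) (by
    simp [O_mul_apply, h.refl_sw hab, h.refl_sw hbc, ha, hb, hc]) l
  have r5 := fun hs => h.pres_of_fix hk (h.rot hs a b hab) (i := i) (by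
    simp [O_mul_apply, h.refl_sw hab, h.refl_bv, ha, hb]) l
  have hu := h.unit k l
  generalize k.1 (bv l) = z at *
  have s1 : (z c = 0 ∧ z b ≠ 0 ∧ z a * z a + z b * z b = 1) ∨ 2 * (z a * z a + z b * z b) = 1 := by
    rcases r1 with r | r | r
    exacts [absurd r.1 hl, Or.inl ⟨r.2.2 c hac.symm hbc.symm, r.2.1, dot_two hab r.2.2 ▸ hu⟩, Or.inr r]
  have s2 : (z b = 0 ∧ z c ≠ 0 ∧ z a * z a + z c * z c = 1) ∨ 2 * (z a * z a + z c * z c) = 1 := by
    rcases r2 with r | r | r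
    exacts [absurd r.1 hl, Or.inl ⟨r.2.2 b hab.symm hbc, r.2.1, dot_two hac r.2.2 ▸ hu⟩, Or.inr r]
  have s3 : (z b = 0 ∧ z c = 0) ∨ 2 * (z b * z b + z c * z c) = 1 := by
    rcases r3 with r | r | r
    exacts [Or.inl r, absurd (r.2.2 a hab hac) hl, Or.inr r]
  have s4 : (z c = z a ∧ z a = z b) ∨ (z c = -z a ∧ z a = -z b ∧ z b = -z c) ∨
      1 - z a * z a - z b * z b - z c * z c + z a * z b + z a * z c + z b * z c = 0 := by
    rcases r4 with e | e | e <;> rw [O_mul_apply, h.refl_sw hab, h.refl_sw hbc] at e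
    · exact Or.inl ⟨by simpa [hab, hac, hbc] using congrFun e a,
        by simpa [hab, hab.symm, hac, hbc] using congrFun e b⟩
    · exact Or.inr (Or.inl ⟨by simpa [hab, hac, hbc] using congrFun e a,
        by simpa [hab, hab.symm, hac, hbc] using congrFun e b,
        by simpa [hab, hac, hac.symm, hbc, hbc.symm] using congrFun e c⟩)
    · simp only [dotProduct_sub, dotProduct_smul, dot_bv, hu, smul_eq_mul, Pi.sub_apply, Pi.smul_apply,
        bv_apply, hab, hac, hbc, if_true, if_false] at e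
      exact Or.inr (Or.inr (by linear_combination e))
  have s5 : 2 * (z a * z a + z b * z b) = 1 ∧ z b * z b = z a * z a ∧ z c * z c = z a * z a := by
    clear r1 r2 r3 r4 r5 hu
    generalize z a = p at *
    generalize z b = q at *
    generalize z c = r at *
    grind
  refine ⟨fun hs => ?_, s5.2⟩
  rcases r5 hs with e | e | e <;> rw [O_mul_apply, h.refl_bv, h.refl_sw hab] at e
  · have e1 := congrFun e a
    have e2 := congrFun e b
    simp [hab, hab.symm] at e1 e2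
    exact hl (mul_left_cancel₀ h2 (by linear_combination e2 - e1))
  · have e1 := congrFun e a
    have e2 := congrFun e b
    simp [hab, hab.symm] at e1 e2
    exact hl (mul_left_cancel₀ h2 (by linear_combination e2 + e1))
  · simp only [dotProduct_sub, dotProduct_smul, dot_bv, hu, smul_eq_mul, Pi.sub_apply, Pi.smul_apply,
      bv_apply, hab, if_true, if_false] at e
    exact one_ne_zero (α := F) (by linear_combination 2 * e + s5.1)

theorem not_sq {a b c i : κ} (hab : a ≠ b) (hac : a ≠ c) (hbc : b ≠ c) (ha : k.1 (bv i) a = 0)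
    (hb : k.1 (bv i) b = 0) (hc : k.1 (bv i) c = 0) : ¬ IsSquare (2 : F) := by
  obtain ⟨l, hl⟩ := h.exists_ne k a
  exact (h.triple hk hn hab hac hbc ha hb hc hl).1

/-- a vector of the frame supported on a transposition -/
theorem sq_of_swap {a b c d i : κ} (hab : a ≠ b) (hcd : c ≠ d) (hac : c ≠ a) (hbc : c ≠ b)
    (had : d ≠ a) (hbd : d ≠ b) (h0 : ∀ l, l ≠ a → l ≠ b → k.1 (bv i) l = 0)
    (hp : Pres k (refl Q (bv a - bv b) * refl Q (bv c - bv d))) : IsSquare (2 : F) := by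
  have h1 : k.1 (bv i) a ≠ 0 := fun e => h.np hk hn i (a := b) fun m hm => by
    by_cases h3 : m = a
    · rw [h3, e]
    · exact h0 m h3 hm
  have h2 : k.1 (bv i) b ≠ 0 := fun e => h.np hk hn i (a := a) fun m hm => by
    by_cases h3 : m = b
    · rw [h3, e]
    · exact h0 m hm h3
  have hu := h.unit k i
  have e := hp i
  rw [O_mul_apply, h.refl_sw hcd, h0 c hac hbc, h0 d had hbd, sub_zero, zero_smul, sub_zero,
    h.refl_sw hab] at e
  rw [dot_two hab h0] at hu e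
  generalize k.1 (bv i) = z at *
  refine isSquare_two (s := z a) ?_
  rcases e with e | e | e
  · have e1 := congrFun e a
    simp [hab] at e1
    linear_combination hu - (z a + z b) * e1
  · have e1 := congrFun e a
    simp [hab] at e1
    linear_combination hu - (z b - z a) * e1
  · simp [hab, hab.symm] at e
    exact absurd (by linear_combination e) (mul_ne_zero h.h2 (mul_ne_zero h1 h2))

/-- (C) -/
theorem cent {a b i j : κ} (hab : a ≠ b) (hij : i ≠ j) (hi : ∀ l, l ≠ a → l ≠ b → k.1 (bv i) l = 0)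
    (hj : ∀ l, l ≠ a → l ≠ b → k.1 (bv j) l = 0) : False := by
  obtain ⟨c, hc⟩ := h.out {a, b} (card_le_two.trans (by omega))
  obtain ⟨d, hd⟩ := h.out {a, b, c} (card_le_three.trans (by omega))
  obtain ⟨e, he⟩ := h.out {a, b, c, d} card_le_four
  simp only [mem_insert, mem_singleton, not_or] at hc hd he
  obtain ⟨l, hl⟩ := h.exists_ne k c
  obtain ⟨h1, h2, h3⟩ := h.triple hk hn (Ne.symm hd.2.2) (Ne.symm he.2.2.1) (Ne.symm he.2.2.2)
    (hi c hc.1 hc.2) (hi d hd.1 hd.2.1) (hi e he.1 he.2.1) hl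
  have hli : i ≠ l := by rintro rfl; exact hl (hi c hc.1 hc.2)
  have hlj : j ≠ l := by rintro rfl; exact hl (hj c hc.1 hc.2)
  obtain ⟨h4, h5⟩ := two_orth (dot_two hab hi ▸ h.unit k i ▸ one_ne_zero)
    (dot_two hab hj ▸ h.unit k j ▸ one_ne_zero) (dot_two hab hi ▸ h.orth k hij)
    (dot_two hab hi ▸ h.orth k hli) (dot_two hab hj ▸ h.orth k hlj)
  have key : ∀ u v, u ≠ v → u ≠ a → u ≠ b → v ≠ a → v ≠ b → k.1 (bv l) u ≠ k.1 (bv l) v :=
    fun u v a1 a2 a3 a4 a5 e => h1 (h.sq_of_swap hk hn hab a1 a2 a3 a4 a5 hi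
      (h.pres_of_fix hk (h.sw a b u v hab a1) (i := l) (by
        simp [O_mul_apply, h.refl_sw hab, h.refl_sw a1, e, h4, h5])))
  rcases mul_self_eq_mul_self_iff.1 h2 with h2 | h2
  · exact key d c hd.2.2 hd.1 hd.2.1 hc.1 hc.2 h2
  rcases mul_self_eq_mul_self_iff.1 h3 with h3 | h3
  · exact key e c he.2.2.1 he.1 he.2.1 hc.1 hc.2 h3
  · exact key e d he.2.2.2 he.1 he.2.1 hd.1 hd.2.1 (h3.trans h2.symm)

omit hn in
/-- an element preserving the plane spanned by two vectors of the frame preserves the frame -/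
theorem pres_of_plane {i j : κ} (hij : i ≠ j) {g : O Q} (hg : g ∈ X)
    (hi : ∃ s t : F, g.1 (k.1 (bv i)) = s • k.1 (bv i) + t • k.1 (bv j))
    (hj : ∃ s t : F, g.1 (k.1 (bv j)) = s • k.1 (bv i) + t • k.1 (bv j)) : Pres k g := by
  refine h.pres_of_mon (by_contra fun hn => h.cent (X.mul_mem (X.mul_mem (X.inv_mem hk) hg) hk) hn
    hij hij (fun l h1 h2 => ?_) fun l h1 h2 => ?_)
  · obtain ⟨s, t, e⟩ := hi
    simp [O_mul_apply, e, O_inv_apply_apply, h1, h2]
  · obtain ⟨s, t, e⟩ := hj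
    simp [O_mul_apply, e, O_inv_apply_apply, h1, h2]

/-- (S), a basis vector is inverted -/
theorem case_neg {i j a d e f : κ} (hij : i ≠ j) (hde : d ≠ e) (hdf : d ≠ f) (hef : e ≠ f)
    (ha : k.1 (bv i) a • k.1 (bv i) + k.1 (bv j) a • k.1 (bv j) = bv a) (hd : k.1 (bv i) d = 0)
    (hd' : k.1 (bv j) d = 0) (he : k.1 (bv i) e = 0) (hf : k.1 (bv i) f = 0) : False := by
  have had : a ≠ d := by
    rintro rfl
    simpa [hd, hd'] using congrFun ha a
  have h1 := h.not_sq hk hn hde hdf hef hd he hf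
  have h2 := h.rr_cases hk hn had (h.pres_of_plane hk hij (h.rr a d)
    ⟨1 - 2 * k.1 (bv i) a * k.1 (bv i) a, -(2 * k.1 (bv i) a * k.1 (bv j) a), by
      rw [h.rr_ap had, hd, ← ha]; module⟩
    ⟨-(2 * k.1 (bv j) a * k.1 (bv i) a), 1 - 2 * k.1 (bv j) a * k.1 (bv j) a, by
      rw [h.rr_ap had, hd', ← ha]; module⟩)
  have h3 : ∀ l, k.1 (bv l) d = 0 → k.1 (bv l) a = 0 := fun l hl => by
    rcases h2 l with r | r | r
    exacts [r.1, absurd hl r.2.1, absurd (isSquare_two (by simpa [hl] using r)) h1]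
  simpa [h3 i hd, h3 j hd'] using congrFun ha a

/-- (S), two transpositions -/
theorem case_two (ι : Fin 6 ≃ κ) {i j : κ} (hij : i ≠ j) {ε η : F} (hε : ε * ε = 1) (hη : η * η = 1)
    (hW : ∀ v : κ → F, (∃ s t : F, v = s • k.1 (bv i) + t • k.1 (bv j)) ↔
      v (ι 1) = ε * v (ι 0) ∧ v (ι 3) = η * v (ι 2) ∧ v (ι 4) = 0 ∧ v (ι 5) = 0) : False := by
  have h2 := h.h2
  have hx := (hW _).1 ⟨1, 0, (by simp : k.1 (bv i) = _)⟩
  have hy := (hW _).1 ⟨0, 1, (by simp : k.1 (bv j) = _)⟩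
  have ne : ∀ {a b : Fin 6}, a ≠ b → ι a ≠ ι b := fun e => ι.injective.ne e
  have hP : ∀ g ∈ X, (∀ v : κ → F, v (ι 1) = ε * v (ι 0) → v (ι 3) = η * v (ι 2) → v (ι 4) = 0 →
      v (ι 5) = 0 → g.1 v (ι 1) = ε * g.1 v (ι 0) ∧ g.1 v (ι 3) = η * g.1 v (ι 2) ∧
        g.1 v (ι 4) = 0 ∧ g.1 v (ι 5) = 0) → Pres k g := fun g hg e =>
    h.pres_of_plane hk hij hg ((hW _).2 (e _ hx.1 hx.2.1 hx.2.2.1 hx.2.2.2))
      ((hW _).2 (e _ hy.1 hy.2.1 hy.2.2.1 hy.2.2.2))
  have dot : ∀ u v : κ → F, u ⬝ᵥ v = u (ι 0) * v (ι 0) + u (ι 1) * v (ι 1) + u (ι 2) * v (ι 2) +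
      u (ι 3) * v (ι 3) + u (ι 4) * v (ι 4) + u (ι 5) * v (ι 5) := fun u v => by
    rw [dotProduct, ← ι.sum_comp, Fin.sum_univ_six]
  obtain ⟨l, hl⟩ := h.exists_ne k (ι 4)
  have hli : l ≠ i := by rintro rfl; exact hl hx.2.2.1
  have hlj : l ≠ j := by rintro rfl; exact hl hy.2.2.1
  have hz : ∀ v : κ → F, v (ι 1) = ε * v (ι 0) → v (ι 3) = η * v (ι 2) → v (ι 4) = 0 →
      v (ι 5) = 0 → k.1 (bv l) ⬝ᵥ v = 0 := fun v a1 a2 a3 a4 => by
    obtain ⟨s, t, rfl⟩ := (hW v).2 ⟨a1, a2, a3, a4⟩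
    simp [h.orth k hli, h.orth k hlj]
  have z1 := hz (bv (ι 0) + ε • bv (ι 1)) (by simp) (by simp) (by simp) (by simp)
  have z2 := hz (bv (ι 2) + η • bv (ι 3)) (by simp) (by simp) (by simp) (by simp)
  simp only [dotProduct_add, dotProduct_smul, dot_bv, smul_eq_mul] at z1 z2
  have hu := dot _ _ ▸ h.unit k l
  rcases h.rr_cases hk hn (ne (by decide : (4 : Fin 6) ≠ 5)) (h.pres_of_fix hk (h.rr _ _) (i := i)
    (by simp [h.refl_bv, hx])) l with r | r | r
  · exact hl r.1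
  · refine h.not_sq hk hn (ne (by decide : (0 : Fin 6) ≠ 1)) (ne (by decide : (0 : Fin 6) ≠ 2))
      (ne (by decide : (1 : Fin 6) ≠ 2)) (r.2.2 _ (by simp) (by simp)) (r.2.2 _ (by simp) (by simp))
      (r.2.2 _ (by simp) (by simp)) (h.sq_of_swap hk hn (a := ι 4) (b := ι 5) (c := ι 0) (d := ι 1)
        (by simp) (by simp) (by simp) (by simp) (by simp) (by simp) r.2.2
        (hP _ (h.sw _ _ _ _ (by simp) (by simp)) fun v a1 a2 a3 a4 => ?_))
    simp [O_mul_apply, h.refl_sw (ne (by decide : (4 : Fin 6) ≠ 5)),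
      h.refl_sw (ne (by decide : (0 : Fin 6) ≠ 1)), a1, a2, a3, a4, ← mul_assoc, hε]
  have r1 := h.rr_cases hk hn (ne (by decide : (0 : Fin 6) ≠ 1)) (hP _ (h.rr _ _)
    fun v a1 a2 a3 a4 => by simp [h.refl_bv, a1, a2, a3, a4]; ring) l
  have r2 := h.rr_cases hk hn (ne (by decide : (2 : Fin 6) ≠ 3)) (hP _ (h.rr _ _)
    fun v a1 a2 a3 a4 => by simp [h.refl_bv, a1, a2, a3, a4]; ring) l
  obtain ⟨g, hg, e⟩ : ∃ g ∈ X, ∀ v : κ → F, g.1 v (ι 0) = v (ι 2) ∧ g.1 v (ι 1) = ε * η * v (ι 3) ∧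
      g.1 v (ι 2) = v (ι 0) ∧ g.1 v (ι 3) = ε * η * v (ι 1) ∧ g.1 v (ι 4) = v (ι 4) ∧
      g.1 v (ι 5) = v (ι 5) := by
    have a1 := h.sw (ι 0) (ι 2) (ι 1) (ι 3) (by simp) (by simp)
    rcases mul_self_eq_one_iff.1 (show ε * η * (ε * η) = 1 by linear_combination η * η * hε + hη)
      with e | e
    · exact ⟨_, a1, fun v => by
        simp [O_mul_apply, h.refl_sw (ne (by decide : (0 : Fin 6) ≠ 2)),
          h.refl_sw (ne (by decide : (1 : Fin 6) ≠ 3)), e]⟩
    · exact ⟨_, X.mul_mem (h.rr (ι 1) (ι 3)) a1, fun v => by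
        simp [O_mul_apply, h.refl_sw (ne (by decide : (0 : Fin 6) ≠ 2)), h.refl_bv,
          h.refl_sw (ne (by decide : (1 : Fin 6) ≠ 3)), e]
        constructor <;> ring⟩
  have r3 := hP g hg (fun v a1 a2 a3 a4 => by
    simp only [e, a1, a2, a3, a4, and_true]
    exact ⟨by linear_combination ε * v (ι 2) * hη, by linear_combination η * v (ι 0) * hε⟩) l
  replace r1 := r1.imp (·.1) (Or.resolve_left · fun r => hl (r.2.2 _ (by simp) (by simp)))
  replace r2 := r2.imp (·.1) (Or.resolve_left · fun r => hl (r.2.2 _ (by simp) (by simp)))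
  replace r3 : k.1 (bv l) (ι 2) = k.1 (bv l) (ι 0) ∨ k.1 (bv l) ⬝ᵥ g.1 (k.1 (bv l)) = 0 := by
    rcases r3 with r3 | r3 | r3
    · exact Or.inl ((e _).1.symm.trans (congrFun r3 _))
    · have r4 := (e _).2.2.2.2.1.symm.trans (congrFun r3 (ι 4))
      rw [Pi.neg_apply] at r4
      exact absurd (mul_left_cancel₀ h2 (by linear_combination r4)) hl
    · exact Or.inr r3
  simp only [dot, e] at r3
  generalize k.1 (bv l) = z at *
  have b1 : z (ι 1) = -(ε * z (ι 0)) := by linear_combination ε * z1 - z (ι 1) * hε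
  have b2 : z (ι 3) = -(η * z (ι 2)) := by linear_combination η * z2 - z (ι 3) * hη
  rw [b1] at hu r1 r3
  rw [b2] at hu r2 r3
  generalize z (ι 0) = p at *
  generalize z (ι 2) = q at *
  generalize z (ι 4) = s at *
  generalize z (ι 5) = t at *
  clear hP hW hx hy hz z1 z2 e dot b1 b2
  grind

theorem false_of_conj (h6 : Fintype.card κ = 6) {i j : κ} (hij : i ≠ j)
    (hm : Mon bv (k * (refl Q (bv i) * refl Q (bv j)) * k⁻¹).1) : False := by
  have h2 := h.h2
  have out : ∀ s : Finset κ, s.card ≤ 5 → ∃ l, l ∉ s := fun s hs => exists_notMem s (by omega)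
  have xx := h.unit k i
  have yy := h.unit k j
  have xy := h.orth k hij
  have yx := h.orth k hij.symm
  have hT : ∀ a, (k.1 (bv i) a = 0 ∧ k.1 (bv j) a = 0) ∨
      k.1 (bv i) a • k.1 (bv i) + k.1 (bv j) a • k.1 (bv j) = bv a ∨ ∃ b, b ≠ a ∧ ∃ c : F, c * c = 1 ∧
        (2 : F) • (k.1 (bv i) a • k.1 (bv i) + k.1 (bv j) a • k.1 (bv j)) = bv a + c • bv b := by
    intro a
    obtain ⟨m, c, e⟩ := hm a
    have h1 := h.dot_map (k * (refl Q (bv i) * refl Q (bv j)) * k⁻¹) (bv a) (bv a)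
    rw [e] at h1
    have h3 : ∀ l, (k⁻¹).1 (bv a) l = k.1 (bv l) a := fun l => by
      rw [← bv_dot l ((k⁻¹).1 (bv a)), ← h.dot_map k, O_apply_inv_apply, dot_bv]
    rw [O_mul_apply, O_mul_apply, h.rr_ap hij, h3, h3, map_sub, map_sub, map_smul, map_smul,
      O_apply_inv_apply] at e
    have h4 : c * c = 1 := by simpa using h1
    by_cases hma : m = a
    · subst hma
      rcases mul_self_eq_one_iff.1 h4 with rfl | rfl
      · have e1 := congrArg (k.1 (bv i) ⬝ᵥ ·) e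
        have e2 := congrArg (k.1 (bv j) ⬝ᵥ ·) e
        simp only [dotProduct_sub, dotProduct_smul, dot_bv, xx, yy, xy, yx, smul_eq_mul] at e1 e2
        exact Or.inl ⟨mul_left_cancel₀ h2 (by linear_combination -e1),
          mul_left_cancel₀ h2 (by linear_combination -e2)⟩
      · exact Or.inr (Or.inl (smul_right_injective _ h2 (by linear_combination (norm := module) -e)))
    · exact Or.inr (Or.inr ⟨m, hma, -c, by simpa using h4, by linear_combination (norm := module) -e⟩)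
  have hA : ∀ a, k.1 (bv i) a * k.1 (bv i) a + k.1 (bv j) a * k.1 (bv j) a = 0 →
      k.1 (bv i) a = 0 ∧ k.1 (bv j) a = 0 := fun a e => by
    rcases hT a with r | r | ⟨b, hb, c, -, r⟩
    · exact r
    · simpa [e] using congrFun r a
    · simpa [e, hb.symm] using congrFun r a
  have hB : ∀ a, ∃ b, ∀ l, l ≠ a → l ≠ b →
      k.1 (bv i) a * k.1 (bv i) l + k.1 (bv j) a * k.1 (bv j) l = 0 := fun a => by
    rcases hT a with r | r | ⟨b, -, c, -, r⟩
    · exact ⟨a, fun l _ _ => by simp [r]⟩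
    · exact ⟨a, fun l hl _ => by simpa [hl] using congrFun r l⟩
    · exact ⟨b, fun l hl hl' => mul_left_cancel₀ h2 (by
        simpa [hl, hl', mul_add] using congrFun r l)⟩
  by_cases hN : ∃ a, k.1 (bv i) a • k.1 (bv i) + k.1 (bv j) a • k.1 (bv j) = bv a
  · obtain ⟨a, ha⟩ := hN
    obtain ⟨S, hS, h0⟩ : ∃ S : Finset κ, S.card ≤ 3 ∧ ∀ l, l ∉ S → k.1 (bv i) l = 0 ∧ k.1 (bv j) l = 0 := by
      by_cases h1 : ∃ b, b ≠ a ∧ k.1 (bv i) b * k.1 (bv i) b + k.1 (bv j) b * k.1 (bv j) b ≠ 0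
      · obtain ⟨b, hb, h1⟩ := h1
        obtain ⟨b', hb'⟩ := hB b
        refine ⟨{a, b, b'}, card_le_three, fun l hl => hA l (by_contra fun h3 => ?_)⟩
        simp only [mem_insert, mem_singleton, not_or] at hl
        exact three_orth (a := k.1 (bv i) a) (a' := k.1 (bv j) a)
          (by simpa using (show _ = (1 : F) by simpa using congrFun ha a) ▸ one_ne_zero) h1 h3
          (by simpa [hb] using congrFun ha b) (by simpa [hl.1] using congrFun ha l) (hb' l hl.2.1 hl.2.2)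
      · push Not at h1
        exact ⟨{a}, by simp, fun l hl => hA l (h1 l (by simpa using hl))⟩
    obtain ⟨d, hd⟩ := out S (by omega)
    obtain ⟨e, he⟩ := out (insert d S) ((card_insert_le _ _).trans (by omega))
    obtain ⟨f, hf⟩ := out (insert e (insert d S)) ((card_insert_le _ _).trans
      (Nat.succ_le_succ ((card_insert_le _ _).trans (by omega))))
    simp only [mem_insert, not_or] at he hf
    exact h.case_neg hk hn hij (Ne.symm he.1) (Ne.symm hf.2.1) (Ne.symm hf.1) ha (h0 d hd).1 (h0 d hd).2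
      (h0 e he.2).1 (h0 f hf.2.2).1
  push Not at hN
  obtain ⟨a, ha⟩ : ∃ a, k.1 (bv i) a ≠ 0 := by
    by_contra! h0
    simp [dotProduct, h0] at xx
  obtain ⟨b, hb, ε, hε, e1⟩ := ((hT a).resolve_left fun r => ha r.1).resolve_left (hN a)
  by_cases h0 : ∀ l, l ≠ a → l ≠ b → k.1 (bv i) l = 0 ∧ k.1 (bv j) l = 0
  · exact h.cent hk hn hb.symm hij (fun l h1 h3 => (h0 l h1 h3).1) fun l h1 h3 => (h0 l h1 h3).2
  simp only [not_forall] at h0
  obtain ⟨c, hca, hcb, hc⟩ := h0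
  obtain ⟨d, hd, η, hη, e2⟩ := ((hT c).resolve_left hc).resolve_left (hN c)
  have g1 : ∀ l, l ≠ a → l ≠ b → k.1 (bv i) a * k.1 (bv i) l + k.1 (bv j) a * k.1 (bv j) l = 0 :=
    fun l hl hl' => mul_left_cancel₀ h2 (by simpa [hl, hl', mul_add] using congrFun e1 l)
  have g2 : ∀ l, l ≠ c → l ≠ d → k.1 (bv i) c * k.1 (bv i) l + k.1 (bv j) c * k.1 (bv j) l = 0 :=
    fun l hl hl' => mul_left_cancel₀ h2 (by simpa [hl, hl', mul_add] using congrFun e2 l)
  have g3 : (bv a + ε • bv b : κ → F) ⬝ᵥ (bv c + η • bv d) = 0 := by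
    rw [← e1, ← e2]
    simp only [dotProduct_add, add_dotProduct, dotProduct_smul, smul_dotProduct, xx, yy, xy, yx,
      smul_eq_mul]
    linear_combination 4 * g1 c hca hcb
  have hε0 : ε ≠ 0 := left_ne_zero_of_mul_eq_one hε
  have hη0 : η ≠ 0 := left_ne_zero_of_mul_eq_one hη
  have hda : d ≠ a := by rintro rfl; simp [hb, hb.symm, hca, hcb, hca.symm, hcb.symm, hη0] at g3
  have hdb : d ≠ b := by rintro rfl; simp [hb, hb.symm, hca, hcb, hca.symm, hcb.symm, hη0, hε0] at g3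
  have g4 : ∀ l, l ≠ a → l ≠ b → l ≠ c → l ≠ d → k.1 (bv i) l = 0 ∧ k.1 (bv j) l = 0 :=
    fun l a1 a2 a3 a4 => hA l (by_contra fun h3 => three_orth (fun e => ha (hA a e).1)
      (fun e => hc (hA c e)) h3 (g1 c hca hcb) (g1 l a1 a2) (g2 l a3 a4))
  obtain ⟨e, he⟩ := out {a, b, c, d} (card_le_four.trans (by omega))
  obtain ⟨f, hf⟩ := out {a, b, c, d, e} card_le_five
  simp only [mem_insert, mem_singleton, not_or] at he hf
  have hι : Function.Injective ![a, b, c, d, e, f] := by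
    simp [List.nodup_ofFn.symm, List.ofFn_succ, hb.symm, hca.symm, hcb.symm, hda.symm, hdb.symm,
      hd.symm, Ne.symm he.1, Ne.symm he.2.1, Ne.symm he.2.2.1, Ne.symm he.2.2.2, Ne.symm hf.1,
      Ne.symm hf.2.1, Ne.symm hf.2.2.1, Ne.symm hf.2.2.2.1, Ne.symm hf.2.2.2.2]
  let ι := Equiv.ofBijective _ ((Fintype.bijective_iff_injective_and_card _).2 ⟨hι, by simp [h6]⟩)
  refine h.case_two hk hn ι hij hε hη fun v => ?_
  change _ ↔ v b = ε * v a ∧ v d = η * v c ∧ v e = 0 ∧ v f = 0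
  constructor
  · rintro ⟨s, t, rfl⟩
    have a1 := congrArg (k.1 (bv i) ⬝ᵥ ·) e1
    have a2 := congrArg (k.1 (bv j) ⬝ᵥ ·) e1
    have a3 := congrArg (k.1 (bv i) ⬝ᵥ ·) e2
    have a4 := congrArg (k.1 (bv j) ⬝ᵥ ·) e2
    simp only [dotProduct_add, dotProduct_smul, dot_bv, xx, yy, xy, yx, smul_eq_mul] at a1 a2 a3 a4
    simp only [Pi.add_apply, Pi.smul_apply, smul_eq_mul, g4 e he.1 he.2.1 he.2.2.1 he.2.2.2,
      g4 f hf.1 hf.2.1 hf.2.2.1 hf.2.2.2.1, mul_zero, add_zero, and_true]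
    exact ⟨by linear_combination -(s * ε) * a1 - (t * ε) * a2 - (s * k.1 (bv i) b + t * k.1 (bv j) b) * hε,
      by linear_combination -(s * η) * a3 - (t * η) * a4 - (s * k.1 (bv i) d + t * k.1 (bv j) d) * hη⟩
  · rintro ⟨a1, a2, a3, a4⟩
    have a5 : v = v a • (bv a + ε • bv b) + v c • (bv c + η • bv d) := funext fun l => by
      obtain ⟨m, rfl⟩ := ι.surjective l
      fin_cases m <;> simp [ι, hb, hb.symm, hca, hcb, hda, hdb, hd, hca.symm, hcb.symm, hda.symm,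
        hdb.symm, hd.symm, he, hf, a1, a2, a3, a4, mul_comm]
    exact ⟨2 * (v a * k.1 (bv i) a + v c * k.1 (bv i) c), 2 * (v a * k.1 (bv j) a + v c * k.1 (bv j) c),
      a5.trans (by rw [← e1, ← e2]; module)⟩

end R6

/-- Orthogonal frames in dimension six. -/
theorem FR6 (h : Std5 Q) (h6 : Fintype.card κ = 6)
    (rr : ∀ i j, refl Q (bv i) * refl Q (bv j) ∈ X)
    (sw : ∀ a b c d, a ≠ b → c ≠ d → refl Q (bv a - bv b) * refl Q (bv c - bv d) ∈ X)
    (rot : IsSquare (2 : F) → ∀ a b, a ≠ b → refl Q (bv a) * refl Q (bv a - bv b) ∈ X) :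
    E Q ≤ X ∨ ∀ k ∈ X, ∀ i j, i ≠ j →
      Mon bv (k * (refl Q (bv i) * refl Q (bv j)) * k⁻¹).1 → Mon bv k.1 := by
  refine or_iff_not_imp_left.2 fun hE k hk i j hij hm => by_contra fun hn =>
    R6.false_of_conj ⟨h, rr, sw, rot, fun g hg l ⟨m, c, e⟩ => by_contra fun hg' => hE ?_⟩ hk hn h6 hij hm
  obtain ⟨N, h1, h2, h3⟩ := exists_hat' X (bv l)
  have h4 : ∀ g ∈ X, IsPt bv (g.1 (bv l)) F → g ∈ N := fun g hg ⟨m, c, e⟩ => h1 g hg (by
    rw [e, refl_smul (by rintro rfl; exact O_apply_ne_zero g (h.frame.ne_zero l) (by simpa using e))]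
    exact rr l m)
  have h5 := FR5 (N := N) h (fun i => h2 _ (rr l i))
    (fun a b c d hab hcd => h4 _ (sw a b c d hab hcd) (((h.mon_sw hab).mul (h.mon_sw hcd)) l))
    (fun hs a b hab => h2 _ (by
      simpa [mul_assoc, ← mul_assoc (refl Q (bv a)), refl_mul_self] using
        X.mul_mem (rr l a) (rot hs a b hab))) (h4 g hg ⟨m, c, e⟩) hg'
  refine E_le fun u v hu hv => ?_
  have h6 := h3 _ (h5 (eich_mem_E u ((2 : F)⁻¹ • v)))
  rwa [← pow_two, eich_pow hu (by simp [hv]), smul_smul, Nat.cast_ofNat, mul_inv_cancel₀ h.h2,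
    one_smul] at h6

end CfsgLib.C6
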