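import Mathlib
import Cfsg.Prelude.Def_TwoFusion
import Cfsg.Prelude.Def_PLocal
import Cfsg.Agent.Lib.StrEmb.Basic

/-! A strongly closed elementary abelian section whose centralisers normalise it. -/

set_option autoImplicit false
set_option linter.unusedSectionVars false

namespace CfsgLib.C6

open Cfsg Subgroup

universe u

/-- The strong embedding theorem for strongly closed 2-subgroups. -/
def SE : Prop := ∀ (G : Type u) [Group G] [Finite G] (T : Sylow 2 G) (S : Subgroup G), S ≠ ⊥ →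
  IsStronglyClosed S (T : Subgroup G) → ∀ H : Subgroup G, H ≠ ⊤ →
  (∀ s ∈ S, s ≠ 1 → centralizer ({s} : Set G) ≤ H) →
  normalizer ((omegaOne 2 S : Subgroup G) : Set G) ≤ H →
  IsStronglyEmbedded ((H ⊓ normalClosure (S : Set G)).subgroupOf (normalClosure (S : Set G)))

theorem conj_of_sc (hse : SE.{u}) {G : Type u} [Group G] [Finite G] {S : Subgroup G}
    (hsq : ∀ s ∈ S, s * s = 1) (hS : S ≠ ⊥)
    (hC : ∀ s ∈ S, s ≠ 1 → centralizer ({s} : Set G) ≤ normalizer S)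
    (hSC : ∀ g : G, ∀ s ∈ S, g * s * g⁻¹ ∈ normalizer (S : Set G) → g * s * g⁻¹ ∈ S)
    (hN : normalizer (S : Set G) ≠ ⊤) {a b : G} (ha : a ∈ normalizer (S : Set G) ⊓ normalClosure S)
    (hb : b ∈ normalizer (S : Set G) ⊓ normalClosure S) (h1 : orderOf a = 2) (h2 : orderOf b = 2) :
    ∃ m ∈ normalizer (S : Set G) ⊓ normalClosure S, m * a * m⁻¹ = b := by
  have hp : IsPGroup 2 S := fun s => ⟨1, Subtype.ext (by simpa [pow_two] using hsq s s.2)⟩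
  obtain ⟨T, hT⟩ := hp.exists_le_sylow
  have hTN : (T : Subgroup G) ≤ normalizer S := by
    have := T.isPGroup'.isNilpotent
    rw [← subgroupOf_eq_top]
    by_contra h
    obtain ⟨n, h3, h4⟩ := SetLike.exists_of_lt
      (Group.normalizerCondition_of_isNilpotent _ (lt_top_iff_ne_top.2 h))
    refine h4 (mem_normalizer_fintype fun s hs => hSC _ s hs ?_)
    exact (mem_normalizer_iff.1 h3 ⟨s, hT hs⟩).1 (le_normalizer hs)
  have ho : omegaOne 2 S = S := le_antisymm ((closure_le _).2 fun x hx => hx.1)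
    fun x hx => subset_closure ⟨hx, by simpa [pow_two] using hsq x hx⟩
  have h := hse G T S hS ⟨hT, fun x hx g hg => hSC g x hx (hTN hg)⟩ _ hN hC (by rw [ho])
  have := StrEmb.nontrivial_quotient h.1
  have a1 : orderOf (⟨a, ha.2⟩ : normalClosure (S : Set G)) = 2 := by rw [← h1, orderOf_mk]
  have b1 : orderOf (⟨b, hb.2⟩ : normalClosure (S : Set G)) = 2 := by rw [← h2, orderOf_mk]
  obtain ⟨g, hg⟩ := isConj_iff.1 ((StrEmb.uniqueFix_of_isStronglyEmbedded h).isConj a1 b1)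
  refine ⟨g, StrEmb.mem_of_conj_mem h b1 hb ?_, congrArg Subtype.val hg⟩
  rw [← hg]
  simpa [mul_assoc, mem_subgroupOf] using (mem_inf.1 ha).1

theorem exists_core_aux (hse : SE.{u}) {G : Type*} {Q : Type u} [Group G] [Group Q] [Finite Q]
    {π : G →* Q} (hπ : Function.Surjective π) {R Z : Subgroup G} (h1 : ∀ g, π g = 1 ↔ g ∈ Z)
    (hZR : Z ≤ R) (hsq : ∀ r ∈ R, r * r ∈ Z) (hne : ∃ r ∈ R, r ∉ Z)
    (hC : ∀ g, ∀ r ∈ R, r ∉ Z → g * r * g⁻¹ * r⁻¹ ∈ Z → g ∈ normalizer (R : Set G))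
    (hSC : ∀ g, ∀ r ∈ R, g * r * g⁻¹ ∈ normalizer (R : Set G) → g * r * g⁻¹ ∈ R)
    (hX : normalizer (R : Set G) ≠ ⊤) :
    ∃ K : Subgroup G, K.Normal ∧ R ≤ K ∧ ∀ a ∈ normalizer (R : Set G) ⊓ K,
      ∀ b ∈ normalizer (R : Set G) ⊓ K, a ∉ Z → b ∉ Z → a * a ∈ Z → b * b ∈ Z →
        ∃ m ∈ normalizer (R : Set G) ⊓ K, m * a * m⁻¹ * b⁻¹ ∈ Z := by
  obtain ⟨S, h2⟩ : ∃ S : Subgroup Q, S.comap π = R :=
    ⟨_, comap_map_eq_self fun g hg => hZR ((h1 g).1 hg)⟩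
  have h3 : ∀ g, π g ∈ S ↔ g ∈ R := fun g => by rw [← mem_comap, h2]
  have h4 : ∀ g, π g ∈ normalizer (S : Set Q) ↔ g ∈ normalizer (R : Set G) := fun g => by
    rw [← mem_comap, comap_normalizer_eq_of_surjective _ hπ, h2]
  have a1 : ∀ s ∈ S, s * s = 1 := fun s hs => by
    obtain ⟨s, rfl⟩ := hπ s
    rw [← map_mul, h1]
    exact hsq _ ((h3 s).1 hs)
  have a2 : S ≠ ⊥ := fun h => by
    obtain ⟨r, hr, hr'⟩ := hne
    rw [← h3, h, mem_bot, h1] at hr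
    exact hr' hr
  have a3 : ∀ s ∈ S, s ≠ 1 → centralizer ({s} : Set Q) ≤ normalizer S := fun s hs hs1 g hg => by
    obtain ⟨s, rfl⟩ := hπ s
    obtain ⟨g, rfl⟩ := hπ g
    refine (h4 g).2 (hC g s ((h3 s).1 hs) (fun h => hs1 ((h1 s).2 h)) ((h1 _).1 ?_))
    simp only [map_mul, map_inv, mem_centralizer_singleton_iff.1 hg, mul_inv_cancel_right,
      mul_inv_cancel]
  have a4 : ∀ g : Q, ∀ s ∈ S, g * s * g⁻¹ ∈ normalizer (S : Set Q) → g * s * g⁻¹ ∈ S :=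
    fun g s hs h => by
      obtain ⟨s, rfl⟩ := hπ s
      obtain ⟨g, rfl⟩ := hπ g
      rw [← map_inv, ← map_mul, ← map_mul] at h ⊢
      exact (h3 _).2 (hSC g s ((h3 s).1 hs) ((h4 _).1 h))
  have a5 : normalizer (S : Set Q) ≠ ⊤ := fun h => hX (eq_top_iff.2 fun g _ => by
    rw [← h4, h]; trivial)
  refine ⟨(normalClosure (S : Set Q)).comap π, inferInstance, fun r hr =>
    mem_comap.2 (le_normalClosure ((h3 _).2 hr)), fun a ha b hb b1 b2 b3 b4 => ?_⟩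
  obtain ⟨m, hm, e⟩ := conj_of_sc hse a1 a2 a3 a4 a5 (a := π a) (b := π b)
    (mem_inf.2 ⟨(h4 a).2 (mem_inf.1 ha).1, mem_comap.1 (mem_inf.1 ha).2⟩)
    (mem_inf.2 ⟨(h4 b).2 (mem_inf.1 hb).1, mem_comap.1 (mem_inf.1 hb).2⟩)
    (StrEmb.orderOf_eq_two (by rw [← map_mul, h1]; exact b3) fun h => b1 ((h1 a).1 h))
    (StrEmb.orderOf_eq_two (by rw [← map_mul, h1]; exact b4) fun h => b2 ((h1 b).1 h))
  obtain ⟨m, rfl⟩ := hπ m
  refine ⟨m, mem_inf.2 ⟨(h4 m).1 (mem_inf.1 hm).1, mem_comap.2 (mem_inf.1 hm).2⟩, (h1 _).1 ?_⟩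
  simp only [map_mul, map_inv, e, mul_inv_cancel]

theorem exists_core (hse : SE.{u}) {Γ : Type u} [Group Γ] [Finite Γ] {X R Z N : Subgroup Γ}
    (hZR : Z ≤ R) (hRX : R ≤ X) (hZ : ∀ g ∈ X, ∀ c ∈ Z, c * g = g * c)
    (hN : ∀ g ∈ X, g ∈ N ↔ g ∈ normalizer (R : Set Γ)) (hsq : ∀ r ∈ R, r * r ∈ Z)
    (hne : ∃ r ∈ R, r ∉ Z) (hC : ∀ g ∈ X, ∀ r ∈ R, r ∉ Z → g * r * g⁻¹ * r⁻¹ ∈ Z → g ∈ N)
    (hSC : ∀ g ∈ X, ∀ r ∈ R, g * r * g⁻¹ ∈ N → g * r * g⁻¹ ∈ R) (hX : ¬ X ≤ N) :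
    ∃ M : Subgroup Γ, R ≤ M ∧ M ≤ X ∧ M ≤ N ∧ (∀ n ∈ X, n ∈ N → ∀ m ∈ M, n * m * n⁻¹ ∈ M) ∧
      ∀ a ∈ M, ∀ b ∈ M, a ∉ Z → b ∉ Z → a * a ∈ Z → b * b ∈ Z →
        ∃ m ∈ M, m * a * m⁻¹ * b⁻¹ ∈ Z := by
  have hn : (Z.subgroupOf X).Normal := ⟨fun c hc g => by
    rw [mem_subgroupOf, coe_mul, coe_mul, ← hZ g g.2 c hc, coe_inv, mul_inv_cancel_right]
    exact hc⟩
  have h4 : ∀ g : X, g ∈ normalizer (R.subgroupOf X : Set X) ↔ g.1 ∈ N := fun g => by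
    rw [← subgroupOf_normalizer_eq hRX, mem_subgroupOf, hN g g.2]
  obtain ⟨r, hr, hr'⟩ := hne
  obtain ⟨K, hK, h1, h2⟩ := exists_core_aux hse (QuotientGroup.mk'_surjective (Z.subgroupOf X))
    (R := R.subgroupOf X) (Z := Z.subgroupOf X) QuotientGroup.eq_one_iff (fun g hg => hZR hg)
    (fun r hr => hsq r hr) ⟨⟨r, hRX hr⟩, hr, hr'⟩
    (fun g r a1 a2 a3 => (h4 g).2 (hC g g.2 r a1 a2 a3))
    (fun g r a1 a2 => hSC g g.2 r a1 ((h4 _).1 a2))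
    (fun h => hX fun g hg => (h4 ⟨g, hg⟩).1 (by rw [h]; trivial))
  have h3 : ∀ g : X, g.1 ∈ N ⊓ K.map X.subtype ↔ g ∈ normalizer (R.subgroupOf X : Set X) ⊓ K :=
    fun g => by rw [mem_inf, mem_inf, h4, ← mem_map_iff_mem X.subtype_injective]; rfl
  have h5 : N ⊓ K.map X.subtype ≤ X := inf_le_right.trans (map_subtype_le _)
  refine ⟨N ⊓ K.map X.subtype, fun r hr => (h3 ⟨r, hRX hr⟩).2 (mem_inf.2 ⟨le_normalizer hr, h1 hr⟩),
    h5, inf_le_left, fun n hX hN m hm => ?_, fun a ha b hb a1 a2 a3 a4 => ?_⟩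
  · refine (h3 (⟨n, hX⟩ * ⟨m, h5 hm⟩ * ⟨n, hX⟩⁻¹)).2 (mem_inf.2 ⟨(h4 _).2 ?_, ?_⟩)
    · exact N.mul_mem (N.mul_mem hN (mem_inf.1 hm).1) (N.inv_mem hN)
    · exact hK.conj_mem _ (mem_inf.1 ((h3 ⟨m, h5 hm⟩).1 hm)).2 _
  · obtain ⟨m, hm, e⟩ := h2 ⟨a, h5 ha⟩ ((h3 _).1 ha) ⟨b, h5 hb⟩ ((h3 _).1 hb) a1 a2 a3 a4
    exact ⟨m, (h3 m).2 hm, e⟩

end CfsgLib.C6
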