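import Mathlib
import Cfsg.Agent.Lib.OMax.Basic

/-! Quadratic spaces over the field with two elements: transvections, transitivity, and subgroups of
the orthogonal group acting trivially on the sections `a^⊥ / a`. -/

set_option autoImplicit false
set_option linter.unusedSectionVars false

namespace CfsgLib.C6

open CfsgLib.OrthE CfsgLib.OMax Module QuadraticMap

variable {E : Type*} [AddCommGroup E] [Module (ZMod 2) E] {Q : QuadraticForm (ZMod 2) E}

theorem z2 (t : ZMod 2) : t = 0 ∨ t = 1 := by revert t; decide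

theorem z2_ne {t : ZMod 2} : t ≠ 0 ↔ t = 1 := by revert t; decide

theorem z2_ne' {t : ZMod 2} : t ≠ 1 ↔ t = 0 := by revert t; decide

theorem z11 : (1 : ZMod 2) + 1 = 0 := rfl

theorem zadd (t : ZMod 2) : t + t = 0 := by revert t; decide

theorem aself (x : E) : x + x = 0 := ZModModule.add_self x

theorem aleft (x y : E) : x + (x + y) = y := by rw [← add_assoc, aself, zero_add]

theorem aright (x y : E) : y + x + x = y := by rw [add_assoc, aself, add_zero]

theorem add_eq_zero' {x y : E} : x + y = 0 ↔ x = y :=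
  ⟨fun h => by rw [← aright y x, h, zero_add], fun h => h ▸ aself x⟩

theorem add_ne {x y : E} (h : x ≠ y) : x + y ≠ 0 := fun h' => h (add_eq_zero'.1 h')

@[simp high] theorem pss (x : E) : polar Q x x = 0 := by
  rw [polar_self', show (2 : ZMod 2) = 0 from rfl, zero_mul]

theorem pc1 {x y : E} (h : polar Q x y = 1) : polar Q y x = 1 := by rwa [polar_comm]

theorem exists_one (hQ : Nondeg Q) {x : E} (hx : x ≠ 0) : ∃ y, polar Q x y = 1 :=
  let ⟨y, hy⟩ := hQ.exists_eq hx 1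
  ⟨y, pc1 hy⟩

theorem ne_of_Q {x : E} (h : Q x = 1) : x ≠ 0 := by rintro rfl; simp at h

theorem mem_span_one {x y : E} : y ∈ Submodule.span (ZMod 2) {x} ↔ y = 0 ∨ y = x := by
  rw [Submodule.mem_span_singleton]
  constructor
  · rintro ⟨c, rfl⟩
    rcases z2 c with rfl | rfl <;> simp
  · rintro (rfl | rfl)
    exacts [⟨0, by simp⟩, ⟨1, by simp⟩]

theorem mem_span_two {x z y : E} :
    y ∈ Submodule.span (ZMod 2) {x, z} ↔ y = 0 ∨ y = x ∨ y = z ∨ y = x + z := by
  rw [Submodule.mem_span_pair]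
  constructor
  · rintro ⟨c, d, rfl⟩
    rcases z2 c with rfl | rfl <;> rcases z2 d with rfl | rfl <;> simp
  · rintro (rfl | rfl | rfl | rfl)
    exacts [⟨0, 0, by simp⟩, ⟨1, 0, by simp⟩, ⟨0, 1, by simp⟩, ⟨1, 1, by simp⟩]

theorem one_of_three {u v : E} (h : polar Q u v = 1) (φ : E →+ ZMod 2) :
    Q u + φ u = 1 ∨ Q v + φ v = 1 ∨ Q (u + v) + φ (u + v) = 1 := by
  rw [Q_add, map_add, h]
  generalize Q u = a, Q v = b, φ u = c, φ v = d
  revert a b c d; decide

theorem one_of_three' {u v : E} (h : polar Q u v = 1) : Q u = 1 ∨ Q v = 1 ∨ Q (u + v) = 1 := by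
  simpa using one_of_three h 0

variable (Q) in
/-- The transvection `y ↦ y + ⟨x, y⟩ x`. -/
def tvE (x : E) : E ≃ₗ[ZMod 2] E :=
  LinearEquiv.ofInvolutive (LinearMap.id + (polarBilin Q x).smulRight x) fun y => by
    simp [add_assoc, aself]

theorem tvE_apply (x y : E) : tvE Q x y = y + polar Q x y • x := by
  simp [tvE, LinearEquiv.ofInvolutive]

theorem tvE_of_zero {x y : E} (h : polar Q x y = 0) : tvE Q x y = y := by simp [tvE_apply, h]

theorem tvE_of_one {x y : E} (h : polar Q x y = 1) : tvE Q x y = y + x := by simp [tvE_apply, h]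

theorem tvE_self (x : E) : tvE Q x x = x := tvE_of_zero (pss x)

theorem tvE_zero : tvE Q 0 = 1 := LinearEquiv.ext fun y => tvE_of_zero (by simp)

theorem tvE_tvE (x y : E) : tvE Q x (tvE Q x y) = y := by
  simp [tvE_apply, add_assoc, aself]

theorem tvE_mul_self (x : E) : tvE Q x * tvE Q x = 1 := LinearEquiv.ext (tvE_tvE x)

theorem tvE_inv (x : E) : (tvE Q x)⁻¹ = tvE Q x := inv_eq_of_mul_eq_one_right (tvE_mul_self x)

theorem polar_tvE (x y z : E) : polar Q (tvE Q x y) (tvE Q x z) = polar Q y z := by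
  simp only [tvE_apply, polar_add_left, polar_add_right, polar_smul_left, polar_smul_right, pss,
    smul_eq_mul, polar_comm Q y x]
  generalize polar Q y z = a, polar Q x y = b, polar Q x z = c
  revert a b c; decide

theorem Q_tvE {c : E} (hc : Q c = 1) (y : E) : Q (tvE Q c y) = Q y := by
  rcases z2 (polar Q c y) with h | h
  · rw [tvE_of_zero h]
  · rw [tvE_of_one h, Q_add, hc, pc1 h, add_assoc, z11, add_zero]

theorem polar_of_Q {g : E ≃ₗ[ZMod 2] E} (hg : ∀ x, Q (g x) = Q x) (x y : E) :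
    polar Q (g x) (g y) = polar Q x y := by
  simp only [polar, ← map_add, hg]

theorem conj_tvE {g : E ≃ₗ[ZMod 2] E} (hg : ∀ x y, polar Q (g x) (g y) = polar Q x y) (x : E) :
    g * tvE Q x * g⁻¹ = tvE Q (g x) := by
  rw [mul_inv_eq_iff_eq_mul]
  ext y
  simp [tvE_apply, hg]

theorem conj_tvE₂ {g : E ≃ₗ[ZMod 2] E} (hg : ∀ x y, polar Q (g x) (g y) = polar Q x y) (x y : E) :
    g * (tvE Q x * tvE Q y) * g⁻¹ = tvE Q (g x) * tvE Q (g y) := by
  rw [← conj_tvE hg, ← conj_tvE hg]; group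

theorem tvE_conj (x y : E) : tvE Q x * tvE Q y * tvE Q x = tvE Q (tvE Q x y) := by
  rw [← conj_tvE (polar_tvE x), tvE_inv]

theorem eq_zero_of_smul_eq {c d : E} (hc : c ≠ 0) (hcd : c ≠ d) {s t : ZMod 2}
    (h : s • c = t • d) : s = 0 := by
  rcases z2 s with rfl | rfl
  · rfl
  · rcases z2 t with rfl | rfl <;> simp [hc, hcd] at h

variable [FiniteDimensional (ZMod 2) E]

theorem dual2 (hQ : Nondeg Q) {x y : E} (hx : x ≠ 0) (hy : y ≠ 0) (hxy : x ≠ y) (s t : ZMod 2) :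
    ∃ w, polar Q x w = s ∧ polar Q y w = t := by
  obtain ⟨u, h1, h2⟩ := exists_dual_one hQ (x := y) (z := x) (by simp [mem_span_one, hx, hxy])
  obtain ⟨v, h3, h4⟩ := exists_dual_one hQ (x := x) (z := y) (by simp [mem_span_one, hy, hxy.symm])
  exact ⟨s • u + t • v, by simp [h1, h4], by simp [h2, h3]⟩

theorem tvE_inj (hQ : Nondeg Q) {x y : E} (h : tvE Q x = tvE Q y) : x = y := by
  by_contra hxy
  wlog hx : x ≠ 0 generalizing x y
  · exact this h.symm (Ne.symm hxy) fun h0 => hxy ((not_not.1 hx).trans h0.symm)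
  obtain ⟨w, hw⟩ := exists_one hQ hx
  have := LinearEquiv.congr_fun h w
  rw [tvE_apply, tvE_apply, add_right_inj] at this
  exact one_ne_zero (hw.symm.trans (eq_zero_of_smul_eq hx hxy this))

theorem mem_span_of_tvE (hQ : Nondeg Q) {c d c' d' : E} (hcd : c' ≠ d')
    (h : tvE Q c' * tvE Q d' = tvE Q c * tvE Q d) : c' ∈ Submodule.span (ZMod 2) {c, d} := by
  by_contra hn
  obtain ⟨y, h1, h2, h3⟩ := exists_dual_pair hQ hn
  have h4 := congrArg (tvE Q c') (LinearEquiv.congr_fun h y)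
  rw [LinearEquiv.mul_apply, LinearEquiv.mul_apply, tvE_tvE, tvE_of_zero h3, tvE_of_zero h2,
    tvE_apply, tvE_apply, add_right_inj] at h4
  exact one_ne_zero (h1.symm.trans (eq_zero_of_smul_eq (fun h0 => hn (by simp [h0]))
    hcd h4.symm))

theorem exists_hyp_orth (hQ : Nondeg Q) (l : List E) (h : 2 * l.length < finrank (ZMod 2) E) :
    ∃ u v, (∀ w ∈ l, polar Q w u = 0) ∧ (∀ w ∈ l, polar Q w v = 0) ∧ polar Q u v = 1 := by
  classical
  set U := Submodule.span (ZMod 2) (l.toFinset : Set E)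
  have h1 : finrank (ZMod 2) U ≤ l.length := (finrank_span_finset_le_card _).trans l.toFinset_card_le
  obtain ⟨u, -, h2, h3⟩ := exists_orth_not_mem hQ ⊤ U l (by rw [finrank_top]; omega)
  obtain ⟨v, h4, h5⟩ := exists_dual hQ U h2
  exact ⟨u, v, h3, fun w hw => pc (h5 w (Submodule.subset_span (by simpa using hw))), pc1 h4⟩

theorem exists_hyp_pair (hQ : Nondeg Q) (h3 : 3 ≤ finrank (ZMod 2) E) {c d : E}
    (hcd : polar Q c d = 1) : ∃ u v, (polar Q c u = 0 ∧ polar Q d u = 0) ∧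
      (polar Q c v = 0 ∧ polar Q d v = 0) ∧ polar Q u v = 1 := by
  obtain ⟨u, -, h1, h2⟩ := exists_orth_not_mem hQ ⊤ ⊥ [c, d] (by simp; omega)
  obtain ⟨v, hv⟩ := exists_one hQ (x := u) (by simpa using h1)
  have a1 := h2 c (by simp)
  have a2 := h2 d (by simp)
  refine ⟨u, v + polar Q d v • c + polar Q c v • d, ⟨a1, a2⟩, ⟨?_, ?_⟩, ?_⟩
  · simp [hcd, zadd]
  · simp [pc1 hcd, zadd]
  · simp [hv, pc a1, pc a2]

/-- A non-singular vector orthogonal to `x` and different from it. -/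
theorem exists_ns_orth (hQ : Nondeg Q) (h3 : 3 ≤ finrank (ZMod 2) E) (x : E) :
    ∃ c, Q c = 1 ∧ polar Q x c = 0 ∧ c ≠ x := by
  obtain ⟨u, v, h1, h2, h⟩ := exists_hyp_orth hQ [x] (by simp; omega)
  have a1 := h1 x (by simp)
  have a2 := h2 x (by simp)
  rcases one_of_three' h with h4 | h4 | h4
  · exact ⟨u, h4, a1, by rintro rfl; simp [h] at a2⟩
  · exact ⟨v, h4, a2, by rintro rfl; simp [pc1 h] at a1⟩
  · exact ⟨u + v, h4, by simp [a1, a2], by rintro rfl; simp [h] at a2⟩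

theorem ns_induction (hQ : Nondeg Q) (h3 : 3 ≤ finrank (ZMod 2) E) {p : E → Prop}
    (h1 : ∀ c, Q c = 1 → p c) (h2 : ∀ x y, p x → p y → p (x + y)) (x : E) : p x := by
  rcases z2 (Q x) with h | h
  · obtain ⟨c, a1, a2, -⟩ := exists_ns_orth hQ h3 x
    rw [← aright c x]
    exact h2 _ _ (h1 _ (by simp [Q_add, h, a1, a2])) (h1 c a1)
  · exact h1 x h

theorem exists_sing (hQ : Nondeg Q) (h3 : 3 ≤ finrank (ZMod 2) E) : ∃ x, x ≠ 0 ∧ Q x = 0 := by
  obtain ⟨x, -, h1, h2, -⟩ := exists_sing_orth hQ ⊤ [] (by simpa using h3)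
  exact ⟨x, h1, h2⟩

/-- A singular vector orthogonal to a singular vector and independent of it. -/
theorem exists_sing_two (hQ : Nondeg Q) (h5 : 5 ≤ finrank (ZMod 2) E) {a : E} (ha : a ≠ 0) :
    ∃ x, x ≠ 0 ∧ x ≠ a ∧ Q x = 0 ∧ polar Q a x = 0 := by
  obtain ⟨b, hb⟩ := exists_one hQ ha
  obtain ⟨x, -, h1, h2, h3⟩ := exists_sing_orth hQ ⊤ [a, b] (by simpa using h5)
  refine ⟨x, h1, ?_, h2, h3 a (by simp)⟩
  rintro rfl
  exact one_ne_zero (hb.symm.trans (pc (h3 b (by simp))))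

variable {Γ : Subgroup (E ≃ₗ[ZMod 2] E)}

theorem trans_all (hQ : Nondeg Q) (hΓ : ∀ x, tvE Q x ∈ Γ) {x y : E} (hx : x ≠ 0) (hy : y ≠ 0) :
    ∃ g ∈ Γ, g x = y := by
  have key : ∀ x y : E, polar Q x y = 1 → tvE Q (x + y) x = y := fun x y h => by
    rw [tvE_of_one (by simp [pc1 h]), aleft]
  by_cases hxy : x = y
  · exact ⟨1, Γ.one_mem, hxy⟩
  obtain ⟨w, h1, h2⟩ := dual2 hQ hx hy hxy 1 1
  exact ⟨_, Γ.mul_mem (hΓ (w + y)) (hΓ (x + w)), by
    rw [LinearEquiv.mul_apply, key x w h1, key w y (pc1 h2)]⟩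

theorem trans_Q (hQ : Nondeg Q) (h5 : 5 ≤ finrank (ZMod 2) E)
    (hΓ : ∀ c d, Q c = 1 → Q d = 1 → tvE Q c * tvE Q d ∈ Γ) {x y : E} (hx : x ≠ 0) (hy : y ≠ 0)
    (h : Q x = Q y) : ∃ g ∈ Γ, g x = y := by
  have key : ∀ x y : E, polar Q x y = 1 → tvE Q (x + y) x = y := fun x y h => by
    rw [tvE_of_one (by simp [pc1 h]), aleft]
  have ns : ∀ x y : E, polar Q x y = 1 → Q x = Q y → Q (x + y) = 1 := fun x y h h' => by
    rw [Q_add, h, h', zadd, zero_add]
  by_cases hxy : x = y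
  · exact ⟨1, Γ.one_mem, hxy⟩
  obtain ⟨w, h1, h2, h3⟩ : ∃ w, polar Q x w = 1 ∧ polar Q y w = 1 ∧ Q w = Q x := by
    obtain ⟨w, h1, h2⟩ := dual2 hQ hx hy hxy 1 1
    by_cases h3 : Q w = Q x
    · exact ⟨w, h1, h2, h3⟩
    obtain ⟨u, v, a1, a2, a3⟩ := exists_hyp_orth hQ [x, y] (by simp; omega)
    have fin : ∀ z, polar Q x z = 0 → polar Q y z = 0 → Q z + polar Q w z = 1 →
        ∃ w, polar Q x w = 1 ∧ polar Q y w = 1 ∧ Q w = Q x := fun z b1 b2 b3 =>
      ⟨w + z, by simp [h1, b1], by simp [h2, b2], by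
        rw [Q_add, add_assoc, b3]
        revert h3
        generalize Q w = a, Q x = b
        revert a b; decide⟩
    simp only [List.mem_cons, List.not_mem_nil, or_false, forall_eq_or_imp, forall_eq] at a1 a2
    rcases one_of_three a3 (polarBilin Q w).toAddMonoidHom with h4 | h4 | h4
    · exact fin u a1.1 a1.2 h4
    · exact fin v a2.1 a2.2 h4
    · exact fin (u + v) (by simp [a1, a2]) (by simp [a1, a2]) h4
  exact ⟨_, hΓ (w + y) (x + w) (ns w y (pc1 h2) (h3.trans h)) (ns x w h1 h3.symm), by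
    rw [LinearEquiv.mul_apply, key x w h1, key w y (pc1 h2)]⟩

/-- Products of two distinct transvections move some section `a^⊥ / a` with `a` fixed. -/
theorem eq_of_sections (hQ : Nondeg Q) (h3 : 3 ≤ finrank (ZMod 2) E) {u v : E} (hu : u ≠ 0)
    (hv : v ≠ 0) (h : ∀ a, a ≠ 0 → polar Q u a = 0 → polar Q v a = 0 → ∀ y, polar Q a y = 0 →
      tvE Q u (tvE Q v y) = y ∨ tvE Q u (tvE Q v y) = y + a) : u = v := by
  by_contra huv
  rcases z2 (polar Q u v) with h1 | h1
  · obtain ⟨y, h2, h4⟩ := dual2 hQ hu hv huv 0 1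
    have := h u hu (pss u) (pc h1) y h2
    rw [tvE_of_one h4, tvE_of_zero (by simp [h1, h2])] at this
    simp [hv, Ne.symm huv] at this
  · obtain ⟨a, -, h2, h4⟩ := exists_orth_not_mem hQ ⊤ ⊥ [u, v] (by simp; omega)
    have a1 := h4 u (by simp)
    have := h a (by simpa using h2) a1 (h4 v (by simp)) u (pc a1)
    rw [tvE_of_one (pc1 h1), tvE_of_one (by simp [h1]), add_comm u v, aright] at this
    rcases this with rfl | rfl
    · exact huv rfl
    · simp [a1] at h1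

theorem eq_one_of_tvE (hQ : Nondeg Q) (h3 : 3 ≤ finrank (ZMod 2) E) {ρ : E ≃ₗ[ZMod 2] E}
    (h : ∀ c d, Q c = 1 → Q d = 1 → tvE Q (ρ c) * tvE Q (ρ d) = tvE Q c * tvE Q d) : ρ = 1 := by
  ext x
  refine ns_induction hQ h3 (p := fun x => ρ x = x) (fun c hc => ?_)
    (fun x y hx hy => by simp only [map_add, hx, hy]) x
  by_contra hn
  obtain ⟨d, hd, hd'⟩ : ∃ d, Q d = 1 ∧ d ∉ Submodule.span (ZMod 2) {c, ρ c} := by
    by_contra h1
    push Not at h1
    have h2 : ⊤ ≤ Submodule.span (ZMod 2) {c, ρ c} := fun x _ =>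
      ns_induction hQ h3 h1 (fun x y => Submodule.add_mem _) x
    have h4 := Submodule.finrank_mono h2
    have := RootMax.finrank_span_pair_le (F := ZMod 2) c (ρ c)
    rw [finrank_top] at h4
    omega
  have hcd : c ≠ d := by rintro rfl; simp [mem_span_two] at hd'
  have h1 := mem_span_of_tvE hQ (ρ.injective.ne hcd) (h c d hc hd)
  rw [mem_span_two] at h1 hd'
  rcases h1 with h1 | h1 | h1 | h1
  · rw [ρ.map_eq_zero_iff] at h1
    simp [h1] at hc
  · exact hn h1
  · simp [h1] at hd'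
  · simp [h1, aleft] at hd'

variable (Q) in
/-- No two-dimensional totally singular subspace. -/
def Minus4 : Prop := ∀ x y, Q x = 0 → Q y = 0 → polar Q x y = 0 → x = 0 ∨ y = 0 ∨ x = y

variable (Q) in
/-- Dimension at least five, or four and minus type. -/
def Good : Prop := 5 ≤ finrank (ZMod 2) E ∨ (4 ≤ finrank (ZMod 2) E ∧ Minus4 Q)

theorem Good.three (h : Good Q) : 3 ≤ finrank (ZMod 2) E := by rcases h with h | h <;> omega

variable (Q) in
/-- A group of isometries normalised by the products of two reflections whose elements act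
trivially on `a^⊥ / a` for every fixed singular `a`. -/
structure Sec (K : Subgroup (E ≃ₗ[ZMod 2] E)) : Prop where
  nd : Nondeg Q
  good : Good Q
  iso : ∀ k ∈ K, ∀ x, Q (k x) = Q x
  nrm : ∀ c d, Q c = 1 → Q d = 1 → ∀ k ∈ K, tvE Q c * tvE Q d * k * (tvE Q c * tvE Q d)⁻¹ ∈ K
  sec : ∀ k ∈ K, ∀ a, Q a = 0 → a ≠ 0 → k a = a → ∀ y, polar Q a y = 0 → k y = y ∨ k y = y + a

namespace Sec

variable {K : Subgroup (E ≃ₗ[ZMod 2] E)} (h : Sec Q K)
include h

theorem pair1 {c d : E} (hc : Q c = 1) (hd : Q d = 1) (hcd : polar Q c d = 1) :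
    tvE Q c * tvE Q d ∉ K := fun hk => by
  obtain ⟨a, h1, h2, h3, h4⟩ : ∃ a, a ≠ 0 ∧ Q a = 0 ∧ polar Q c a = 0 ∧ polar Q d a = 0 := by
    rcases h.good with h5 | ⟨h4, hm⟩
    · obtain ⟨a, -, h1, h2, h3⟩ := exists_sing_orth h.nd ⊤ [c, d] (by simpa using h5)
      exact ⟨a, h1, h2, h3 c (by simp), h3 d (by simp)⟩
    obtain ⟨u, v, a1, a2, a3⟩ := exists_hyp_pair h.nd (by omega) hcd
    rcases z2 (Q u) with b1 | b1
    · exact ⟨u, by rintro rfl; simp at a3, b1, a1⟩
    rcases z2 (Q v) with b2 | b2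
    · exact ⟨v, by rintro rfl; simp at a3, b2, a2⟩
    exfalso
    rcases hm (c + u) (d + v) (by simp [Q_add, hc, b1, a1, z11]) (by simp [Q_add, hd, b2, a2, z11])
      (by simp [hcd, a2, a3, pc a1.2, z11]) with h5 | h5 | h5
    · simpa [hcd, pc1 hcd, a1] using congrArg (polar Q d) h5
    · simpa [hcd, a2] using congrArg (polar Q c) h5
    · simpa [hcd, a1, a2] using congrArg (polar Q c) h5
  have := h.sec _ hk a h2 h1 (by rw [LinearEquiv.mul_apply, tvE_of_zero h4, tvE_of_zero h3]) c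
    (pc h3)
  rw [LinearEquiv.mul_apply, tvE_of_one (pc1 hcd), tvE_of_one (by simp [hcd]), add_comm c d,
    aright] at this
  rcases this with rfl | rfl
  · simp at hcd
  · simp [h3] at hcd

theorem pair {c d : E} (hc : Q c = 1) (hd : Q d = 1) (hk : tvE Q c * tvE Q d ∈ K) : c = d := by
  by_contra hcd
  rcases z2 (polar Q c d) with h1 | h1
  swap
  · exact h.pair1 hc hd h1 hk
  obtain ⟨w, a1, a2, a3⟩ : ∃ w, Q w = 1 ∧ polar Q c w = 0 ∧ polar Q d w = 1 := by
    obtain ⟨w, a2, a3⟩ := dual2 h.nd (ne_of_Q hc) (ne_of_Q hd) hcd 0 1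
    rcases z2 (Q w) with a1 | a1
    · exact ⟨w + c, by simp [Q_add, a1, hc, pc a2], by simp [a2], by simp [a3, pc h1]⟩
    · exact ⟨w, a1, a2, a3⟩
  have h2 := h.nrm w c a1 hc _ hk
  rw [conj_tvE₂ fun x y => by simp [polar_tvE]] at h2
  simp only [LinearEquiv.mul_apply, tvE_self, tvE_of_zero (pc a2), tvE_of_zero h1,
    tvE_of_one (pc1 a3)] at h2
  have h3 := K.mul_mem (K.inv_mem hk) h2
  rw [mul_inv_rev, mul_assoc, inv_mul_cancel_left, tvE_inv] at h3
  exact h.pair1 hd (by simp [Q_add, hd, a1, a3, z11]) (by simp [a3]) h3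

theorem comm_mem {k : E ≃ₗ[ZMod 2] E} (hk : k ∈ K) {c d : E} (hc : Q c = 1) (hd : Q d = 1) :
    tvE Q (k c) * tvE Q (k d) * (tvE Q d * tvE Q c) ∈ K := by
  have := K.mul_mem hk (h.nrm c d hc hd _ (K.inv_mem hk))
  rw [← conj_tvE₂ (polar_of_Q (h.iso k hk))]
  convert this using 1
  simp only [mul_inv_rev, tvE_inv, mul_assoc]

theorem fix {k : E ≃ₗ[ZMod 2] E} (hk : k ∈ K) {d : E} (hd : Q d = 1) (hkd : k d = d) : k = 1 := by
  ext x
  refine ns_induction h.nd h.good.three (p := fun x => k x = x) (fun c hc => ?_)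
    (fun x y hx hy => by simp only [map_add, hx, hy]) x
  have := h.comm_mem hk hc hd
  rw [hkd, mul_assoc, ← mul_assoc (tvE Q d), tvE_mul_self, one_mul] at this
  exact h.pair ((h.iso k hk c).trans hc) hc this

theorem two {k : E ≃ₗ[ZMod 2] E} (hk : k ∈ K) {c : E} (hc : Q c = 1) :
    k (k c) = c + polar Q (k c) c • k c := by
  have h1 := (h.iso k hk c).trans hc
  have := h.comm_mem hk hc h1
  rw [← mul_assoc, tvE_conj] at this
  rw [← tvE_apply]
  exact (tvE_tvE _ _).symm.trans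
    (congrArg _ (h.pair ((Q_tvE h1 _).trans ((h.iso k hk _).trans h1)) hc this))

theorem one {k : E ≃ₗ[ZMod 2] E} (hk : k ∈ K) (h1 : k ≠ 1) {c : E} (hc : Q c = 1) :
    polar Q (k c) c = 1 := by
  by_contra h2
  replace h2 := z2_ne'.1 h2
  have h3 := h.two hk hc
  rw [h2, zero_smul, add_zero] at h3
  have h4 : c ≠ k c := fun e => h1 (h.fix hk hc e.symm)
  have h5 : Q (c + k c) = 0 := by simp [Q_add, h.iso k hk, hc, pc h2, z11]
  have h6 : ∀ y, polar Q (c + k c) y = 0 → ∃ t : ZMod 2, k (y + t • c) = y + t • c := fun y hy => by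
    rcases h.sec k hk _ h5 (add_ne h4) (by rw [map_add, h3, add_comm]) y hy with h7 | h7
    · exact ⟨0, by simpa using h7⟩
    · exact ⟨1, by rw [one_smul, map_add, h7, add_assoc, aright]⟩
  rcases h.good with h7 | ⟨h7, hm⟩
  · obtain ⟨u, v, a1, a2, a3⟩ := exists_hyp_orth h.nd [c + k c, c] (by simp; omega)
    simp only [List.mem_cons, List.not_mem_nil, or_false, forall_eq_or_imp, forall_eq] at a1 a2
    obtain ⟨s, hs⟩ := h6 u a1.1
    obtain ⟨t, ht⟩ := h6 v a2.1
    rcases one_of_three' (Q := Q) (u := u + s • c) (v := v + t • c)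
      (by simp [a3, a2.2, pc a1.2]) with h8 | h8 | h8
    · exact h1 (h.fix hk h8 hs)
    · exact h1 (h.fix hk h8 ht)
    · exact h1 (h.fix hk h8 (by rw [map_add, hs, ht]))
  · have := RootMax.finrank_span_pair_le (F := ZMod 2) (c + k c) c
    obtain ⟨y, -, a1, a2⟩ := exists_orth_not_mem h.nd ⊤ (Submodule.span (ZMod 2) {c + k c, c})
      [c + k c] (by simp; omega)
    obtain ⟨t, ht⟩ := h6 y (a2 _ (by simp))
    have a3 : ∀ z ∈ Submodule.span (ZMod 2) {c + k c, c}, y + t • c ≠ z := fun z hz e => a1 (by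
      rw [← aright (t • c) y, e]
      exact Submodule.add_mem _ hz (Submodule.smul_mem _ _ (Submodule.subset_span (by simp))))
    rcases z2 (Q (y + t • c)) with h8 | h8
    · rcases hm _ _ h5 h8 (by
        rw [polar_add_right, a2 _ (by simp)]; simp [h2]) with h9 | h9 | h9
      · exact add_ne h4 h9
      · exact a3 0 (Submodule.zero_mem _) h9
      · exact a3 _ (Submodule.subset_span (by simp)) h9.symm
    · exact h1 (h.fix hk h8 ht)

theorem cube {k : E ≃ₗ[ZMod 2] E} (hk : k ∈ K) (h1 : k ≠ 1) (x : E) : k (k x) = x + k x := by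
  refine ns_induction h.nd h.good.three (p := fun x => k (k x) = x + k x) (fun c hc => ?_)
    (fun x y hx hy => by simp only [map_add, hx, hy]; abel) x
  rw [h.two hk hc, h.one hk h1 hc, one_smul]

theorem free {k : E ≃ₗ[ZMod 2] E} (hk : k ∈ K) {x : E} (hx : x ≠ 0) (h2 : k x = x) : k = 1 := by
  by_contra h1
  have := h.cube hk h1 x
  rw [h2, h2, aself] at this
  exact hx this

theorem eq_one {k : E ≃ₗ[ZMod 2] E} (hk : k ∈ K) : k = 1 := by
  by_contra h1
  rcases h.good with h7 | ⟨h7, hm⟩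
  · obtain ⟨c, hc, -, -⟩ := exists_ns_orth h.nd h.good.three 0
    obtain ⟨d, hd, a1, a2⟩ := exists_ns_orth h.nd h.good.three c
    obtain ⟨x, -, a3, a4⟩ := exists_orth_not_mem h.nd ⊤ ⊥ [c, d, k c, k d] (by simp; omega)
    simp only [List.mem_cons, List.not_mem_nil, or_false, forall_eq_or_imp, forall_eq] at a4
    have h2 := h.free (h.comm_mem hk hc hd) (x := x) (by simpa using a3) (by
      simp only [LinearEquiv.mul_apply, tvE_of_zero a4.1, tvE_of_zero a4.2.1, tvE_of_zero a4.2.2.1,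
        tvE_of_zero a4.2.2.2])
    have h3 := mem_span_of_tvE h.nd (c := c) (d := d) (k.injective.ne a2.symm) (by
      rw [eq_inv_of_mul_eq_one_left h2, mul_inv_rev, tvE_inv, tvE_inv])
    have h4 := h.one hk h1 hc
    obtain ⟨s, t, e⟩ := Submodule.mem_span_pair.1 h3
    simp [← e, pc a1] at h4
  · obtain ⟨x, a1, a2⟩ := exists_sing h.nd h.good.three
    have a3 := h.iso k hk x
    have a4 := h.iso k hk (k x)
    rw [h.cube hk h1, Q_add, a3, a2, zero_add, zero_add] at a4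
    rcases hm x (k x) a2 (a3.trans a2) a4 with h9 | h9 | h9
    · exact a1 h9
    · exact a1 (k.map_eq_zero_iff.1 h9)
    · exact h1 (h.free hk a1 h9.symm)

end Sec

end CfsgLib.C6
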