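import Mathlib
import Cfsg.Agent.Lib.C6.F2

/-! Pauli systems: a 2-group of symplectic type inside the units of an algebra with a trace, the
action of its normaliser on the Frattini quotient, and the elements `1 + u` with `u ^ 2 = -1`. -/

set_option autoImplicit false
set_option linter.unusedSectionVars false

namespace CfsgLib.C6

open CfsgLib.OrthE CfsgLib.OMax Module QuadraticMap

section F2

variable {E : Type*} [AddCommGroup E] [Module (ZMod 2) E] {Q : QuadraticForm (ZMod 2) E}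
  [FiniteDimensional (ZMod 2) E]

/-- The fixed space of a linear automorphism. -/
def fixE (φ : E ≃ₗ[ZMod 2] E) : Submodule (ZMod 2) E :=
  LinearMap.ker (LinearMap.id + (φ : E →ₗ[ZMod 2] E))

theorem mem_fixE {φ : E ≃ₗ[ZMod 2] E} {x : E} : x ∈ fixE φ ↔ φ x = x := by
  simp only [fixE, LinearMap.mem_ker, LinearMap.add_apply, LinearMap.id_apply, add_eq_zero']
  exact eq_comm

theorem mem_perp_fixE (hQ : Nondeg Q) {φ : E ≃ₗ[ZMod 2] E}
    (h1 : ∀ x y, polar Q (φ x) (φ y) = polar Q x y) (h2 : ∀ x, φ (φ x) = x) {x : E} :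
    x ∈ perp Q (fixE φ) ↔ ∃ y, x = y + φ y := by
  constructor
  · intro hx
    by_contra hn
    obtain ⟨a, a1, a2⟩ := exists_dual hQ (LinearMap.range (LinearMap.id + (φ : E →ₗ[ZMod 2] E)))
      (u := x) fun ⟨y, hy⟩ => hn ⟨y, hy.symm⟩
    have a3 : φ a = a := add_eq_zero'.1 (hQ _ fun y => by
      have := a2 _ ⟨y, rfl⟩
      rw [polar_add_left, ← h1, h2, add_comm, ← polar_add_right]
      exact this)
    exact one_ne_zero (a1.symm.trans (hx a (mem_fixE.2 a3)))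
  · rintro ⟨y, rfl⟩ w hw
    change polar Q w _ = 0
    rw [polar_add_right, ← h1 w y, mem_fixE.1 hw, zadd]

theorem perp_fixE_le (hQ : Nondeg Q) {φ : E ≃ₗ[ZMod 2] E}
    (h1 : ∀ x y, polar Q (φ x) (φ y) = polar Q x y) (h2 : ∀ x, φ (φ x) = x) :
    perp Q (fixE φ) ≤ fixE φ := fun x hx => by
  obtain ⟨y, rfl⟩ := (mem_perp_fixE hQ h1 h2).1 hx
  rw [mem_fixE, map_add, h2, add_comm]

theorem exists_two_mem {U : Submodule (ZMod 2) E} (h : 2 ≤ finrank (ZMod 2) U) :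
    ∃ x ∈ U, ∃ y ∈ U, x ≠ 0 ∧ y ≠ 0 ∧ x ≠ y := by
  obtain ⟨x, hx, h1⟩ := Submodule.exists_mem_ne_zero_of_ne_bot (p := U) (by
    rintro rfl; simp at h)
  obtain ⟨y, hy, h2⟩ := SetLike.not_le_iff_exists.1 (show ¬ U ≤ Submodule.span (ZMod 2) {x} from
    fun h' => by
      have := Submodule.finrank_mono h'
      rw [finrank_span_singleton h1] at this
      omega)
  rw [mem_span_one, not_or] at h2
  exact ⟨x, hx, y, hy, h1, h2.1, Ne.symm h2.2⟩

end F2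

section Alg

variable {A : Type*} [Ring A]

/-- The sign `(-1) ^ t`. -/
def sg (t : ZMod 2) : Aˣ := if t = 0 then 1 else -1

@[simp] theorem sg_zero : (sg 0 : Aˣ) = 1 := if_pos rfl

@[simp] theorem sg_one : (sg 1 : Aˣ) = -1 := if_neg one_ne_zero

theorem sg_add (s t : ZMod 2) : (sg (s + t) : Aˣ) = sg s * sg t := by
  rcases z2 s with rfl | rfl <;> rcases z2 t with rfl | rfl <;> simp [z11]

theorem sg_comm (t : ZMod 2) (g : Aˣ) : sg t * g = g * sg t := by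
  rcases z2 t with rfl | rfl <;> simp

theorem sg_or (t : ZMod 2) : (sg t : Aˣ) = 1 ∨ (sg t : Aˣ) = -1 := by
  rcases z2 t with rfl | rfl <;> simp

theorem conj_neg (g u : Aˣ) : g * -u * g⁻¹ = -(g * u * g⁻¹) := by simp

theorem conj_sq {g u : Aˣ} (h : u * u = -1) : g * u * g⁻¹ * (g * u * g⁻¹) = -1 := by
  rw [show g * u * g⁻¹ * (g * u * g⁻¹) = g * (u * u) * g⁻¹ by group, h]; simp

theorem conj_sq' {g u : Aˣ} (h : u * u = 1) : g * u * g⁻¹ * (g * u * g⁻¹) = 1 := by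
  rw [show g * u * g⁻¹ * (g * u * g⁻¹) = g * (u * u) * g⁻¹ by group, h]; simp

open _root_.Classical in
/-- The unit `1 + u`. -/
noncomputable def hs (u : Aˣ) : Aˣ := if h : IsUnit (1 + (u : A)) then h.unit else 1

variable {F : Type*} [Field F] [Algebra F A]

theorem val_sq {u : Aˣ} (hu : u * u = -1) : (u : A) * u = -1 := by
  simpa using congrArg Units.val hu

variable (h2 : (2 : F) ≠ 0)
include h2

theorem hs_val {u : Aˣ} (hu : u * u = -1) : (hs u : A) = 1 + u := by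
  have e := val_sq hu
  have h : IsUnit (1 + (u : A)) := by
    refine ⟨⟨1 + u, (2 : F)⁻¹ • (1 - u), ?_, ?_⟩, rfl⟩
    · rw [mul_smul_comm, show (1 + (u : A)) * (1 - u) = 1 - u * u by noncomm_ring, e,
        sub_neg_eq_add, ← two_smul F, smul_smul, inv_mul_cancel₀ h2, one_smul]
    · rw [smul_mul_assoc, show (1 - (u : A)) * (1 + u) = 1 - u * u by noncomm_ring, e,
        sub_neg_eq_add, ← two_smul F, smul_smul, inv_mul_cancel₀ h2, one_smul]
  rw [hs, dif_pos h, IsUnit.unit_spec]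

theorem hs_conj {u : Aˣ} (hu : u * u = -1) (g : Aˣ) : g * hs u * g⁻¹ = hs (g * u * g⁻¹) := by
  ext
  rw [hs_val h2 (conj_sq hu)]
  simp [hs_val h2 hu, mul_add, add_mul]

theorem hs_comm {u y : Aˣ} (hu : u * u = -1) (h : y * u = u * y) : y * hs u = hs u * y := by
  rw [← mul_inv_eq_iff_eq_mul, hs_conj h2 hu, h, mul_inv_cancel_right]

theorem hs_neg {u : Aˣ} (hu : u * u = -1) : hs (-u) = -u * hs u := by
  ext
  rw [hs_val h2 (by simpa using hu)]
  simp [hs_val h2 hu, mul_add, val_sq hu, add_comm]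

theorem hs_anti {u y : Aˣ} (hu : u * u = -1) (h : y * u = -(u * y)) :
    hs u * y * (hs u)⁻¹ = u * y := by
  rw [mul_inv_eq_iff_eq_mul]
  ext
  have e : (y : A) * u = -(u * y) := by simpa using congrArg Units.val h
  simp only [Units.val_mul, hs_val h2 hu, mul_add, add_mul, mul_one, one_mul, mul_assoc, e, mul_neg]
  rw [← mul_assoc, val_sq hu]
  simp [add_comm]

theorem hs_mul_neg {u : Aˣ} (hu : u * u = -1) : ((hs u * hs (-u) : Aˣ) : A) = 2 := by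
  rw [Units.val_mul, hs_val h2 hu, hs_val h2 (by simpa using hu), Units.val_neg,
    show (1 + (u : A)) * (1 + -u) = 1 - u * u by noncomm_ring, val_sq hu]
  norm_num

theorem hs_hs_comm {u v : Aˣ} (hu : u * u = -1) (hv : v * v = -1) (h : u * v = v * u) :
    hs u * hs v = hs v * hs u := hs_comm h2 hv (hs_comm h2 hu h.symm).symm

theorem hs_div_neg {u : Aˣ} (hu : u * u = -1) : hs u * (hs (-u))⁻¹ = u := by
  rw [mul_inv_eq_iff_eq_mul, hs_neg h2 hu, ← mul_assoc, mul_neg, hu, neg_neg, one_mul]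

/-- `(1 + u) / (1 - v) = (1 + u) (1 + v) / 2`. -/
theorem hs_div_val {u v : Aˣ} (hu : u * u = -1) (hv : v * v = -1) :
    ((hs u * (hs (-v))⁻¹ : Aˣ) : A) = (2 : F)⁻¹ • ((1 + u) * (1 + v)) := by
  rw [Units.val_mul, Units.mul_inv_eq_iff_eq_mul, smul_mul_assoc, mul_assoc, ← hs_val h2 hv,
    ← Units.val_mul, hs_mul_neg h2 hv, hs_val h2 hu, mul_two, ← two_smul F, smul_smul,
    inv_mul_cancel₀ h2, one_smul]

end Alg

/-- A Pauli system. -/
structure Pau (F A E : Type*) [Field F] [Ring A] [Algebra F A] [AddCommGroup E]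
    [Module (ZMod 2) E] where
  /-- the squaring map -/
  Q : QuadraticForm (ZMod 2) E
  /-- the section -/
  P : E → Aˣ
  /-- the centre -/
  Z : Subgroup Aˣ
  /-- the trace -/
  τ : A →ₗ[F] F
  nd : Nondeg Q
  two : (2 : F) ≠ 0
  P0 : P 0 = 1
  mul : ∀ x y, P x * P y = P (x + y) ∨ P x * P y = -P (x + y)
  sq : ∀ x, P x * P x = sg (Q x)
  neg_mem : -1 ∈ Z
  zP : ∀ c ∈ Z, ∀ x, c * P x = P x * c
  zz : ∀ c ∈ Z, ∀ d ∈ Z, c * d = d * c
  z1 : ∀ c ∈ Z, c * c = 1 → c = 1 ∨ c = -1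
  z2 : ∀ c ∈ Z, c * c = 1 ∨ c * c = -1
  τc : ∀ a b, τ (a * b) = τ (b * a)
  τ1 : τ 1 ≠ 0
  sep : ∀ g : Aˣ, (∀ c ∈ Z, c * g = g * c) → ∃ c ∈ Z, ∃ x, τ ↑(c * P x * g) ≠ 0

namespace Pau

variable {F A E : Type*} [Field F] [Ring A] [Algebra F A] [AddCommGroup E] [Module (ZMod 2) E]
  (S : Pau F A E)

include S in
theorem neg_ne (g : Aˣ) : -g ≠ g := fun h => by
  have h1 : (-1 : Aˣ) = 1 := by simpa using congrArg (· * g⁻¹) h
  have h2 := congrArg (fun u : Aˣ => S.τ u) h1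
  simp only [Units.val_neg, Units.val_one, map_neg] at h2
  exact mul_ne_zero S.two S.τ1 (by linear_combination -h2)

include S in
theorem sg_inj {s t : ZMod 2} (h : (sg s : Aˣ) = sg t) : s = t := by
  have := S.neg_ne 1
  rcases C6.z2 s with rfl | rfl <;> rcases C6.z2 t with rfl | rfl <;> simp_all [eq_comm]

theorem sg_mem (t : ZMod 2) : sg t ∈ S.Z := by
  rcases sg_or (A := A) t with h | h <;> rw [h]
  exacts [S.Z.one_mem, S.neg_mem]

theorem neg_mem' {c : Aˣ} (hc : c ∈ S.Z) : -c ∈ S.Z := by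
  simpa using S.Z.mul_mem S.neg_mem hc

theorem P_comm (x y : E) : S.P x * S.P y = sg (polar S.Q x y) * (S.P y * S.P x) := by
  have h1 : S.P x * S.P y * (S.P x * S.P y) = sg (S.Q (x + y)) := by
    rcases S.mul x y with h | h <;> simp [h, S.sq]
  have h2 : S.P x * S.P y * (S.P y * S.P x) = sg (S.Q x + S.Q y) := by
    rw [mul_assoc, ← mul_assoc (S.P y), S.sq, sg_comm, ← mul_assoc, S.sq, sg_add]
  rw [Q_add, sg_add, ← h2, mul_assoc (S.P x * S.P y), mul_right_inj] at h1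
  rw [h1, sg_comm]

/-- `r` lies over `x`. -/
def Ov (r : Aˣ) (x : E) : Prop := ∃ c ∈ S.Z, r = c * S.P x

theorem ov_P (x : E) : S.Ov (S.P x) x := ⟨1, S.Z.one_mem, by simp⟩

theorem ov_zero {r : Aˣ} : S.Ov r 0 ↔ r ∈ S.Z := by simp [Ov, S.P0]

variable {S}

namespace Ov

variable {r s c : Aˣ} {x y : E}

theorem zmul (h : S.Ov r x) (hc : c ∈ S.Z) : S.Ov (c * r) x :=
  let ⟨d, hd, e⟩ := h
  ⟨c * d, S.Z.mul_mem hc hd, by rw [e, mul_assoc]⟩

theorem neg (h : S.Ov r x) : S.Ov (-r) x := by simpa using h.zmul S.neg_mem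

theorem zcomm (h : S.Ov r x) (hc : c ∈ S.Z) : c * r = r * c := by
  obtain ⟨d, hd, rfl⟩ := h
  rw [← mul_assoc, S.zz c hc d hd, mul_assoc, S.zP c hc, mul_assoc]

theorem mul (h : S.Ov r x) (h' : S.Ov s y) : S.Ov (r * s) (x + y) := by
  obtain ⟨c, hc, rfl⟩ := h
  obtain ⟨d, hd, rfl⟩ := h'
  rw [mul_assoc, ← mul_assoc (S.P x), ← S.zP d hd, mul_assoc]
  refine (zmul ?_ hd).zmul hc
  rcases S.mul x y with h | h <;> rw [h]
  exacts [S.ov_P _, (S.ov_P _).neg]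

theorem congr (h : S.Ov r x) (e : x = y) : S.Ov r y := e ▸ h

theorem sq_mem (h : S.Ov r x) : r * r ∈ S.Z := S.ov_zero.1 ((h.mul h).congr (aself x))

theorem inv (h : S.Ov r x) : S.Ov r⁻¹ x := by
  simpa using h.zmul (S.Z.inv_mem h.sq_mem)

theorem comm (h : S.Ov r x) (h' : S.Ov s y) : r * s = sg (polar S.Q x y) * (s * r) := by
  obtain ⟨c, hc, rfl⟩ := h
  obtain ⟨d, hd, rfl⟩ := h'
  have e1 : c * S.P x * (d * S.P y) = c * d * (S.P x * S.P y) := by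
    rw [mul_assoc, ← mul_assoc (S.P x), ← S.zP d hd]; simp only [mul_assoc]
  have e2 : d * S.P y * (c * S.P x) = c * d * (S.P y * S.P x) := by
    rw [mul_assoc, ← mul_assoc (S.P y), ← S.zP c hc, S.zz c hc d hd]; simp only [mul_assoc]
  rw [e1, e2, S.P_comm x y, ← mul_assoc, ← sg_comm, mul_assoc]

theorem comm0 (h : S.Ov r x) (h' : S.Ov s y) (e : polar S.Q x y = 0) : r * s = s * r := by
  rw [h.comm h', e]; simp

theorem comm1 (h : S.Ov r x) (h' : S.Ov s y) (e : polar S.Q x y = 1) : r * s = -(s * r) := by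
  rw [h.comm h', e]; simp

theorem polar0 (h : S.Ov r x) (h' : S.Ov s y) (e : r * s = s * r) : polar S.Q x y = 0 :=
  z2_ne'.1 fun h1 => S.neg_ne _ ((h.comm1 h' h1).symm.trans e)

theorem unique (h : S.Ov r x) (h' : S.Ov r y) : x = y :=
  add_eq_zero'.1 (S.nd _ fun w => (h.mul h'.inv).polar0 (S.ov_P w) (by simp))

theorem sq (h : S.Ov r x) : r * r = 1 ∨ r * r = -1 := by
  obtain ⟨c, hc, rfl⟩ := h
  have : c * S.P x * (c * S.P x) = c * c * sg (S.Q x) := by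
    rw [← S.sq, mul_assoc, ← mul_assoc (S.P x), ← S.zP c hc]; simp only [mul_assoc]
  rw [this]
  rcases S.z2 c hc with h | h <;> rcases sg_or (A := A) (S.Q x) with h' | h' <;> simp [h, h']

theorem div (h : S.Ov r x) (h' : S.Ov s x) : r * s⁻¹ ∈ S.Z :=
  S.ov_zero.1 ((h.mul h'.inv).congr (aself x))

theorem eq_or (h : S.Ov r x) (h' : S.Ov s x) (e : r * r = s * s) : r = s ∨ r = -s := by
  have h1 := h.div h'
  have h2 : r * s⁻¹ * (r * s⁻¹) = 1 := by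
    rw [mul_assoc, ← mul_assoc s⁻¹, ← h.comm0 h'.inv (pss x), mul_assoc, ← mul_assoc, e]; group
  rcases S.z1 _ h1 h2 with h3 | h3
  · exact Or.inl (mul_inv_eq_one.1 h3)
  · exact Or.inr (by simpa using mul_inv_eq_iff_eq_mul.1 h3)

theorem not_mem (h : S.Ov r x) (hx : x ≠ 0) : r ∉ S.Z := fun h' => hx (h.unique (S.ov_zero.2 h'))

theorem sq_eq (hZ : ∀ c ∈ S.Z, c = 1 ∨ c = -1) (h : S.Ov r x) : r * r = sg (S.Q x) := by
  obtain ⟨c, hc, rfl⟩ := h
  rcases hZ c hc with rfl | rfl <;> simp [S.sq]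

end Ov

variable (S)

theorem τ_conj (g a : Aˣ) : S.τ ↑(g * a * g⁻¹) = S.τ a := by
  rw [Units.val_mul, S.τc, ← Units.val_mul, inv_mul_cancel_left]

theorem τ_anti {g a : Aˣ} (h : g * a = -(a * g)) : S.τ a = 0 := by
  have h1 := S.τ_conj g a
  rw [h] at h1
  simp only [neg_mul, mul_inv_cancel_right, Units.val_neg, map_neg] at h1
  exact (mul_eq_zero.1 (by linear_combination -h1 : 2 * S.τ a = 0)).resolve_left S.two

variable {S} in
theorem Ov.τ_eq {r : Aˣ} {x : E} (h : S.Ov r x) (hx : x ≠ 0) : S.τ r = 0 :=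
  let ⟨y, hy⟩ := exists_one S.nd hx
  S.τ_anti ((S.ov_P y).comm1 h (pc1 hy))

/-- The group of symplectic type. -/
def R : Subgroup Aˣ where
  carrier := {r | ∃ x, S.Ov r x}
  mul_mem' := fun ⟨_, h⟩ ⟨_, h'⟩ => ⟨_, h.mul h'⟩
  one_mem' := ⟨0, S.ov_zero.2 S.Z.one_mem⟩
  inv_mem' := fun ⟨_, h⟩ => ⟨_, h.inv⟩

theorem Z_le : S.Z ≤ S.R := fun _ h => ⟨0, S.ov_zero.2 h⟩

theorem P_mem (x : E) : S.P x ∈ S.R := ⟨x, S.ov_P x⟩

variable {S} in
theorem Ov.mem {r : Aˣ} {x : E} (h : S.Ov r x) : r ∈ S.R := ⟨x, h⟩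

/-- The centraliser of the centre. -/
def CZ : Subgroup Aˣ := Subgroup.centralizer S.Z

theorem mem_CZ {g : Aˣ} : g ∈ S.CZ ↔ ∀ c ∈ S.Z, c * g = g * c := Iff.rfl

/-- The normaliser. -/
def Nm : Subgroup Aˣ := S.CZ ⊓ Subgroup.normalizer S.R

theorem R_le : S.R ≤ S.Nm := fun _ h =>
  ⟨let ⟨_, h⟩ := h; fun _ hc => h.zcomm hc, Subgroup.le_normalizer h⟩

variable {S}

theorem cz {g : Aˣ} (hg : g ∈ S.Nm) : g ∈ S.CZ := hg.1

theorem conj_mem {g r : Aˣ} (hg : g ∈ S.Nm) (hr : r ∈ S.R) : g * r * g⁻¹ ∈ S.R :=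
  (Subgroup.mem_normalizer_iff.1 hg.2 r).1 hr

theorem conj_Z {g c : Aˣ} (hg : g ∈ S.CZ) (hc : c ∈ S.Z) : g * c * g⁻¹ = c := by
  rw [← hg c hc, mul_inv_cancel_right]

theorem Ov.conj {g r : Aˣ} {x y : E} (hg : g ∈ S.CZ) (h : S.Ov r x)
    (h' : S.Ov (g * S.P x * g⁻¹) y) : S.Ov (g * r * g⁻¹) y := by
  obtain ⟨c, hc, rfl⟩ := h
  rw [← mul_assoc, ← hg c hc, mul_assoc, mul_assoc, ← mul_assoc g]
  exact h'.zmul hc

theorem mem_Nm [Finite A] {g : Aˣ} (hg : g ∈ S.CZ) (h : ∀ x, g * S.P x * g⁻¹ ∈ S.R) : g ∈ S.Nm :=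
  ⟨hg, Subgroup.mem_normalizer_fintype fun _ ⟨x, hx⟩ => let ⟨_, hy⟩ := h x; (hx.conj hg hy).mem⟩

variable (S) in
/-- The action on `E`. -/
noncomputable def act (g : Aˣ) (x : E) : E := Classical.epsilon fun y => S.Ov (g * S.P x * g⁻¹) y

theorem Ov.act {g r : Aˣ} {x : E} (h : S.Ov r x) (hg : g ∈ S.Nm) :
    S.Ov (g * r * g⁻¹) (S.act g x) :=
  h.conj hg.1 (Classical.epsilon_spec (conj_mem hg (S.P_mem x)))

theorem act_mul {g k : Aˣ} (hg : g ∈ S.Nm) (hk : k ∈ S.Nm) (x : E) :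
    S.act (g * k) x = S.act g (S.act k x) :=
  ((S.ov_P x).act (S.Nm.mul_mem hg hk)).unique (by
    simpa only [mul_assoc, mul_inv_rev] using ((S.ov_P x).act hk).act hg)

theorem act_one (x : E) : S.act 1 x = x :=
  ((S.ov_P x).act S.Nm.one_mem).unique (by simpa using S.ov_P x)

theorem act_add {g : Aˣ} (hg : g ∈ S.Nm) (x y : E) : S.act g (x + y) = S.act g x + S.act g y :=
  (((S.ov_P x).mul (S.ov_P y)).act hg).unique (by
    simpa only [mul_assoc, inv_mul_cancel_left] using ((S.ov_P x).act hg).mul ((S.ov_P y).act hg))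

variable (S) in
/-- The action of the normaliser on `E`. -/
noncomputable def φ : S.Nm →* (E ≃ₗ[ZMod 2] E) where
  toFun g := LinearEquiv.ofLinearMap
    ((AddMonoidHom.mk' (S.act g) (act_add g.2)).toZModLinearMap 2)
    ((AddMonoidHom.mk' (S.act g⁻¹) (act_add g⁻¹.2)).toZModLinearMap 2)
    (LinearMap.ext fun x => (act_mul g.2 g⁻¹.2 x).symm.trans (by simpa using act_one x))
    (LinearMap.ext fun x => (act_mul g⁻¹.2 g.2 x).symm.trans (by simpa using act_one x))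
  map_one' := LinearEquiv.ext act_one
  map_mul' g k := LinearEquiv.ext (act_mul g.2 k.2)

theorem Ov.φ {r : Aˣ} {x : E} (h : S.Ov r x) (g : S.Nm) : S.Ov (g * r * g⁻¹) (S.φ g x) :=
  h.act g.2

theorem φ_eq {r : Aˣ} {x y : E} (g : S.Nm) (h : S.Ov r x) (h' : S.Ov (g * r * g⁻¹) y) :
    S.φ g x = y := (h.φ g).unique h'

theorem φ_polar (g : S.Nm) (x y : E) : polar S.Q (S.φ g x) (S.φ g y) = polar S.Q x y := by
  apply S.sg_inj
  have h1 := ((S.ov_P x).φ g).comm ((S.ov_P y).φ g)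
  have h2 := congrArg (fun a => g * a * (g : Aˣ)⁻¹) ((S.ov_P x).comm (S.ov_P y))
  simp only [← mul_assoc, ← sg_comm _ (g : Aˣ), Subgroup.coe_inv, inv_mul_cancel_right] at h1 h2
  simpa using h1.symm.trans h2

theorem φ_Q (hZ : ∀ c ∈ S.Z, c = 1 ∨ c = -1) (g : S.Nm) (x : E) : S.Q (S.φ g x) = S.Q x := by
  apply S.sg_inj
  rw [← ((S.ov_P x).φ g).sq_eq hZ, Subgroup.coe_inv, conj_mul, S.sq, ← sg_comm,
    mul_inv_cancel_right]

theorem φ_R {g : S.Nm} (hg : g.1 ∈ S.R) : S.φ g = 1 := by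
  ext x
  obtain ⟨y, hy⟩ := hg
  exact φ_eq g (S.ov_P x) (((hy.mul (S.ov_P x)).mul hy.inv).congr (by
    rw [add_comm y, aright]; rfl))

theorem φ_of_sq {g : S.Nm} (hg : g.1 * g.1 ∈ S.R) (x : E) : S.φ g (S.φ g x) = x := by
  rw [← LinearEquiv.mul_apply, ← map_mul, φ_R hg]; rfl

theorem comm_or {g : S.Nm} {r : Aˣ} {x : E} (h : S.Ov r x) (hg : S.φ g x = x) :
    g * r = r * g ∨ g * r = -(r * g) := by
  have h1 := (h.φ g).congr hg
  rcases h1.eq_or h (by rcases h.sq with e | e <;> simp [e]) with h2 | h2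
  · exact Or.inl (mul_inv_eq_iff_eq_mul.1 h2)
  · exact Or.inr (by simpa using mul_inv_eq_iff_eq_mul.1 h2)

theorem φ_of_comm {g : S.Nm} {r : Aˣ} {x : E} (h : S.Ov r x) (hg : g * r = r * g) :
    S.φ g x = x := φ_eq g h (by simpa [hg] using h)

theorem φ_of_anti {g : S.Nm} {r : Aˣ} {x : E} (h : S.Ov r x) (hg : g * r = -(r * g)) :
    S.φ g x = x := φ_eq g h (by simpa [hg] using h.neg)

theorem hs_ov {u r : Aˣ} {x y : E} (h : S.Ov u x) (hu : u * u = -1) (h' : S.Ov r y) :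
    S.Ov (hs u * r * (hs u)⁻¹) (tvE S.Q x y) := by
  rcases C6.z2 (polar S.Q x y) with e | e
  · rw [tvE_of_zero e, ← hs_comm S.two hu (h'.comm0 h (pc e)), mul_inv_cancel_right]
    exact h'
  · rw [tvE_of_one e, hs_anti S.two hu (h'.comm1 h (pc1 e)), add_comm]
    exact h.mul h'

variable [Finite A]

theorem hs_mem {u : Aˣ} (h : u ∈ S.R) (hu : u * u = -1) : hs u ∈ S.Nm :=
  let ⟨_, h⟩ := h
  mem_Nm (fun _ hc => hs_comm S.two hu (h.zcomm hc)) fun y => (hs_ov h hu (S.ov_P y)).mem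

theorem φ_hs {u : Aˣ} {x : E} (h : S.Ov u x) (hu : u * u = -1) :
    S.φ ⟨hs u, hs_mem h.mem hu⟩ = tvE S.Q x :=
  LinearEquiv.ext fun y => φ_eq _ (S.ov_P y) (hs_ov h hu (S.ov_P y))

theorem hd_mem {u v : Aˣ} (h : u ∈ S.R) (h' : v ∈ S.R) (hu : u * u = -1) (hv : v * v = -1) :
    hs u * (hs v)⁻¹ ∈ S.Nm := S.Nm.mul_mem (hs_mem h hu) (S.Nm.inv_mem (hs_mem h' hv))

theorem φ_hd {u v : Aˣ} {x y : E} (h : S.Ov u x) (h' : S.Ov v y) (hu : u * u = -1)
    (hv : v * v = -1) : S.φ ⟨_, hd_mem h.mem h'.mem hu hv⟩ = tvE S.Q x * tvE S.Q y := by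
  rw [← φ_hs h hu, ← tvE_inv y, ← φ_hs h' hv, ← map_inv, ← map_mul]; rfl

omit [Finite A]

/-- An element acting trivially on `E` is an element of `R` times a central element. -/
theorem inner {g : S.Nm} (hg : S.φ g = 1) : ∃ r ∈ S.R, ∀ y, r * g * S.P y = S.P y * (r * g) := by
  obtain ⟨c, hc, x, hx⟩ := S.sep g g.2.1
  have h1 := (S.ov_P x).zmul hc
  refine ⟨_, h1.mem, fun y => ?_⟩
  refine (comm_or (g := ⟨_, S.R_le h1.mem⟩ * g) (S.ov_P y) ?_).resolve_right fun h => hx ?_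
  · rw [map_mul, φ_R h1.mem, hg]; rfl
  · exact S.τ_anti (g := S.P y) (by simpa using congrArg Neg.neg h.symm)

variable [FiniteDimensional (ZMod 2) E]

/-- A conjugate of a non-central element of `R` which normalises `R` anticommutes with some element
of `R`. -/
theorem trace {g r : Aˣ} {e : E} (hg : g ∈ S.CZ) (hr : S.Ov r e) (he : e ≠ 0)
    (hf : g * r * g⁻¹ ∈ S.Nm) : ∃ a, g * r * g⁻¹ * S.P a = -(S.P a * (g * r * g⁻¹)) := by
  by_contra hn
  push Not at hn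
  obtain ⟨c, hc, x, hx⟩ := S.sep _ hf.1
  apply hx
  have h1 := (S.ov_P x).zmul hc
  set f : S.Nm := ⟨_, hf⟩
  by_cases h2 : x ∈ perp S.Q (fixE (S.φ f))
  · obtain ⟨y, rfl⟩ := (mem_perp_fixE S.nd (φ_polar f) (φ_of_sq (S.Z_le (by
      simpa [f, conj_Z hg hr.sq_mem] using hr.sq_mem)))).1 h2
    have h3 := h1.div ((S.ov_P y).mul ((S.ov_P y).inv.φ f))
    generalize c * S.P (y + S.φ f y) = s at h3 ⊢
    obtain ⟨d, hd, e1⟩ : ∃ d ∈ S.Z, s * f = S.P y * (g * (d * r) * g⁻¹) * (S.P y)⁻¹ := by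
      refine ⟨_, h3, ?_⟩
      rw [← mul_assoc g, ← hg _ h3, mul_assoc _ g, mul_assoc _ (g * r), ← mul_assoc (S.P y),
        ← S.zP _ h3]
      simp [f, mul_assoc]
    rw [e1, τ_conj, τ_conj]
    exact (hr.zmul hd).τ_eq he
  · obtain ⟨a, a1, a2⟩ : ∃ a, S.φ f a = a ∧ polar S.Q a x = 1 := by
      by_contra h3
      push Not at h3
      exact h2 fun a ha => z2_ne'.1 (h3 a (mem_fixE.1 ha))
    refine S.τ_anti (g := S.P a) ?_
    rw [← mul_assoc, (S.ov_P a).comm1 h1 a2, neg_mul, mul_assoc, mul_assoc (c * S.P x),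
      ← (comm_or (S.ov_P a) a1).resolve_right (hn a)]

/-- If `f` and `1 + f` normalise `R` then `f` lies in `R`. -/
theorem mem_of_hs {g r : Aˣ} (hg : g ∈ S.CZ) (hr : r ∈ S.R) (hrr : r * r = -1)
    (hf : g * r * g⁻¹ ∈ S.Nm) (ht : hs (g * r * g⁻¹) ∈ S.Nm) : g * r * g⁻¹ ∈ S.R := by
  obtain ⟨e, hr⟩ := hr
  by_cases he : e = 0
  · subst he
    rw [conj_Z hg (S.ov_zero.1 hr)]; exact hr.mem
  obtain ⟨a, ha⟩ := trace hg hr he hf
  have := conj_mem ht (S.P_mem a)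
  rw [hs_anti S.two (conj_sq hrr) (by rw [ha, neg_neg])] at this
  exact (S.R.mul_mem_cancel_right (S.P_mem a)).1 this

end Pau

end CfsgLib.C6
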