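import Mathlib
import Cfsg.Agent.Lib.C6.Core
import Cfsg.Agent.Lib.C6.Pauli

/-! Overgroups of a group of symplectic type in which the centralisers of the non-central elements
of the group normalise it. -/

set_option autoImplicit false
set_option linter.unusedSectionVars false

namespace CfsgLib.C6

open CfsgLib.OrthE CfsgLib.OMax Module QuadraticMap

universe u

namespace Pau

variable {F : Type*} {A : Type u} {E : Type*} [Field F] [Ring A] [Algebra F A] [AddCommGroup E]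
  [Module (ZMod 2) E] [Finite A] [FiniteDimensional (ZMod 2) E] {S : Pau F A E}
  {X M : Subgroup Aˣ}

variable (S X) in
/-- An overgroup of `R` centralising the centre and containing the quotients `(1 + u) / (1 + v)`
for non-central `u`, `v`. -/
structure Over : Prop where
  cz : X ≤ S.CZ
  le : S.R ≤ X
  pr : ∀ {u v : Aˣ} {x y : E}, S.Ov u x → S.Ov v y → x ≠ 0 → y ≠ 0 → u * u = -1 → v * v = -1 →
    hs u * (hs v)⁻¹ ∈ X

variable (S X) in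
/-- The centraliser of the elements over `x` normalises `R`. -/
def CenAt (x : E) : Prop := ∀ g ∈ X, g * S.P x = S.P x * g → g ∈ S.Nm

variable (S X) in
/-- Centralisers of non-central elements normalise `R`. -/
def Cen : Prop := ∀ x, x ≠ 0 → S.CenAt X x

theorem Ov.comm_P {g r : Aˣ} {x : E} (h : S.Ov r x) (hg : g ∈ S.CZ) (e : g * r = r * g) :
    g * S.P x = S.P x * g := by
  obtain ⟨c, hc, rfl⟩ := h
  rwa [← mul_assoc, ← hg c hc, mul_assoc, mul_assoc, mul_right_inj] at e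

theorem Ov.exists_comm {g r : Aˣ} {x : E} (h : S.Ov r x) (hx : x ≠ 0)
    (h' : S.Ov (g * r * g⁻¹) x) : ∃ s ∈ S.R, g * s * r = r * (g * s) := by
  rcases h'.eq_or h (by rcases h.sq with e | e <;> simp [e]) with h2 | h2
  · exact ⟨1, S.R.one_mem, by simpa using mul_inv_eq_iff_eq_mul.1 h2⟩
  · obtain ⟨y, hy⟩ := exists_one S.nd hx
    refine ⟨_, S.P_mem y, ?_⟩
    rw [mul_assoc, (S.ov_P y).comm1 h (pc1 hy), mul_neg, ← mul_assoc, mul_inv_eq_iff_eq_mul.1 h2]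
    simp [mul_assoc]

theorem CenAt.mem {x : E} (hC : S.CenAt X x) (h1 : X ≤ S.CZ) (h2 : S.R ≤ X) {g r : Aˣ}
    (hg : g ∈ X) (h : S.Ov r x) (hx : x ≠ 0) (h' : S.Ov (g * r * g⁻¹) x) : g ∈ S.Nm := by
  obtain ⟨s, hs, e⟩ := h.exists_comm hx h'
  have h3 := X.mul_mem hg (h2 hs)
  exact (S.Nm.mul_mem_cancel_right (S.R_le hs)).1 (hC _ h3 (h.comm_P (h1 h3) e))

variable (S X M) in
/-- The subgroup produced by the strong embedding theorem. -/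
structure Core : Prop extends S.Over X where
  rle : S.R ≤ M
  nm : M ≤ S.Nm
  cj : ∀ n ∈ X, n ∈ S.Nm → ∀ m ∈ M, n * m * n⁻¹ ∈ M
  inv : ∀ a ∈ M, a * a ∈ S.Z → a ∈ S.R
  tr : ∀ x y, x ≠ 0 → y ≠ 0 → ∃ m ∈ M, S.Ov (m * S.P x * m⁻¹) y

theorem Over.core (hX : S.Over X) (hse : SE.{u}) [Nontrivial E] (hC : S.Cen X)
    (hSC : ∀ g ∈ X, ∀ r ∈ S.R, g * r * g⁻¹ ∈ S.Nm → g * r * g⁻¹ ∈ S.R) (hn : ¬ X ≤ S.Nm) :
    ∃ M, S.Core X M := by
  obtain ⟨e, he⟩ := exists_ne (0 : E)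
  obtain ⟨M, h1, -, h3, h4, h5⟩ := exists_core hse (N := S.Nm) S.Z_le hX.le hX.cz
    (fun g hg => ⟨fun h => h.2, fun h => ⟨hX.cz hg, h⟩⟩) (fun r ⟨_, h⟩ => h.sq_mem)
    ⟨_, S.P_mem e, (S.ov_P e).not_mem he⟩ (fun g hg r ⟨x, hx⟩ hr h =>
      have h0 : x ≠ 0 := fun h0 => hr (S.ov_zero.1 (h0 ▸ hx))
      (hC x h0).mem hX.cz hX.le hg hx h0 (by simpa using hx.zmul h)) hSC hn
  refine ⟨M, hX, h1, h3, h4, fun a ha haa => by_contra fun h => ?_, fun x y hx hy => ?_⟩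
  · obtain ⟨m, hm, h6⟩ := h5 a ha _ (h1 (S.P_mem e)) (fun h' => h (S.Z_le h'))
      ((S.ov_P e).not_mem he) haa (S.ov_P e).sq_mem
    have := conj_mem (S.Nm.inv_mem (h3 hm)) ((S.ov_P e).zmul h6).mem
    exact h (by simpa [mul_assoc] using this)
  · obtain ⟨m, hm, h6⟩ := h5 _ (h1 (S.P_mem x)) _ (h1 (S.P_mem y)) ((S.ov_P x).not_mem hx)
      ((S.ov_P y).not_mem hy) (S.ov_P x).sq_mem (S.ov_P y).sq_mem
    exact ⟨m, hm, by simpa using (S.ov_P y).zmul h6⟩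

theorem exists_w {j : Aˣ} (hj : j ∈ S.Z) (hjj : j * j = -1) {r : Aˣ} {x : E} (h : S.Ov r x) :
    ∃ c ∈ S.Z, c * r * (c * r) = -1 := by
  rcases h.sq with e | e
  · refine ⟨j, hj, ?_⟩
    rw [mul_assoc, ← mul_assoc r, ← h.zcomm hj, mul_assoc, e, mul_one, hjj]
  · exact ⟨1, S.Z.one_mem, by simpa using e⟩

theorem exists_w' {j : Aˣ} (hj : j ∈ S.Z) (hjj : j * j = -1) (x : E) :
    ∃ u, S.Ov u x ∧ u * u = -1 :=
  let ⟨_, hc, h⟩ := exists_w hj hjj (S.ov_P x)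
  ⟨_, (S.ov_P x).zmul hc, h⟩

variable (S M) in
/-- The quotients over `x` and `y` lie in `M`. -/
def Rel (x y : E) : Prop :=
  ∀ u v, S.Ov u x → S.Ov v y → u * u = -1 → v * v = -1 → hs u * (hs v)⁻¹ ∈ M

theorem rel_of (hM : S.R ≤ M) {u v : Aˣ} {x y : E} (hu : S.Ov u x)
    (hv : S.Ov v y) (h1 : u * u = -1) (h2 : v * v = -1) (h : hs u * (hs v)⁻¹ ∈ M) :
    S.Rel M x y := fun u' v' hu' hv' h3 h4 => by
  have h5 : hs u' * (hs v)⁻¹ ∈ M := by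
    rcases hu'.eq_or hu (h3.trans h1.symm) with rfl | rfl
    · exact h
    · rw [hs_neg S.two h1, mul_assoc]; exact M.mul_mem (hM hu.neg.mem) h
  rcases hv'.eq_or hv (h4.trans h2.symm) with rfl | rfl
  · exact h5
  · rw [hs_neg S.two h2, mul_inv_rev, ← mul_assoc]
    exact M.mul_mem h5 (hM hv.neg.inv.mem)

namespace Core

variable (h : S.Core X M) (w : ∀ x, ∃ u, S.Ov u x ∧ u * u = -1)
include h w

theorem exists_tv {x y : E} (hx : x ≠ 0) (hy : y ≠ 0) :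
    ∃ n : S.Nm, n.1 ∈ X ∧ S.φ n = tvE S.Q x * tvE S.Q y := by
  obtain ⟨u, a1, a2⟩ := w x
  obtain ⟨v, a3, a4⟩ := w y
  exact ⟨_, h.pr a1 a3 hx hy a2 a4, φ_hd a1 a3 a2 a4⟩

theorem rel_of_fix {g : S.Nm} (hg : g.1 ∈ M) {c a : E} (hc : c ≠ 0) (ha : a ≠ 0)
    (hgc : S.φ g c = c) : S.Rel M (S.φ g a) a := by
  obtain ⟨u, a1, a2⟩ := w a
  obtain ⟨v, a3, a4⟩ := w c
  obtain ⟨s, b1, b2⟩ := a3.exists_comm hc ((a3.φ g).congr hgc)
  obtain ⟨k, b3, b5, b6⟩ : ∃ k : S.Nm, k.1 ∈ M ∧ S.φ k a = S.φ g a ∧ k.1 * v = v * k.1 :=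
    ⟨g * ⟨s, S.R_le b1⟩, M.mul_mem hg (h.rle b1), by
      rw [map_mul, φ_R (g := ⟨s, _⟩) b1, mul_one], b2⟩
  have b4 := M.mul_mem b3 (h.cj _ (h.pr a1 a3 ha hc a2 a4) (hd_mem a1.mem a3.mem a2 a4) _
    (M.inv_mem b3))
  refine rel_of h.rle ((a1.φ k).congr b5) a1 (conj_sq a2) a2 ?_
  have b7 : (hs v)⁻¹ * k.1⁻¹ * hs v = k.1⁻¹ := by
    rw [← mul_inv_rev, hs_comm S.two a4 b6]; group
  have b8 : k.1 * (hs u * (hs v)⁻¹ * k.1⁻¹ * (hs u * (hs v)⁻¹)⁻¹) =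
      k.1 * hs u * ((hs v)⁻¹ * k.1⁻¹ * hs v) * (hs u)⁻¹ := by group
  rwa [b8, b7, hs_conj S.two a2] at b4

theorem rel_conj {n : S.Nm} (hn : n.1 ∈ X) {x y : E} (hr : S.Rel M x y) :
    S.Rel M (S.φ n x) (S.φ n y) := by
  obtain ⟨u, a1, a2⟩ := w x
  obtain ⟨v, a3, a4⟩ := w y
  refine rel_of h.rle (a1.φ n) (a3.φ n) (conj_sq a2) (conj_sq a4) ?_
  have b1 := h.cj n hn n.2 _ (hr u v a1 a3 a2 a4)
  have b2 : n.1 * (hs u * (hs v)⁻¹) * n.1⁻¹ = n.1 * hs u * n.1⁻¹ * (n.1 * hs v * n.1⁻¹)⁻¹ := by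
    group
  rwa [b2, hs_conj S.two a2, hs_conj S.two a4] at b1

theorem exists_rel (h4 : 4 ≤ finrank (ZMod 2) E) :
    ∃ x y, x ≠ 0 ∧ y ≠ 0 ∧ x ≠ y ∧ S.Rel M x y := by
  obtain ⟨a, ha, -⟩ := exists_sing S.nd (by omega)
  obtain ⟨b, -, a1, a2⟩ := exists_orth_not_mem S.nd ⊤ (Submodule.span (ZMod 2) {a}) [a]
    (by simp [finrank_span_singleton ha]; omega)
  rw [mem_span_one, not_or] at a1
  have a3 := a2 a (by simp)
  obtain ⟨g, hg, a4⟩ : ∃ g : S.Nm, g.1 ∈ M ∧ S.φ g a = b :=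
    let ⟨g, hg, a4⟩ := h.tr a b ha a1.1
    ⟨⟨g, h.nm hg⟩, hg, φ_eq _ (S.ov_P a) a4⟩
  by_cases a5 : S.φ g b = a
  · exact ⟨b, a, a1.1, ha, a1.2, a4 ▸ h.rel_of_fix w hg (add_ne (Ne.symm a1.2)) ha
      (by rw [map_add, a4, a5, add_comm])⟩
  obtain ⟨n, b1, b2⟩ := h.exists_tv w ha a1.1
  obtain ⟨k, hk, b3⟩ : ∃ k : S.Nm, k.1 ∈ M ∧ S.φ k = tvE S.Q (tvE S.Q b (S.φ g b)) * tvE S.Q a :=
    ⟨g * (n * g⁻¹ * n⁻¹), M.mul_mem hg (h.cj n b1 n.2 _ (M.inv_mem hg)), by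
      rw [← mul_assoc, ← mul_assoc, map_mul, map_mul, map_mul, map_inv, map_inv, b2,
        conj_tvE₂ (φ_polar _), a4, mul_inv_rev, tvE_inv, tvE_inv, ← mul_assoc, tvE_conj]⟩
  obtain ⟨c, -, b4, b5⟩ := exists_orth_not_mem S.nd ⊤ ⊥ [a, tvE S.Q b (S.φ g b)] (by simp; omega)
  obtain ⟨x, b6⟩ : ∃ x, S.φ k x ≠ x := by
    by_contra b6
    push Not at b6
    have b7 := tvE_inj S.nd ((eq_inv_of_mul_eq_one_left (b3.symm.trans (LinearEquiv.ext b6))).trans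
      (tvE_inv a))
    exact a5 (by rw [← tvE_tvE (Q := S.Q) b (S.φ _ b), b7, tvE_of_zero (pc a3)])
  have b7 : x ≠ 0 := by rintro rfl; simp at b6
  exact ⟨_, x, by simpa using b7, b7, b6, h.rel_of_fix w hk (c := c) (by simpa using b4) b7 (by
    rw [b3, LinearEquiv.mul_apply, tvE_of_zero (b5 a (by simp)), tvE_of_zero (b5 _ (by simp))])⟩

theorem exists_rel_orth (h4 : 4 ≤ finrank (ZMod 2) E) :
    ∃ a b, a ≠ 0 ∧ b ≠ 0 ∧ a ≠ b ∧ polar S.Q a b = 0 ∧ S.Rel M a b := by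
  obtain ⟨x, y, hx, hy, hxy, hr⟩ := h.exists_rel w h4
  rcases C6.z2 (polar S.Q x y) with e | e
  · exact ⟨x, y, hx, hy, hxy, e, hr⟩
  obtain ⟨u, v, ⟨a1, a2⟩, -, a3⟩ := exists_hyp_pair S.nd (by omega) e
  have hu : u ≠ 0 := by rintro rfl; simp at a3
  obtain ⟨n, b1, b2⟩ := h.exists_tv w hx hu
  obtain ⟨m, b3, b4⟩ := h.exists_tv w (fun h : x + u = 0 => by
    simpa [pc1 e, a2] using congrArg (polar S.Q y) h) hu
  have b5 := h.rel_conj w b1 hr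
  have b6 := h.rel_conj w b3 hr
  rw [b2, LinearEquiv.mul_apply, LinearEquiv.mul_apply, tvE_of_zero (pc a1), tvE_of_zero (pc a2),
    tvE_self, tvE_of_one e] at b5
  rw [b4, LinearEquiv.mul_apply, LinearEquiv.mul_apply, tvE_of_zero (pc a1), tvE_of_zero (pc a2),
    tvE_of_zero (by simp [pc a1]), tvE_of_one (by simp [e, pc a2])] at b6
  refine ⟨y + x, y + (x + u), add_ne hxy.symm, fun h => ?_, by simpa using hu,
    by simp [e, pc1 e, a1, a2, z11], fun r s c1 c2 c3 c4 => ?_⟩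
  · simpa [e, a1] using congrArg (polar S.Q x) h
  · obtain ⟨t, d1, d2⟩ := w x
    simpa [mul_assoc] using M.mul_mem (M.inv_mem (b5 t r d1 c1 d2 c3)) (b6 t s d1 c2 d2 c4)

theorem false_four (h4 : 4 ≤ finrank (ZMod 2) E) : False := by
  obtain ⟨a, b, ha, hb, hab, h0, hr⟩ := h.exists_rel_orth w h4
  obtain ⟨u, a1, a2⟩ := w a
  obtain ⟨v, a3, a4⟩ := w b
  obtain ⟨e, a5, a6⟩ := dual2 S.nd ha hb hab 1 1
  have b1 : ∀ {u x}, S.Ov u x → u * u = -1 → polar S.Q x e = 1 →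
      hs u * S.P e = S.P e * hs (-u) := fun {u x} c1 c2 c3 => by
    have := hs_conj S.two c2 (S.P e)⁻¹
    rw [inv_inv, mul_assoc _ u, c1.comm1 (S.ov_P e) c3, mul_neg, inv_mul_cancel_left] at this
    rw [← this]; group
  have c1 : (hs v)⁻¹ * S.P e = S.P e * (hs (-v))⁻¹ := by
    rw [inv_mul_eq_iff_eq_mul, ← mul_assoc, b1 a3 a4 a6, mul_inv_cancel_right]
  have c2 : (hs (-v))⁻¹ * hs u = hs u * (hs (-v))⁻¹ := by
    rw [inv_mul_eq_iff_eq_mul, ← mul_assoc, hs_hs_comm S.two (by simpa using a4) a2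
      (a3.neg.comm0 a1 (pc h0)), mul_inv_cancel_right]
  have c3 : hs (-u) * hs u = hs v * hs (-v) := Units.ext (by
    rw [hs_mul_neg S.two a4]
    simpa using hs_mul_neg S.two (u := -u) (by simpa using a2))
  have c4 : S.P e * (hs u * (hs v)⁻¹) * (S.P e * (hs u * (hs v)⁻¹)) = S.P e * S.P e :=
    calc _ = S.P e * hs u * ((hs v)⁻¹ * S.P e) * hs u * (hs v)⁻¹ := by group
      _ = S.P e * (hs u * S.P e) * ((hs (-v))⁻¹ * hs u) * (hs v)⁻¹ := by rw [c1]; group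
      _ = S.P e * S.P e * (hs (-u) * hs u) * (hs (-v))⁻¹ * (hs v)⁻¹ := by
        rw [c2, b1 a1 a2 a5]; group
      _ = _ := by rw [c3]; group
  have b2 := h.inv _ (M.mul_mem (h.rle (S.P_mem e)) (hr u v a1 a3 a2 a4)) (by
    rw [c4]; exact (S.ov_P e).sq_mem)
  have b3 := φ_R (g := ⟨_, hd_mem a1.mem a3.mem a2 a4⟩) ((S.R.mul_mem_cancel_left (S.P_mem e)).1 b2)
  rw [φ_hd a1 a3 a2 a4] at b3
  exact hab (tvE_inj S.nd ((eq_inv_of_mul_eq_one_left b3).trans (tvE_inv b)))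

end Core

/-- The end of the argument for centre of order four. -/
theorem Over.le_four (hX : S.Over X) (hse : SE.{u}) (h4 : 4 ≤ finrank (ZMod 2) E) {j : Aˣ}
    (hj : j ∈ S.Z) (hjj : j * j = -1) (hC : S.Cen X)
    (hSC : ∀ g ∈ X, ∀ r ∈ S.R, g * r * g⁻¹ ∈ S.Nm → g * r * g⁻¹ ∈ S.R) : X ≤ S.Nm := by
  by_contra hn
  have : Nontrivial E := Module.nontrivial_of_finrank_pos (R := ZMod 2) (by omega)
  obtain ⟨M, h⟩ := hX.core hse hC hSC hn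
  exact h.false_four (exists_w' hj hjj) h4

/-- Centre of order four, rigid case. -/
theorem Over.le_of_rigid (hX : S.Over X) (hse : SE.{u}) (h4 : 4 ≤ finrank (ZMod 2) E) {j : Aˣ}
    (hj : j ∈ S.Z) (hjj : j * j = -1)
    (hr : ∀ g ∈ X, ∀ x, x ≠ 0 → g * S.P x * g⁻¹ ∈ S.Nm → g ∈ S.Nm) : X ≤ S.Nm := by
  refine hX.le_four hse h4 hj hjj (fun x hx g hg e => hr g hg x hx ?_) fun g hg r ⟨x, h⟩ hf => ?_
  · rw [e, mul_inv_cancel_right]; exact S.R_le (S.P_mem x)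
  by_cases hx : x = 0
  · subst hx
    rw [conj_Z (hX.cz hg) (S.ov_zero.1 h)]; exact h.mem
  refine conj_mem (hr g hg x hx ?_) h.mem
  obtain ⟨c, hc, rfl⟩ := h
  rwa [← mul_assoc g, ← hX.cz hg c hc, mul_assoc c, mul_assoc c,
    S.Nm.mul_mem_cancel_left (S.R_le (S.Z_le hc))] at hf

theorem exists_comm_of_sq (h4 : 3 ≤ finrank (ZMod 2) E) {f : S.Nm} (hf : f.1 * f.1 ∈ S.R) :
    ∃ a, a ≠ 0 ∧ f * S.P a = S.P a * f := by
  have a1 := finrank_perp S.nd (fixE (S.φ f))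
  have a2 := Submodule.finrank_mono (perp_fixE_le S.nd (φ_polar f) (φ_of_sq hf))
  obtain ⟨x, b1, y, b2, b3, b4, b5⟩ := exists_two_mem (U := fixE (S.φ f)) (by omega)
  rcases comm_or (S.ov_P x) (mem_fixE.1 b1) with b6 | b6
  · exact ⟨x, b3, b6⟩
  rcases comm_or (S.ov_P y) (mem_fixE.1 b2) with b7 | b7
  · exact ⟨y, b4, b7⟩
  refine ⟨x + y, add_ne b5, ((S.ov_P x).mul (S.ov_P y)).comm_P f.2.1 ?_⟩
  rw [← mul_assoc, b6, neg_mul, mul_assoc, b7]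
  simp [mul_assoc]

/-- Centre of order four, with all the elements `(1 + u) / (1 + j)`. -/
theorem le_of_cen_four (hse : SE.{u}) (h4 : 4 ≤ finrank (ZMod 2) E) {j : Aˣ}
    (hj : j ∈ S.Z) (hjj : j * j = -1) (h1 : X ≤ S.CZ) (h2 : S.R ≤ X)
    (h3 : ∀ u ∈ S.R, u * u = -1 → hs u * (hs j)⁻¹ ∈ X) (hC : S.Cen X) : X ≤ S.Nm := by
  refine Over.le_four ⟨h1, h2, fun a1 a2 _ _ a3 a4 => ?_⟩ hse h4 hj hjj hC
    fun g hg r ⟨e, hr⟩ hf => ?_
  · simpa [mul_assoc] using X.mul_mem (h3 _ a1.mem a3) (X.inv_mem (h3 _ a2.mem a4))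
  obtain ⟨c, hc, hrr⟩ := exists_w hj hjj hr
  have e1 : g * (c * r) * g⁻¹ = c * (g * r * g⁻¹) := by
    rw [← mul_assoc g, ← h1 hg c hc]; simp only [mul_assoc]
  have hr' := hr.zmul hc
  rw [← S.Nm.mul_mem_cancel_left (S.R_le (S.Z_le hc)), ← e1] at hf
  rw [← S.R.mul_mem_cancel_left (S.Z_le hc), ← e1]
  generalize c * r = r at hrr hr' hf
  refine mem_of_hs (h1 hg) hr'.mem hrr hf ?_
  obtain ⟨a, ha, a3⟩ := exists_comm_of_sq (by omega) (f := ⟨_, hf⟩) (by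
    rw [conj_sq hrr]; exact S.Z_le S.neg_mem)
  have a4 : hs (g * r * g⁻¹) * (hs j)⁻¹ ∈ X := by
    have := X.mul_mem (X.mul_mem hg (h3 r hr'.mem hrr)) (X.inv_mem hg)
    rwa [show g * (hs r * (hs j)⁻¹) * g⁻¹ = g * hs r * g⁻¹ * (g * hs j * g⁻¹)⁻¹ by group,
      hs_conj S.two hrr, hs_conj S.two hjj, conj_Z (h1 hg) hj] at this
  refine (S.Nm.mul_mem_cancel_right (S.Nm.inv_mem (hs_mem (S.Z_le hj) hjj))).1 (hC a ha _ a4 ?_)
  have a5 : Commute (hs (g * r * g⁻¹)) (S.P a) := (hs_comm S.two (conj_sq hrr) a3.symm).symm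
  have a6 : Commute (hs j) (S.P a) := (hs_comm S.two hjj (S.zP j hj a).symm).symm
  exact a5.mul_left a6.inv_left

end Pau

end CfsgLib.C6
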