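import Mathlib
import Cfsg.Agent.Lib.C6.End

/-! Overgroups of an extraspecial group: centralisers of non-central involutions control
everything. -/

set_option autoImplicit false
set_option linter.unusedSectionVars false

namespace CfsgLib.C6

open CfsgLib.OrthE CfsgLib.OMax Module QuadraticMap

universe u

section F2

variable {E : Type*} [AddCommGroup E] [Module (ZMod 2) E] (Q : QuadraticForm (ZMod 2) E)

/-- The orthogonal complement of a pair. -/
def EE (a b : E) : Submodule (ZMod 2) E := perp Q (Submodule.span (ZMod 2) {a, b})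

/-- The restricted form. -/
def QQ (a b : E) : QuadraticForm (ZMod 2) (EE Q a b) := Q.comp (EE Q a b).subtype

variable {Q} {a b : E}

theorem mem_EE {x : E} : x ∈ EE Q a b ↔ polar Q a x = 0 ∧ polar Q b x = 0 := mem_perp_pair

theorem EE.left (x : EE Q a b) : polar Q a x = 0 := (mem_EE.1 x.2).1

theorem EE.right (x : EE Q a b) : polar Q b x = 0 := (mem_EE.1 x.2).2

@[simp] theorem QQ_apply (x : EE Q a b) : QQ Q a b x = Q x := rfl

@[simp] theorem polar_QQ (x y : EE Q a b) : polar (QQ Q a b) x y = polar Q x y := rfl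

theorem exists_EE (h : polar Q a b = 1) (y : E) :
    ∃ x : EE Q a b, y = x + polar Q b y • a + polar Q a y • b :=
  ⟨⟨y + polar Q b y • a + polar Q a y • b, mem_EE.2 ⟨by simp [h, zadd], by simp [pc1 h, zadd]⟩⟩, by
    simp only
    rw [add_assoc _ _ (_ • b), add_assoc y, aright]⟩

theorem exists_EE' (h : polar Q a b = 1) {y : E} (hy : polar Q a y = 0) :
    ∃ x : EE Q a b, y = x ∨ y = x + a := by
  obtain ⟨x, hx⟩ := exists_EE h y
  rcases z2 (polar Q b y) with e | e <;> simp only [hy, e, zero_smul, one_smul, add_zero] at hx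
  exacts [⟨x, Or.inl hx⟩, ⟨x, Or.inr hx⟩]

theorem EE.ne_add (h : polar Q a b = 1) (x y : EE Q a b) : (x : E) ≠ y + a := fun e => by
  simpa [EE.right, pc1 h] using congrArg (polar Q b) e

theorem nd_QQ (hQ : Nondeg Q) (h : polar Q a b = 1) : Nondeg (QQ Q a b) := fun x hx =>
  Subtype.ext (hQ _ fun y => by
    obtain ⟨z, hz⟩ := exists_EE h y
    rw [hz]
    simpa [pc (EE.left x), pc (EE.right x)] using hx z)

theorem finrank_EE [FiniteDimensional (ZMod 2) E] (hQ : Nondeg Q) (h : polar Q a b = 1) :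
    finrank (ZMod 2) (EE Q a b) + 2 = finrank (ZMod 2) E := by
  have h1 := finrank_perp hQ (Submodule.span (ZMod 2) {a, b})
  have h2 : LinearIndependent (ZMod 2) ![a, b] := LinearIndependent.pair_iff.2 fun s t e =>
    ⟨by simpa [pc1 h] using congrArg (polar Q b) e, by simpa [h] using congrArg (polar Q a) e⟩
  have h3 := finrank_span_eq_card h2
  rw [Matrix.range_cons_cons_empty] at h3
  rw [h3, Fintype.card_fin, add_comm] at h1
  exact h1

theorem finrank_le_of_inj [FiniteDimensional (ZMod 2) E] {U W : Submodule (ZMod 2) E} {f : U → W}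
    (hf : Function.Injective f) : finrank (ZMod 2) U ≤ finrank (ZMod 2) W := by
  have : Finite E := Module.finite_of_finite (ZMod 2)
  have h := Nat.card_le_card_of_injective f hf
  rw [Module.natCard_eq_pow_finrank (K := ZMod 2) (V := U),
    Module.natCard_eq_pow_finrank (K := ZMod 2) (V := W), Nat.card_zmod] at h
  exact (Nat.pow_le_pow_iff_right (by norm_num)).1 h

end F2

theorem mem_zpowers_four {A : Type*} [Ring A] {j c : Aˣ} (hj : j * j = -1) :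
    c ∈ Subgroup.zpowers j ↔ c = 1 ∨ c = -1 ∨ c = j ∨ c = -j := by
  constructor
  · rintro ⟨n, rfl⟩
    have hi : j⁻¹ = -j := inv_eq_of_mul_eq_one_right (by simp [hj])
    induction n using Int.induction_on with
    | zero => simp
    | succ n h => rcases h with h | h | h | h <;> simp only at h <;> simp [zpow_add, h, hj]
    | pred n h => rcases h with h | h | h | h <;> simp only at h <;> simp [zpow_sub, h, hi, hj]
  · have h1 := Subgroup.mem_zpowers j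
    have h2 := Subgroup.mul_mem _ h1 h1
    rw [hj] at h2
    rintro (rfl | rfl | rfl | rfl)
    exacts [Subgroup.one_mem _, h2, h1, by simpa using Subgroup.mul_mem _ h2 h1]

namespace Pau

variable {F : Type*} {A : Type u} {E : Type*} [Field F] [Ring A] [Algebra F A] [AddCommGroup E]
  [Module (ZMod 2) E] [Finite A] [FiniteDimensional (ZMod 2) E] {S : Pau F A E}
  {X : Subgroup Aˣ}

variable (S) in
/-- The centre has order two. -/
def Two : Prop := ∀ c ∈ S.Z, c = 1 ∨ c = -1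

theorem Two.mem_CZ (h : S.Two) (g : Aˣ) : g ∈ S.CZ := fun c hc => by
  rcases h c hc with rfl | rfl <;> simp

theorem Two.Q_eq (h : S.Two) {g r : Aˣ} {x y : E} (hr : S.Ov r x) (hr' : S.Ov (g * r * g⁻¹) y) :
    S.Q y = S.Q x := by
  apply S.sg_inj
  rw [← hr'.sq_eq h, conj_mul, hr.sq_eq h, ← sg_comm, mul_inv_cancel_right]

theorem Two.Q_one (h : S.Two) {u : Aˣ} {x : E} (hu : S.Ov u x) : u * u = -1 ↔ S.Q x = 1 := by
  rw [hu.sq_eq h, ← sg_one]
  exact ⟨S.sg_inj, fun e => by rw [e]⟩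

theorem Two.Q_zero (h : S.Two) {u : Aˣ} {x : E} (hu : S.Ov u x) : u * u = 1 ↔ S.Q x = 0 := by
  rw [hu.sq_eq h, ← sg_zero]
  exact ⟨S.sg_inj, fun e => by rw [e]⟩

theorem sq_one {x : E} (h : S.Q x = 1) : S.P x * S.P x = -1 := by rw [S.sq, h, sg_one]

theorem sq_zero {x : E} (h : S.Q x = 0) : S.P x * S.P x = 1 := by rw [S.sq, h, sg_zero]

variable (S X) in
/-- The group induced on `E`. -/
noncomputable def bar : Subgroup (E ≃ₗ[ZMod 2] E) := (X.subgroupOf S.Nm).map S.φ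

theorem mem_bar {k : E ≃ₗ[ZMod 2] E} : k ∈ S.bar X ↔ ∃ n : S.Nm, n.1 ∈ X ∧ S.φ n = k := Iff.rfl

theorem Over.tv_mem (hX : S.Over X) {c d : E} (hc : S.Q c = 1) (hd : S.Q d = 1) :
    tvE S.Q c * tvE S.Q d ∈ S.bar X :=
  ⟨_, hX.pr (S.ov_P c) (S.ov_P d) (ne_of_Q hc) (ne_of_Q hd) (sq_one hc) (sq_one hd),
    φ_hd (S.ov_P c) (S.ov_P d) (sq_one hc) (sq_one hd)⟩

theorem Over.trans (hX : S.Over X) (h5 : 5 ≤ finrank (ZMod 2) E) {x y : E} (hx : x ≠ 0)
    (hy : y ≠ 0) (h : S.Q x = S.Q y) : ∃ n : S.Nm, n.1 ∈ X ∧ S.φ n x = y := by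
  obtain ⟨_, ⟨n, h1, rfl⟩, h2⟩ := trans_Q S.nd h5 (fun c d => hX.tv_mem) hx hy h
  exact ⟨n, h1, h2⟩

theorem ne_zero_of_conj {g r : Aˣ} {x y : E} (hg : g ∈ S.CZ) (hr : S.Ov r x) (hx : x ≠ 0)
    (hy : S.Ov (g * r * g⁻¹) y) : y ≠ 0 := by
  rintro rfl
  have := conj_Z (S.CZ.inv_mem hg) (S.ov_zero.1 hy)
  rw [inv_inv, show g⁻¹ * (g * r * g⁻¹) * g = r by group] at this
  exact hr.not_mem hx (this ▸ S.ov_zero.1 hy)

theorem CenAt.mem_of_move {x y : E} (hC : S.CenAt X x) (h1 : X ≤ S.CZ) (h2 : S.R ≤ X) {g r : Aˣ}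
    (hg : g ∈ X) (hr : S.Ov r x) (hx : x ≠ 0) (hy : S.Ov (g * r * g⁻¹) y) {n : S.Nm}
    (hn : n.1 ∈ X) (hxy : S.φ n y = x) : g ∈ S.Nm :=
  (S.Nm.mul_mem_cancel_left n.2).1 (hC.mem h1 h2 (X.mul_mem hn hg) hr hx (by
    simpa only [mul_assoc, mul_inv_rev, Subgroup.coe_inv] using (hy.φ n).congr hxy))

theorem Over.ti (hX : S.Over X) (h2 : S.Two) (h5 : 5 ≤ finrank (ZMod 2) E) {g r : Aˣ} {x : E}
    (hC : S.CenAt X x) (hg : g ∈ X) (hr : S.Ov r x) (hx : x ≠ 0) (h : g * r * g⁻¹ ∈ S.R) :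
    g ∈ S.Nm := by
  obtain ⟨y, hy⟩ := h
  obtain ⟨n, h3, h4⟩ := hX.trans h5 (ne_zero_of_conj (hX.cz hg) hr hx hy) hx (h2.Q_eq hr hy)
  exact hC.mem_of_move hX.cz hX.le hg hr hx hy h3 h4

variable (S) in
/-- The elements of `E` whose conjugates by `g` normalise `R`. -/
def cut (g : Aˣ) : Submodule (ZMod 2) E where
  carrier := {x | g * S.P x * g⁻¹ ∈ S.Nm}
  add_mem' {x y} hx hy := by
    have h := S.Nm.mul_mem hx hy
    rw [conj_mul] at h
    rcases S.mul x y with e | e <;> rw [e] at h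
    · exact h
    · simpa using S.Nm.mul_mem (S.R_le (S.Z_le S.neg_mem)) h
  zero_mem' := by simp [S.P0]
  smul_mem' c x hx := by
    rcases C6.z2 c with rfl | rfl
    · simp [S.P0]
    · simpa using hx

theorem Ov.mem_cut {g r : Aˣ} {x : E} (h : S.Ov r x) (hg : g ∈ S.CZ) :
    x ∈ S.cut g ↔ g * r * g⁻¹ ∈ S.Nm := by
  obtain ⟨c, hc, rfl⟩ := h
  rw [← mul_assoc g, ← hg c hc, mul_assoc c, mul_assoc c,
    S.Nm.mul_mem_cancel_left (S.R_le (S.Z_le hc))]
  rfl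

variable (S X) in
/-- The situation for centre of order two. -/
structure BT : Prop extends S.Over X where
  two : S.Two
  five : 5 ≤ finrank (ZMod 2) E
  cen : S.Cen X
  inn : ∀ g ∈ X, (∀ y, g * S.P y = S.P y * g) → g ∈ S.R

namespace BT

variable (h : S.BT X) {g : Aˣ} (hg : g ∈ X) (hn : g ∉ S.Nm)
include h hg hn

theorem mem_Z {r : Aˣ} (hr : r ∈ S.R) (hr' : g * r * g⁻¹ ∈ S.R) : g * r * g⁻¹ ∈ S.Z := by
  obtain ⟨x, hx⟩ := hr
  by_cases h0 : x = 0
  · subst h0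
    rw [conj_Z (h.cz hg) (S.ov_zero.1 hx)]; exact S.ov_zero.1 hx
  · exact absurd (h.toOver.ti h.two h.five (h.cen x h0) hg hx h0 hr') hn

theorem fix_eq {r : Aˣ} {b : E} (hr : S.Ov r b) (hb : b ≠ 0) (hf : g * r * g⁻¹ ∈ S.Nm) :
    fixE (S.φ ⟨_, hf⟩) = S.cut g⁻¹ := by
  ext a
  rw [mem_fixE]
  constructor
  · intro ha
    refine (h.cen b hb).mem h.cz h.le (X.mul_mem (X.mul_mem (X.inv_mem hg) (h.le (S.P_mem a)))
      (X.inv_mem (X.inv_mem hg))) hr hb ?_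
    have e : g⁻¹ * S.P a * g⁻¹⁻¹ * r * (g⁻¹ * S.P a * g⁻¹⁻¹)⁻¹ =
      g⁻¹ * (S.P a * (g * r * g⁻¹)) * (S.P a)⁻¹ * g := by group
    rw [e]
    rcases comm_or (S.ov_P a) ha with e' | e'
    · rw [← e']; simpa [mul_assoc] using hr
    · rw [← neg_eq_iff_eq_neg] at e'
      rw [← e']; simpa [mul_assoc] using hr.neg
  · intro ha
    have h1 := ((S.ov_P a).φ ⟨_, hf⟩).mul (S.ov_P a).inv
    have h2 := h.mem_Z hg hn (S.R.mul_mem hr.mem (conj_mem ha hr.inv.mem)) (by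
      convert h1.mem using 1; simp only [Subgroup.coe_inv]; group)
    refine add_eq_zero'.1 (h1.unique (S.ov_zero.2 ?_))
    convert h2 using 1; simp only [Subgroup.coe_inv]; group

theorem perp_le {b : E} (hb : b ∈ S.cut g) (h0 : b ≠ 0) : perp S.Q (S.cut g⁻¹) ≤ S.cut g⁻¹ := by
  rw [← h.fix_eq hg hn (S.ov_P b) h0 hb]
  exact perp_fixE_le S.nd (φ_polar _) (φ_of_sq (S.Z_le (by
    simpa [conj_Z (h.cz hg) (S.ov_P b).sq_mem] using (S.ov_P b).sq_mem)))

theorem finrank_le (h0 : S.cut g ≠ ⊥) :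
    finrank (ZMod 2) (S.cut g) ≤ finrank (ZMod 2) (perp S.Q (S.cut g⁻¹)) := by
  have hsq : ∀ b : S.cut g, ∀ y, S.φ ⟨_, b.2⟩ (S.φ ⟨_, b.2⟩ y) = y := fun b => φ_of_sq (S.Z_le (by
    simpa [conj_Z (h.cz hg) (S.ov_P b).sq_mem] using (S.ov_P b).sq_mem))
  obtain ⟨y, hy⟩ : ∃ y, y ∉ S.cut g⁻¹ := by
    by_contra h1
    push Not at h1
    obtain ⟨b, hb, h2⟩ := Submodule.exists_mem_ne_zero_of_ne_bot h0
    obtain ⟨r, h3, h4⟩ := inner (g := ⟨_, hb⟩) (LinearEquiv.ext fun y => mem_fixE.1 (by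
      rw [h.fix_eq hg hn (S.ov_P b) h2 hb]; exact h1 y))
    have h5 := h.inn _ (X.mul_mem (h.le h3) (X.mul_mem (X.mul_mem hg (h.le (S.P_mem b)))
      (X.inv_mem hg))) h4
    exact hn (h.toOver.ti h.two h.five (h.cen b h2) hg (S.ov_P b) h2
      ((S.R.mul_mem_cancel_left h3).1 h5))
  refine finrank_le_of_inj (f := fun b => ⟨y + S.φ ⟨_, b.2⟩ y, ?_⟩) fun b b' e => ?_
  · by_cases h1 : b.1 = 0
    · rw [φ_R (by simp [h1, S.P0])]; simp [aself]
    · rw [← h.fix_eq hg hn (S.ov_P b) h1 b.2]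
      exact (mem_perp_fixE S.nd (φ_polar _) (hsq b)).2 ⟨y, rfl⟩
  · by_contra h1
    have h2 := (S.ov_P b).mul (S.ov_P b')
    have h3 := (h2.mem_cut (h.cz hg)).1 (Submodule.add_mem _ b.2 b'.2)
    apply hy
    rw [← h.fix_eq hg hn h2 (add_ne fun e => h1 (Subtype.ext e)) h3, mem_fixE]
    rw [Subtype.mk.injEq, add_right_inj] at e
    rw [show (⟨_, h3⟩ : S.Nm) = ⟨_, b.2⟩ * ⟨_, b'.2⟩ from Subtype.ext conj_mul.symm, map_mul,
      LinearEquiv.mul_apply, ← e, hsq]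

theorem cut_eq_bot : S.cut g = ⊥ := by
  by_contra h0
  have hg' := X.inv_mem hg
  have hn' : g⁻¹ ∉ S.Nm := fun e => hn (S.Nm.inv_mem_iff.1 e)
  have h5 := h.five
  obtain ⟨b, hb, b0⟩ := Submodule.exists_mem_ne_zero_of_ne_bot h0
  have a1 := finrank_perp S.nd (S.cut g⁻¹)
  have a2 := Submodule.finrank_mono (h.perp_le hg hn hb b0)
  have h0' : S.cut g⁻¹ ≠ ⊥ := fun e => by rw [e, finrank_bot] at a1 a2; omega
  obtain ⟨a, ha, a0⟩ := Submodule.exists_mem_ne_zero_of_ne_bot h0'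
  have a3 := finrank_perp S.nd (S.cut g)
  have a4 := Submodule.finrank_mono (h.perp_le hg' hn' ha a0)
  have a5 := h.finrank_le hg hn h0
  rw [inv_inv] at a4
  have a6 := Submodule.eq_of_le_of_finrank_le (h.perp_le hg hn hb b0) (by omega)
  have key : ∀ b ∈ S.cut g, b ≠ 0 → ∀ a ∈ S.cut g⁻¹,
      g * S.P b * g⁻¹ * S.P a * (g * S.P b * g⁻¹)⁻¹ = (S.P a)⁻¹ := fun b hb b0 a ha => by
    have b1 : g * S.P b * g⁻¹ * (g * S.P b * g⁻¹) ∈ S.Z := by
      simpa [conj_Z (h.cz hg) (S.ov_P b).sq_mem] using (S.ov_P b).sq_mem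
    rw [← a6, ← h.fix_eq hg hn (S.ov_P b) b0 hb] at ha
    obtain ⟨y, rfl⟩ := (mem_perp_fixE S.nd (φ_polar _) (φ_of_sq (S.Z_le b1))).1 ha
    have b2 := (S.ov_P _).div ((S.ov_P y).mul ((S.ov_P y).inv.φ ⟨_, hb⟩))
    simp only [Subgroup.coe_inv] at b2
    generalize S.P (y + _) = s at b2 ⊢
    generalize g * S.P b * g⁻¹ = f at b1 b2 ⊢
    have b3 : f * (S.P y * (f * (S.P y)⁻¹ * f⁻¹)) * f⁻¹ = (S.P y * (f * (S.P y)⁻¹ * f⁻¹))⁻¹ := by
      have := (S.ov_P y).inv.zcomm b1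
      rw [show f * (S.P y * (f * (S.P y)⁻¹ * f⁻¹)) * f⁻¹ =
        f * S.P y * f⁻¹ * (f * f * (S.P y)⁻¹) * (f * f)⁻¹ by group, this]
      group
    rcases h.two _ b2 with e | e
    · rw [mul_inv_eq_one.1 e, b3]
    · rw [mul_inv_eq_iff_eq_mul.1 e, neg_one_mul, conj_neg, b3, inv_neg]
  obtain ⟨b, b1, b', b2, b3, b4, b5⟩ := exists_two_mem (U := S.cut g) (by omega)
  have c1 := (S.ov_P b).mul (S.ov_P b')
  have c2 := (c1.mem_cut (h.cz hg)).1 (Submodule.add_mem _ b1 b2)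
  obtain ⟨a, c3⟩ := trace (h.cz hg) c1 (add_ne b5) c2
  have c4 : a ∈ S.cut g⁻¹ := by
    rw [← h.fix_eq hg hn c1 (add_ne b5) c2, mem_fixE]
    exact φ_of_anti (S.ov_P a) c3
  apply S.neg_ne (S.P a * (g * (S.P b * S.P b') * g⁻¹))
  rw [← c3, ← mul_inv_eq_iff_eq_mul, ← conj_mul, mul_inv_rev (g * S.P b * g⁻¹), mul_assoc,
    mul_assoc, ← mul_assoc (S.P a), ← mul_assoc (g * S.P b' * g⁻¹), ← mul_assoc (g * S.P b' * g⁻¹),
    key b' b2 b4 a c4, ← mul_assoc, ← conj_inv, key b b1 b3 a c4, inv_inv]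

end BT

/-- The end of the argument for centre of order two. -/
theorem BT.le_Nm (h : S.BT X) (hse : SE.{u}) : X ≤ S.Nm := by
  by_contra hn
  have h5 := h.five
  have : Nontrivial E := Module.nontrivial_of_finrank_pos (R := ZMod 2) (by omega)
  obtain ⟨M, hM⟩ := h.toOver.core hse h.cen (fun g hg r ⟨e, hr⟩ hf => by
    by_cases h1 : g ∈ S.Nm
    · exact conj_mem h1 hr.mem
    have h2 := (hr.mem_cut (h.cz hg)).2 hf
    rw [h.cut_eq_bot hg h1, Submodule.mem_bot] at h2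
    subst h2
    rw [conj_Z (h.cz hg) (S.ov_zero.1 hr)]; exact hr.mem) hn
  obtain ⟨x, h1, h2⟩ := exists_sing S.nd (by omega)
  obtain ⟨y, h3, -⟩ := exists_ns_orth S.nd (by omega) x
  obtain ⟨m, -, h4⟩ := hM.tr x y h1 (ne_of_Q h3)
  exact one_ne_zero (h3.symm.trans ((h.two.Q_eq (S.ov_P x) h4).trans h2))

/-- The centraliser of an element of order four. -/
def sub (S : Pau F A E) (h : S.Two) {e b : E} (he : S.Q e = 1) (hb : polar S.Q e b = 1) :
    Pau F A (EE S.Q e b) where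
  Q := QQ S.Q e b
  P x := S.P x
  Z := Subgroup.zpowers (S.P e)
  τ := S.τ
  nd := nd_QQ S.nd hb
  two := S.two
  P0 := S.P0
  mul x y := S.mul x y
  sq x := S.sq x
  neg_mem := (mem_zpowers_four (sq_one he)).2 (by simp)
  zP c hc x := by
    have := (S.ov_P e).comm0 (S.ov_P x) (EE.left x)
    rcases (mem_zpowers_four (sq_one he)).1 hc with rfl | rfl | rfl | rfl <;> simp [this]
  zz := by
    rintro _ ⟨m, rfl⟩ _ ⟨n, rfl⟩
    exact zpow_mul_comm ..
  z1 c hc h1 := by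
    rcases (mem_zpowers_four (sq_one he)).1 hc with rfl | rfl | rfl | rfl
    · simp
    · simp
    · exact absurd ((sq_one he).symm.trans h1) (S.neg_ne 1)
    · exact absurd ((sq_one he).symm.trans (by simpa using h1)) (S.neg_ne 1)
  z2 c hc := by
    rcases (mem_zpowers_four (sq_one he)).1 hc with rfl | rfl | rfl | rfl <;> simp [sq_one he]
  τc := S.τc
  τ1 := S.τ1
  sep g hg := by
    obtain ⟨c, hc, x, hx⟩ := S.sep g (h.mem_CZ g)
    have h1 := (S.ov_P x).zmul hc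
    have h2 : polar S.Q e x = 0 := z2_ne'.1 fun h2 => hx (S.τ_anti (g := S.P e) (by
      rw [← mul_assoc, (S.ov_P e).comm1 h1 h2, neg_mul, mul_assoc, hg _ (Subgroup.mem_zpowers _),
        mul_assoc (c * S.P x)]))
    obtain ⟨y, rfl | rfl⟩ := exists_EE' hb h2
    · exact ⟨c, (mem_zpowers_four (sq_one he)).2 (by rcases h c hc with h | h <;> simp [h]), y, hx⟩
    · refine ⟨c * S.P (y + e) * (S.P y)⁻¹, (mem_zpowers_four (sq_one he)).2 ?_, y, by simpa using hx⟩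
      obtain ⟨d, h3, h4⟩ := (h1.mul (S.ov_P y).inv).congr (y := e) (by rw [add_comm, aleft])
      rcases h d h3 with h | h <;> simp [h4, h]

theorem mem_sub_R {h : S.Two} {e b : E} {he : S.Q e = 1} {hb : polar S.Q e b = 1} {r : Aˣ} :
    r ∈ (S.sub h he hb).R ↔ r ∈ S.R ∧ S.P e * r = r * S.P e := by
  constructor
  · rintro ⟨x, hx⟩
    refine ⟨?_, hx.zcomm (Subgroup.mem_zpowers _)⟩
    obtain ⟨c, hc, rfl⟩ := hx
    exact S.R.mul_mem (Subgroup.zpowers_le.2 (S.P_mem e) hc) (S.P_mem _)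
  · rintro ⟨⟨x, hx⟩, h1⟩
    obtain ⟨y, rfl | rfl⟩ := exists_EE' hb ((S.ov_P e).polar0 hx h1)
    · obtain ⟨c, hc, rfl⟩ := hx
      exact ⟨y, c, (mem_zpowers_four (sq_one he)).2 (by rcases h c hc with h | h <;> simp [h]), rfl⟩
    · refine ⟨y, r * (S.P y)⁻¹, (mem_zpowers_four (sq_one he)).2 ?_, (inv_mul_cancel_right ..).symm⟩
      obtain ⟨d, h3, h4⟩ := (hx.mul (S.ov_P y).inv).congr (y := e) (by rw [add_comm, aleft])
      rcases h d h3 with h | h <;> simp [h4, h]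

theorem mem_sub_CZ {h : S.Two} {e b : E} {he : S.Q e = 1} {hb : polar S.Q e b = 1} {g : Aˣ} :
    g ∈ (S.sub h he hb).CZ ↔ S.P e * g = g * S.P e :=
  ⟨fun h => h _ (Subgroup.mem_zpowers _), fun h1 c hc => by
    rcases (mem_zpowers_four (sq_one he)).1 hc with rfl | rfl | rfl | rfl <;> simp [h1]⟩

/-- The centralisers of the non-central involutions control those of the elements of order four. -/
theorem Over.cen_of_sing (hX : S.Over X) (hse : SE.{u}) (h2 : S.Two) (h6 : 6 ≤ finrank (ZMod 2) E)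
    (hC : ∀ x, x ≠ 0 → S.Q x = 0 → S.CenAt X x) : S.Cen X := by
  intro e e0 g hg hge
  rcases C6.z2 (S.Q e) with he | he
  · exact hC e e0 he g hg hge
  obtain ⟨b, hb⟩ := exists_one S.nd e0
  have h4 := finrank_EE S.nd hb
  have key : X ⊓ (S.sub h2 he hb).CZ ≤ (S.sub h2 he hb).Nm := by
    refine le_of_cen_four hse (by omega) (Subgroup.mem_zpowers (S.P e)) (sq_one he) inf_le_right
      (fun r hr => ⟨hX.le (mem_sub_R.1 hr).1, (S.sub h2 he hb).R_le hr |>.1⟩) (fun u hu huu => ?_)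
      fun x hx k hk hkx => ?_
    · obtain ⟨⟨x, h3⟩, -⟩ := mem_sub_R.1 hu
      exact ⟨hX.pr h3 (S.ov_P e) (ne_of_Q ((h2.Q_one h3).1 huu)) e0 huu (sq_one he),
        (hd_mem hu ((S.sub h2 he hb).Z_le (Subgroup.mem_zpowers _)) huu (sq_one he)).1⟩
    · have h3 := mem_sub_CZ.1 hk.2
      have h5 : k ∈ S.Nm := by
        rcases C6.z2 (S.Q x) with h5 | h5
        · exact hC x (by simpa using hx) h5 k hk.1 hkx
        · refine hC (x + e) (fun h => EE.ne_add hb 0 x h.symm)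
            (by simp [Q_add, h5, he, pc (EE.left x), z11]) k hk.1
            (((S.ov_P x).mul (S.ov_P e)).comm_P (h2.mem_CZ k) ?_)
          rw [← mul_assoc, show k * S.P x = S.P x * k from hkx, mul_assoc, ← h3, mul_assoc]
      refine mem_Nm hk.2 fun y => mem_sub_R.2 ⟨conj_mem h5 (S.P_mem _), ?_⟩
      have h7 : Commute (S.P e) k := h3
      have h8 : Commute (S.P e) (S.P y) := (S.ov_P e).comm0 (S.ov_P y) (EE.left y)
      exact (h7.mul_right h8).mul_right h7.inv_right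
  obtain ⟨a, a0, ha⟩ := exists_sing (nd_QQ S.nd hb) (by omega)
  have a1 : (a : E) ≠ 0 := by simpa using a0
  exact hX.ti h2 (by omega) (hC a a1 ha) hg (S.ov_P a) a1
    (mem_sub_R.1 (conj_mem (key ⟨hg, mem_sub_CZ.2 hge.symm⟩) ((S.sub h2 he hb).P_mem a))).1

end Pau

end CfsgLib.C6
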