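import Mathlib
import Cfsg.Agent.Lib.C6.Two

/-! Pauli systems acting on a vector space, and their restrictions to the eigenspaces of a
non-central involution. -/

set_option autoImplicit false
set_option linter.unusedSectionVars false

namespace CfsgLib.C6

open CfsgLib.OrthE CfsgLib.OMax Module QuadraticMap

universe u

variable {F : Type*} {V : Type u} [Field F] [AddCommGroup V] [Module F V]

theorem usmul (g : (End F V)ˣ) (v : V) : g • v = (g : End F V) v := rfl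

theorem uext {g k : (End F V)ˣ} (h : ∀ v : V, g • v = k • v) : g = k :=
  Units.ext (LinearMap.ext h)

theorem usmul_smul (g : (End F V)ˣ) (t : F) (v : V) : g • t • v = t • g • v := map_smul g.1 t v

theorem usmul_eq_zero {g : (End F V)ˣ} {v : V} : g • v = 0 ↔ v = 0 := smul_eq_zero_iff_eq g

theorem hs_smul (h2 : (2 : F) ≠ 0) {u : (End F V)ˣ} (hu : u * u = -1) (v : V) :
    hs u • v = v + u • v := by
  rw [usmul, hs_val h2 hu]; rfl

/-- The fixed space. -/
def WW (s : (End F V)ˣ) : Submodule F V := LinearMap.ker ((s : End F V) - 1)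

theorem mem_WW {s : (End F V)ˣ} {v : V} : v ∈ WW s ↔ s • v = v := by
  simp [WW, sub_eq_zero, usmul]

theorem mem_WW_neg {s : (End F V)ˣ} {v : V} : v ∈ WW (-s) ↔ s • v = -v := by
  rw [mem_WW, Units.neg_smul, neg_eq_iff_eq_neg]

theorem smul_mem_WW {s g : (End F V)ˣ} (h : g * s = s * g) {v : V} (hv : v ∈ WW s) :
    g • v ∈ WW s := by
  rw [mem_WW, ← mul_smul, ← h, mul_smul, mem_WW.1 hv]

theorem smul_mem_WW_neg {s g : (End F V)ˣ} (h : g * s = s * g) {v : V} (hv : v ∈ WW (-s)) :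
    g • v ∈ WW (-s) := smul_mem_WW (by simp [h]) hv

theorem smul_mem_of_anti {s g : (End F V)ˣ} (h : g * s = -(s * g)) {v : V} (hv : v ∈ WW s) :
    g • v ∈ WW (-s) := by
  rw [mem_WW, ← mul_smul, neg_mul, ← h, mul_smul, mem_WW.1 hv]

theorem add_mem_WW {s : (End F V)ˣ} (hs : s * s = 1) (v : V) : v + s • v ∈ WW s := by
  rw [mem_WW, smul_add, ← mul_smul, hs, one_smul, add_comm]

theorem exists_WW (h2 : (2 : F) ≠ 0) {s : (End F V)ˣ} (hs : s * s = 1) (v : V) :
    ∃ a ∈ WW s, ∃ b ∈ WW (-s), v = a + b :=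
  ⟨_, Submodule.smul_mem _ (2 : F)⁻¹ (add_mem_WW hs v), _,
    Submodule.smul_mem _ (2 : F)⁻¹ (add_mem_WW (by simpa using hs) v), by
      rw [Units.neg_smul]
      generalize s • v = w
      match_scalars <;> field_simp <;> ring⟩

theorem ext_WW (h2 : (2 : F) ≠ 0) {s g k : (End F V)ˣ} (hs : s * s = 1)
    (h : ∀ v ∈ WW s, g • v = k • v) (h' : ∀ v ∈ WW (-s), g • v = k • v) : g = k :=
  uext fun v => by
    obtain ⟨a, ha, b, hb, rfl⟩ := exists_WW h2 hs v
    rw [smul_add, smul_add, h a ha, h' b hb]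

theorem comm_of_WW (h2 : (2 : F) ≠ 0) {s g : (End F V)ˣ} (hs : s * s = 1)
    (h : ∀ v ∈ WW s, g • v ∈ WW s) (h' : ∀ v ∈ WW (-s), g • v ∈ WW (-s)) : g * s = s * g :=
  ext_WW h2 hs (fun v hv => by rw [mul_smul, mul_smul, mem_WW.1 hv, mem_WW.1 (h v hv)])
    fun v hv => by rw [mul_smul, mul_smul, mem_WW_neg.1 hv, mem_WW_neg.1 (h' v hv), smul_neg]

/-- The projection onto the fixed space. -/
noncomputable def prW {s : (End F V)ˣ} (hs : s * s = 1) : V →ₗ[F] WW s :=
  LinearMap.codRestrict _ ((2 : F)⁻¹ • (1 + (s : End F V))) fun v =>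
    Submodule.smul_mem _ _ (add_mem_WW hs v)

theorem prW_apply {s : (End F V)ˣ} (hs : s * s = 1) (v : V) :
    (prW hs v : V) = (2 : F)⁻¹ • (v + s • v) := rfl

theorem prW_of_mem (h2 : (2 : F) ≠ 0) {s : (End F V)ˣ} (hs : s * s = 1) {v : V} (hv : v ∈ WW s) :
    (prW hs v : V) = v := by
  rw [prW_apply, mem_WW.1 hv]; match_scalars; field_simp; ring

theorem prW_of_neg {s : (End F V)ˣ} (hs : s * s = 1) {v : V} (hv : v ∈ WW (-s)) :
    prW hs v = 0 := Subtype.ext (by rw [prW_apply, mem_WW_neg.1 hv]; simp)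

/-- `y` is the restriction of `g`. -/
def Res {W : Submodule F V} (g : (End F V)ˣ) (y : (End F W)ˣ) : Prop :=
  ∀ w : W, ((y • w : W) : V) = g • (w : V)

namespace Res

variable {W : Submodule F V} {g k : (End F V)ˣ} {y z : (End F W)ˣ}

theorem one : Res (1 : (End F V)ˣ) (1 : (End F W)ˣ) := fun w => by simp

theorem mul (h : Res g y) (h' : Res k z) : Res (g * k) (y * z) := fun w => by
  rw [mul_smul, h, h', mul_smul]

theorem inv (h : Res g y) : Res g⁻¹ y⁻¹ := fun w => by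
  rw [eq_inv_smul_iff, ← h, smul_inv_smul]

theorem neg (h : Res g y) : Res (-g) (-y) := fun w => by
  rw [Units.neg_smul, Units.neg_smul, ← h]; rfl

theorem conj (h : Res g y) (h' : Res k z) : Res (g * k * g⁻¹) (y * z * y⁻¹) := (h.mul h').mul h.inv

theorem unique (h : Res g y) (h' : Res g z) : y = z :=
  uext fun w => Subtype.ext ((h w).trans (h' w).symm)

theorem congr (h : Res g y) (e : ∀ v ∈ W, g • v = k • v) : Res k y := fun w => (h w).trans (e _ w.2)

theorem eq_on (h : Res g y) (h' : Res k y) {v : V} (hv : v ∈ W) : g • v = k • v :=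
  (h ⟨v, hv⟩).symm.trans (h' ⟨v, hv⟩)

theorem mem (h : Res g y) {v : V} (hv : v ∈ W) : g • v ∈ W := h ⟨v, hv⟩ ▸ (y • (⟨v, hv⟩ : W)).2

theorem sg (t : ZMod 2) : Res (sg t : (End F V)ˣ) (sg t : (End F W)ˣ) := by
  rcases z2 t with rfl | rfl
  · simpa using one
  · simpa using one.neg

theorem of_eq (h : Res g y) (h' : Res k z) (e : g = k) : y = z := h.unique (e ▸ h')

theorem pm (h : Res g y) (h' : Res k z) (e : g = k ∨ g = -k) : y = z ∨ y = -z :=
  e.imp (h.of_eq h') (h.of_eq h'.neg)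

theorem sq (h : Res g y) (e : g * g = -1) : y * y = -1 := (h.mul h).unique (e ▸ one.neg)

theorem sq' (h : Res g y) (e : g * g = 1) : y * y = 1 := (h.mul h).unique (e ▸ one)

theorem hs (h2 : (2 : F) ≠ 0) (h : Res g y) (e : g * g = -1) : Res (hs g) (hs y) := fun w => by
  rw [hs_smul h2 e, hs_smul h2 (h.sq e), Submodule.coe_add, h]

end Res

theorem exists_res {s g : (End F V)ˣ} (h : g * s = s * g) : ∃ y : (End F (WW s))ˣ, Res g y := by
  have h' : g⁻¹ * s = s * g⁻¹ := (Commute.inv_left h :)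
  exact ⟨⟨g.1.restrict fun v => smul_mem_WW h, g⁻¹.1.restrict fun v => smul_mem_WW h',
    LinearMap.ext fun w => Subtype.ext (smul_inv_smul g w.1),
    LinearMap.ext fun w => Subtype.ext (inv_smul_smul g w.1)⟩, fun _ => rfl⟩

theorem res_self (s : (End F V)ˣ) : Res s (1 : (End F (WW s))ˣ) := fun w => by
  rw [one_smul, mem_WW.1 w.2]

/-- The restriction. -/
noncomputable def res (W : Submodule F V) (g : (End F V)ˣ) : (End F W)ˣ := Classical.epsilon (Res g)

theorem res_spec {s g : (End F V)ˣ} (h : g * s = s * g) : Res g (res (WW s) g) :=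
  Classical.epsilon_spec (exists_res h)

/-- The group induced on the fixed space of `s` by the centraliser of `s`. -/
def resG (X : Subgroup (End F V)ˣ) (s : (End F V)ˣ) : Subgroup (End F (WW s))ˣ where
  carrier := {y | ∃ g ∈ X, g * s = s * g ∧ Res g y}
  mul_mem' := fun ⟨g, a1, a2, a3⟩ ⟨k, b1, b2, b3⟩ =>
    ⟨g * k, X.mul_mem a1 b1, (Commute.mul_left a2 b2 :), a3.mul b3⟩
  one_mem' := ⟨1, X.one_mem, by simp, Res.one⟩
  inv_mem' := fun ⟨g, a1, a2, a3⟩ => ⟨g⁻¹, X.inv_mem a1, (Commute.inv_left a2 :), a3.inv⟩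

/-- The group induced on the fixed space of `s` by the elements fixing the other eigenspace. -/
def resK (X : Subgroup (End F V)ˣ) (s : (End F V)ˣ) : Subgroup (End F (WW s))ˣ where
  carrier := {y | ∃ g ∈ X, (∀ v ∈ WW (-s), g • v = v) ∧ Res g y}
  mul_mem' := fun ⟨g, a1, a2, a3⟩ ⟨k, b1, b2, b3⟩ =>
    ⟨g * k, X.mul_mem a1 b1, fun v hv => by rw [mul_smul, b2 v hv, a2 v hv], a3.mul b3⟩
  one_mem' := ⟨1, X.one_mem, by simp, Res.one⟩
  inv_mem' := fun ⟨g, a1, a2, a3⟩ =>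
    ⟨g⁻¹, X.inv_mem a1, fun v hv => by rw [inv_smul_eq_iff, a2 v hv], a3.inv⟩

theorem comm_of_resK (h2 : (2 : F) ≠ 0) {s g : (End F V)ˣ} (hs : s * s = 1) {y : (End F (WW s))ˣ}
    (h : ∀ v ∈ WW (-s), g • v = v) (h' : Res g y) : g * s = s * g :=
  comm_of_WW h2 hs (fun _ => h'.mem) fun v hv => (h v hv).symm ▸ hv

theorem conj_mem_resK {X N : Subgroup (End F V)ˣ} (h : ∀ g ∈ X, ∀ n ∈ N, g * n * g⁻¹ ∈ N)
    {s : (End F V)ˣ} : ∀ y ∈ resG X s, ∀ z ∈ resK N s, y * z * y⁻¹ ∈ resK N s :=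
  fun _ ⟨g, a1, a2, a3⟩ _ ⟨k, b1, b2, b3⟩ => ⟨_, h g a1 k b1, fun v hv => by
    rw [mul_smul, mul_smul, b2 _ (smul_mem_WW_neg (Commute.inv_left a2 :) hv), smul_inv_smul],
    a3.conj b3⟩

theorem comm_mem_resK (h2 : (2 : F) ≠ 0) {X N : Subgroup (End F V)ˣ}
    (h : ∀ g ∈ X, ∀ n ∈ N, g * n * g⁻¹ ∈ N) {s b : (End F V)ˣ} (hs : s * s = 1) (hb : b ∈ N)
    (hbs : b * s = -(s * b)) {y z : (End F (WW s))ˣ} (hy : y ∈ resK X s) (hz : z ∈ resK X s) :
    y * z * y⁻¹ * z⁻¹ ∈ resK N s := by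
  obtain ⟨g, a1, a2, a3⟩ := hy
  obtain ⟨k, b1, b2, b3⟩ := hz
  have c1 : b⁻¹ * s = -(s * b⁻¹) := by
    rw [inv_mul_eq_iff_eq_mul, mul_neg, ← mul_assoc, hbs]; simp
  have c2 : Res (k * b⁻¹⁻¹ * k⁻¹ * b⁻¹) z := b3.congr fun v hv => by
    rw [mul_smul, mul_smul, mul_smul, inv_smul_eq_iff.2 (b2 _ (smul_mem_of_anti c1 hv)).symm,
      inv_smul_smul]
  have c3 : k * b⁻¹⁻¹ * k⁻¹ * b⁻¹ * s = s * (k * b⁻¹⁻¹ * k⁻¹ * b⁻¹) := by
    have d1 := comm_of_resK h2 hs b2 b3
    have d2 : k⁻¹ * s = s * k⁻¹ := (Commute.inv_left d1 :)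
    rw [inv_inv, mul_assoc, c1, mul_neg, ← mul_assoc, mul_assoc _ k⁻¹, d2, ← mul_assoc,
      mul_assoc k, hbs, mul_neg, ← mul_assoc, d1]
    simp [mul_assoc]
  have c4 : k * b⁻¹⁻¹ * k⁻¹ * b⁻¹ ∈ N := N.mul_mem (h k b1 _ (by simpa using hb)) (N.inv_mem hb)
  generalize k * b⁻¹⁻¹ * k⁻¹ * b⁻¹ = m at c2 c3 c4
  refine ⟨_, N.mul_mem (h g a1 m c4) (N.inv_mem c4), fun v hv => ?_, (a3.conj c2).mul c2.inv⟩
  have d1 := smul_mem_WW_neg (Commute.inv_left c3 :) hv
  rw [mul_smul, mul_smul, mul_smul, inv_smul_eq_iff.2 (a2 _ d1).symm, smul_inv_smul, a2 v hv]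

variable {E : Type*} [AddCommGroup E] [Module (ZMod 2) E] [FiniteDimensional F V]

theorem sep_of_span {P : E → (End F V)ˣ} (h1 : LinearMap.trace F V 1 ≠ 0)
    (h : Submodule.span F (Set.range fun x => (P x : End F V)) = ⊤) (g : (End F V)ˣ) :
    ∃ x, LinearMap.trace F V ↑(1 * P x * g) ≠ 0 := by
  by_contra h2
  push Not at h2
  have : ∀ a ∈ Submodule.span F (Set.range fun x => (P x : End F V)),
      LinearMap.trace F V (a * g) = 0 := fun a ha => by
    induction ha using Submodule.span_induction with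
    | mem a ha => obtain ⟨x, rfl⟩ := ha; simpa using h2 x
    | zero => simp
    | add a b _ _ ha hb => simp [add_mul, ha, hb]
    | smul c a _ ha => simp [ha]
  exact h1 (by simpa using this g⁻¹.1 (by rw [h]; trivial))

namespace Pau

/-- A Pauli system spanning the endomorphism algebra, with scalar centre. -/
structure PV (S : Pau F (End F V) E) : Prop where
  τ_eq : S.τ = LinearMap.trace F V
  span : Submodule.span F (Set.range fun x => (S.P x : End F V)) = ⊤
  scal : ∀ c ∈ S.Z, ∃ t : F, ∀ v : V, c • v = t • v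

variable {S : Pau F (End F V) E}

theorem PV.mem_CZ (h : S.PV) (g : (End F V)ˣ) : g ∈ S.CZ := fun c hc => by
  obtain ⟨t, ht⟩ := h.scal c hc
  exact uext fun v => by rw [mul_smul, mul_smul, ht, ht, usmul_smul]

theorem PV.scalar_of_comm (h : S.PV) {g : End F V} (hg : ∀ x, g * S.P x = S.P x * g) :
    ∃ t : F, ∀ v, g v = t • v := by
  have : ∀ a ∈ Submodule.span F (Set.range fun x => (S.P x : End F V)), a * g = g * a :=
    fun a ha => by
      induction ha using Submodule.span_induction with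
      | mem a ha => obtain ⟨x, rfl⟩ := ha; exact (hg x).symm
      | zero => simp
      | add a b _ _ ha hb => simp [add_mul, mul_add, ha, hb]
      | smul c a _ ha => simp [ha]
  have h1 : g ∈ Subalgebra.center F (End F V) :=
    Subalgebra.mem_center_iff.2 fun a => this a (by rw [h.span]; trivial)
  obtain ⟨t, rfl⟩ := Algebra.mem_bot.1 (Algebra.IsCentral.out h1)
  exact ⟨t, fun v => rfl⟩

theorem linearIndependent_P {A : Type*} [Ring A] [Algebra F A] (S : Pau F A E) :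
    LinearIndependent F fun x => (S.P x : A) := by
  refine linearIndependent_iff'.2 fun s c h x hx => ?_
  have := congrArg (fun a => S.τ (a * ((S.P x)⁻¹ : Aˣ))) h
  simp only [Finset.sum_mul, map_sum, smul_mul_assoc, map_smul, zero_mul, map_zero] at this
  rw [Finset.sum_eq_single_of_mem x hx fun y _ hy => by
    rw [← Units.val_mul, ((S.ov_P y).mul (S.ov_P x).inv).τ_eq (add_ne hy), smul_zero]] at this
  simpa [S.τ1] using this

theorem PV.finrank_sq [FiniteDimensional (ZMod 2) E] (h : S.PV) :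
    finrank F V * finrank F V = 2 ^ finrank (ZMod 2) E := by
  have : Finite E := Module.finite_of_finite (ZMod 2)
  have := Fintype.ofFinite E
  have h1 := finrank_span_eq_card S.linearIndependent_P
  rw [h.span, finrank_top, finrank_linearMap, ← Nat.card_eq_fintype_card,
    Module.natCard_eq_pow_finrank (K := ZMod 2), Nat.card_zmod] at h1
  exact h1

variable (S) in
/-- A non-central involution of `R`. -/
structure Inv (s : (End F V)ˣ) (a : E) : Prop where
  ov : S.Ov s a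
  ne : a ≠ 0
  sq : s * s = 1

variable {s s' : (End F V)ˣ} {a a' b : E}

theorem Inv.neg (hs : S.Inv s a) : S.Inv (-s) a := ⟨hs.ov.neg, hs.ne, by simpa using hs.sq⟩

theorem Inv.trace_W (h : S.PV) (hs : S.Inv s a) : LinearMap.trace F (WW s) 1 ≠ 0 := by
  have h1 : LinearMap.IsProj (WW s) ((2 : F)⁻¹ • (1 + (s : End F V))) :=
    ⟨fun v => (prW hs.sq v).2, fun v hv => prW_of_mem S.two hs.sq hv⟩
  rw [LinearMap.trace_one, ← h1.trace, ← h.τ_eq, map_smul, map_add, hs.ov.τ_eq hs.ne, add_zero]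
  exact smul_ne_zero (inv_ne_zero S.two) S.τ1

theorem Inv.comm (hs : S.Inv s a) {r : (End F V)ˣ} (x : EE S.Q a b) (hr : S.Ov r x) :
    r * s = s * r := hr.comm0 hs.ov (pc (EE.left x))

theorem Inv.res_P (hs : S.Inv s a) (x : EE S.Q a b) : Res (S.P x) (res (WW s) (S.P x)) :=
  res_spec (hs.comm x (S.ov_P x))

theorem Inv.exists_res (hs : S.Inv s a) (hb : polar S.Q a b = 1) {r : (End F V)ˣ} {x : E}
    (hr : S.Ov r x) (hx : polar S.Q a x = 0) : ∃ y : EE S.Q a b, (x = y ∨ x = y + a) ∧ ∃ c ∈ S.Z,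
      ∃ c' : (End F (WW s))ˣ, Res c c' ∧ Res r (c' * res (WW s) (S.P y)) := by
  obtain ⟨y, hy⟩ := exists_EE' hb hx
  refine ⟨y, hy, ?_⟩
  rcases hy with rfl | rfl
  · obtain ⟨c, hc, rfl⟩ := hr
    obtain ⟨c', h⟩ := C6.exists_res (hs.ov.zcomm hc)
    exact ⟨c, hc, c', h, h.mul (hs.res_P y)⟩
  · obtain ⟨c, hc, e⟩ := (hr.mul hs.ov).congr (aright a y)
    obtain ⟨c', h⟩ := C6.exists_res (hs.ov.zcomm hc)
    refine ⟨c, hc, c', h, (h.mul (hs.res_P y)).congr fun v hv => ?_⟩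
    rw [← e, mul_smul, mem_WW.1 hv]

theorem Inv.span_res (h : S.PV) (hs : S.Inv s a) (hb : polar S.Q a b = 1) :
    Submodule.span F (Set.range fun x : EE S.Q a b => (res (WW s) (S.P x) : End F (WW s))) = ⊤ := by
  have key : ∀ f ∈ Submodule.span F (Set.range fun x => (S.P x : End F V)),
      prW hs.sq ∘ₗ f ∘ₗ (WW s).subtype ∈ Submodule.span F
        (Set.range fun x : EE S.Q a b => (res (WW s) (S.P x) : End F (WW s))) := fun f hf => by
    induction hf using Submodule.span_induction with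
    | mem f hf =>
      obtain ⟨x, rfl⟩ := hf
      rcases C6.z2 (polar S.Q a x) with e | e
      · obtain ⟨y, -, c, hc, c', h1, h2⟩ := hs.exists_res hb (S.ov_P x) e
        obtain ⟨t, ht⟩ := h.scal c hc
        convert Submodule.smul_mem _ t (Submodule.subset_span (Set.mem_range_self y))
        ext w
        exact (prW_of_mem S.two hs.sq (h2.mem w.2)).trans ((h2 w).symm.trans (by
          rw [mul_smul, h1, ht]; rfl))
      · convert Submodule.zero_mem _
        ext w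
        exact congrArg Subtype.val (prW_of_neg hs.sq
          (smul_mem_of_anti ((S.ov_P x).comm1 hs.ov (pc1 e)) w.2))
    | zero => simp
    | add f g _ _ h1 h2 =>
      rw [LinearMap.add_comp, LinearMap.comp_add]; exact Submodule.add_mem _ h1 h2
    | smul c f _ h1 =>
      rw [LinearMap.smul_comp, LinearMap.comp_smul]; exact Submodule.smul_mem _ _ h1
  refine eq_top_iff.2 fun f _ => ?_
  convert key ((WW s).subtype ∘ₗ f ∘ₗ prW hs.sq) (by rw [h.span]; trivial)
  ext w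
  have : prW hs.sq w = w := Subtype.ext (prW_of_mem S.two hs.sq w.2)
  simp [this, prW_of_mem S.two hs.sq]

/-- The restriction to the fixed space of a non-central involution. -/
noncomputable def loc (h : S.PV) (hs : S.Inv s a) (hb : polar S.Q a b = 1) :
    Pau F (End F (WW s)) (EE S.Q a b) where
  Q := QQ S.Q a b
  P x := res (WW s) (S.P x)
  Z := resG S.Z s
  τ := LinearMap.trace F (WW s)
  nd := nd_QQ S.nd hb
  two := S.two
  P0 := (hs.res_P (b := b) 0).unique (by simpa [S.P0] using Res.one)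
  mul x y := ((hs.res_P x).mul (hs.res_P y)).pm (hs.res_P (x + y)) (S.mul x y)
  sq x := ((hs.res_P x).mul (hs.res_P x)).unique (S.sq x ▸ Res.sg _)
  neg_mem := ⟨-1, S.neg_mem, by simp, Res.one.neg⟩
  zP := fun _ ⟨c, hc, _, h⟩ x => (h.mul (hs.res_P x)).unique (S.zP c hc x ▸ (hs.res_P x).mul h)
  zz := fun _ ⟨c, hc, _, h⟩ _ ⟨d, hd, _, h'⟩ => (h.mul h').unique (S.zz c hc d hd ▸ h'.mul h)
  z1 := fun y ⟨c, hc, _, h1⟩ e => by
    rcases S.z2 c hc with h2 | h2
    · exact h1.pm Res.one (S.z1 c hc h2)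
    · have := congrArg (fun u : (End F (WW s))ˣ => LinearMap.trace F _ u.1) (e.symm.trans (h1.sq h2))
      simp only [Units.val_neg, Units.val_one, map_neg] at this
      exact absurd (by linear_combination this) (mul_ne_zero S.two (hs.trace_W h))
  z2 := fun _ ⟨c, hc, _, h⟩ => (S.z2 c hc).imp h.sq' h.sq
  τc := LinearMap.trace_mul_comm F
  τ1 := hs.trace_W h
  sep g _ := ⟨1, Subgroup.one_mem _, sep_of_span (hs.trace_W h) (hs.span_res h hb) g⟩

variable {h : S.PV} {hs : S.Inv s a} {hb : polar S.Q a b = 1}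

theorem loc_PV : (loc h hs hb).PV :=
  ⟨rfl, hs.span_res h hb, fun _ ⟨c, hc, _, h1⟩ =>
    let ⟨t, ht⟩ := h.scal c hc
    ⟨t, fun v => Subtype.ext ((h1 v).trans (ht v))⟩⟩

theorem ov_loc {r : (End F V)ˣ} {x : EE S.Q a b} (hr : S.Ov r x) {y : (End F (WW s))ˣ}
    (hy : Res r y) : (loc h hs hb).Ov y x := by
  obtain ⟨c, hc, rfl⟩ := hr
  obtain ⟨c', h1⟩ := C6.exists_res (hs.ov.zcomm hc)
  exact ⟨c', ⟨c, hc, hs.ov.zcomm hc, h1⟩, hy.unique (h1.mul (hs.res_P x))⟩

theorem exists_lift {y : (End F (WW s))ˣ} {x : EE S.Q a b} (hy : (loc h hs hb).Ov y x) :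
    ∃ r, S.Ov r x ∧ Res r y := by
  obtain ⟨_, ⟨c, hc, -, h1⟩, rfl⟩ := hy
  exact ⟨_, (S.ov_P x).zmul hc, h1.mul (hs.res_P x)⟩

theorem mem_loc_R {r : (End F V)ˣ} (hr : r ∈ S.R) (hrs : r * s = s * r) {y : (End F (WW s))ˣ}
    (hy : Res r y) : y ∈ (loc h hs hb).R := by
  obtain ⟨x, hx⟩ := hr
  obtain ⟨z, -, c, hc, c', h1, h2⟩ := hs.exists_res hb hx (hs.ov.polar0 hx hrs.symm)
  exact ⟨z, c', ⟨c, hc, hs.ov.zcomm hc, h1⟩, hy.unique h2⟩

theorem sq_eq_of_res (h : S.PV) (hs : S.Inv s a) {g k : (End F V)ˣ} {y : (End F (WW s))ˣ}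
    (h1 : Res g y) (h2 : Res k y) (hg : g * g = 1 ∨ g * g = -1) (hk : k * k = 1 ∨ k * k = -1) :
    g * g = k * k := by
  obtain ⟨b, hb⟩ := exists_one S.nd hs.ne
  have := (loc h hs hb).neg_ne 1
  rcases hg with e | e <;> rcases hk with e' | e'
  · rw [e, e']
  · exact absurd ((h2.sq e').symm.trans (h1.sq' e)) this
  · exact absurd ((h1.sq e).symm.trans (h2.sq' e')) this
  · rw [e, e']

theorem loc_two (h2 : S.Two) : (loc h hs hb).Two := fun _ ⟨c, hc, _, h1⟩ =>
  h1.pm Res.one (h2 c hc)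

/-- An element of `R` fixing the intersection of two eigenspaces. -/
theorem Inv.faithful (hs : S.Inv s a) (hs' : S.Inv s' a') (h1 : a ≠ a') (h2 : s * s' = s' * s)
    {r : (End F V)ˣ} {x : E} (hr : S.Ov r x) (h : ∀ v ∈ WW s, v ∈ WW s' → r • v = v) :
    x ∈ Submodule.span (ZMod 2) {a, a'} := by
  by_contra hn
  simp only [mem_span_two, not_or] at hn
  have e : (r : End F V) * ((1 + s) * (1 + s')) = (1 + s) * (1 + s') := LinearMap.ext fun v =>
    h _ (add_mem_WW hs.sq _) (Submodule.add_mem _ (add_mem_WW hs'.sq v)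
      (smul_mem_WW h2 (add_mem_WW hs'.sq v)))
  replace e := congrArg S.τ e
  simp only [mul_add, add_mul, mul_one, one_mul, map_add, ← Units.val_mul, hr.τ_eq hn.1,
    (hr.mul hs.ov).τ_eq (add_ne hn.2.1), (hr.mul hs'.ov).τ_eq (add_ne hn.2.2.1),
    (hr.mul (hs.ov.mul hs'.ov)).τ_eq (add_ne hn.2.2.2), hs.ov.τ_eq hs.ne, hs'.ov.τ_eq hs'.ne,
    (hs.ov.mul hs'.ov).τ_eq (add_ne h1), add_zero] at e
  exact S.τ1 e.symm

theorem Inv.exists_mem (hs : S.Inv s a) (hs' : S.Inv s' a') (h1 : a ≠ a') (h2 : s * s' = s' * s)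
    (h3 : 3 ≤ finrank (ZMod 2) E) : ∃ v ∈ WW s, v ∈ WW s' ∧ v ≠ 0 := by
  by_contra h
  push Not at h
  have h4 : ⊤ ≤ Submodule.span (ZMod 2) {a, a'} := fun x _ =>
    hs.faithful hs' h1 h2 (S.ov_P x) fun v a1 a2 => by rw [h v a1 a2, smul_zero]
  have : FiniteDimensional (ZMod 2) E := FiniteDimensional.of_finrank_pos (by omega)
  have h5 := Submodule.finrank_mono h4
  have := RootMax.finrank_span_pair_le (F := ZMod 2) a a'
  rw [finrank_top] at h5
  omega

end Pau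

end CfsgLib.C6
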