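import Mathlib
import Cfsg.Agent.Lib.C6.Loc

/-! From the eigenspaces of the non-central involutions to the whole space. -/

set_option autoImplicit false
set_option linter.unusedSectionVars false

namespace CfsgLib.C6

open CfsgLib.OrthE CfsgLib.OMax Module QuadraticMap

universe u

namespace Pau

section Alg

variable {F A E : Type*} [Field F] [Ring A] [Algebra F A] [AddCommGroup E]
  [Module (ZMod 2) E] [Finite A] [FiniteDimensional (ZMod 2) E] {S : Pau F A E} {X : Subgroup Aˣ}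

variable (S X) in
/-- An overgroup of `R` containing all the quotients `(1 + u) / (1 + v)`. -/
structure OverF : Prop where
  le : S.R ≤ X
  pr : ∀ u ∈ S.R, ∀ v ∈ S.R, u * u = -1 → v * v = -1 → hs u * (hs v)⁻¹ ∈ X

theorem OverF.over (hX : S.OverF X) (h : X ≤ S.CZ) : S.Over X :=
  ⟨h, hX.le, fun a1 a2 _ _ => hX.pr _ a1.mem _ a2.mem⟩

theorem R_le_of_sq (h3 : 3 ≤ finrank (ZMod 2) E) {K : Subgroup Aˣ}
    (h : ∀ u ∈ S.R, u * u = -1 → u ∈ K) : S.R ≤ K := fun r ⟨x, hx⟩ => by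
  rcases hx.sq with e | e
  · obtain ⟨c, h1, h2, -⟩ := exists_ns_orth S.nd h3 x
    refine (K.mul_mem_cancel_left (h _ (S.P_mem c) (sq_one h1))).1
      (h _ (S.R.mul_mem (S.P_mem c) hx.mem) ?_)
    rw [mul_assoc, ← mul_assoc r, hx.comm0 (S.ov_P c) h2, mul_assoc, e, mul_one, sq_one h1]
  · exact h r hx.mem e

variable (S X) in
/-- The centraliser of `s` normalises the centraliser of `s` in `R`. -/
def N0 (s : Aˣ) : Prop := ∀ g ∈ X, g * s = s * g → ∀ r ∈ S.R, r * s = s * r → g * r * g⁻¹ ∈ S.R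

theorem mem_of_N0 (h1 : X ≤ S.CZ) (h2 : S.R ≤ X) {s s' : Aˣ} {a a' : E} (hs : S.Ov s a)
    (hs' : S.Ov s' a') (ha : a ≠ 0) (ha' : a' ≠ 0) (haa : a ≠ a') (h0 : polar S.Q a a' = 0)
    (n1 : S.N0 X s) (n2 : S.N0 X s') {g : Aˣ} (hg : g ∈ X) (hgs : g * s = s * g)
    (htr : ∀ y, S.Ov (g * s' * g⁻¹) y → ∃ n : S.Nm, n.1 ∈ X ∧ S.φ n y = a') : g ∈ S.Nm := by
  obtain ⟨y, hy⟩ := n1 g hg hgs s' hs'.mem (hs'.comm0 hs (pc h0))
  obtain ⟨n, b1, b2⟩ := htr y hy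
  obtain ⟨t, ⟨z, b3⟩, b4⟩ := hs'.exists_comm ha' (g := n.1 * g) (by
    simpa only [mul_assoc, mul_inv_rev, Subgroup.coe_inv] using (hy.φ n).congr b2)
  have b5 := X.mul_mem (X.mul_mem b1 hg) (h2 b3.mem)
  refine (S.Nm.mul_mem_cancel_left n.2).1 ((S.Nm.mul_mem_cancel_right (S.R_le b3.mem)).1
    (mem_Nm (h1 b5) fun x => ?_))
  obtain ⟨w, c1, c2⟩ := dual2 S.nd ha ha' haa (polar S.Q a x) 0
  have c3 := n2 _ b5 b4 _ (S.P_mem w) ((S.ov_P w).comm0 hs' (pc c2))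
  have c4 := (b3.mul (S.ov_P (x + w))).mul b3.inv
  have c5 := conj_mem n.2 (n1 g hg hgs _ c4.mem (c4.comm0 hs (by
    simp [polar_comm _ _ a, c1, zadd])))
  obtain ⟨u, c6⟩ := S.R.mul_mem c5 c3
  refine (Ov.conj (h1 b5) (S.ov_P x) (y := u) ?_).mem
  have c7 := ((S.ov_P (x + w)).mul (S.ov_P w)).congr (aright w x)
  obtain ⟨c, hc, e⟩ := c7
  rw [eq_comm, ← eq_inv_mul_iff_mul_eq] at e
  rw [e, ← mul_assoc, ← h1 b5 _ (S.Z.inv_mem hc), mul_assoc, mul_assoc]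
  refine Ov.zmul ?_ (S.Z.inv_mem hc)
  convert c6 using 1
  group

end Alg

variable {F : Type*} {V : Type u} [Field F] [AddCommGroup V] [Module F V] {E : Type*}
  [AddCommGroup E] [Module (ZMod 2) E] [FiniteDimensional F V] [Finite F]
  [FiniteDimensional (ZMod 2) E] {S : Pau F (End F V) E} {X : Subgroup (End F V)ˣ}
  {s s' : (End F V)ˣ} {a a' b : E}

instance finite_End : Finite (End F V) := Module.finite_of_finite F

theorem sq_of_res (h : S.PV) (hs : S.Inv s a) {u : (End F V)ˣ} (hu : u ∈ S.R)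
    {y : (End F (WW s))ˣ} (hy : Res u y) (e : y * y = -1) : u * u = -1 := by
  obtain ⟨b, hb⟩ := exists_one S.nd hs.ne
  obtain ⟨x, hx⟩ := hu
  exact hx.sq.resolve_left fun e' => (loc h hs hb).neg_ne 1 (e.symm.trans (hy.sq' e'))

theorem OverF.loc (hX : S.OverF X) (h : S.PV) (hs : S.Inv s a) (hb : polar S.Q a b = 1) :
    (loc h hs hb).OverF (resG X s) := by
  refine ⟨fun y ⟨x, hx⟩ => ?_, fun u ⟨x, hx⟩ v ⟨y, hy⟩ a1 a2 => ?_⟩
  · obtain ⟨r, h1, h2⟩ := exists_lift hx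
    exact ⟨r, hX.le h1.mem, hs.comm x h1, h2⟩
  · obtain ⟨r, h1, h2⟩ := exists_lift hx
    obtain ⟨t, h3, h4⟩ := exists_lift hy
    have a3 := sq_of_res h hs h1.mem h2 a1
    have a4 := sq_of_res h hs h3.mem h4 a2
    have a5 : Commute (C6.hs r) s := (hs_comm S.two a3 (hs.comm x h1).symm).symm
    have a6 : Commute (C6.hs t) s := (hs_comm S.two a4 (hs.comm y h3).symm).symm
    exact ⟨_, hX.pr _ h1.mem _ h3.mem a3 a4, a5.mul_left a6.inv_left,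
      (h2.hs S.two a3).mul (h4.hs S.two a4).inv⟩

theorem OverF.le_resK (hX : S.OverF X) (h : S.PV) (hs : S.Inv s a) (hb : polar S.Q a b = 1)
    (h5 : 5 ≤ finrank (ZMod 2) E) : (Pau.loc h hs hb).R ≤ resK X s := by
  have := finrank_EE S.nd hb
  refine R_le_of_sq (by omega) fun y ⟨x, hx⟩ e => ?_
  obtain ⟨r, h1, h2⟩ := exists_lift hx
  have a3 := sq_of_res h hs h1.mem h2 e
  have a4 := hs.comm x h1
  have a5 : -(r * s) * -(r * s) = -1 := by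
    rw [neg_mul_neg, mul_assoc, ← mul_assoc s, ← a4, mul_assoc, hs.sq, mul_one, a3]
  refine ⟨_, hX.pr _ h1.mem _ (h1.mul hs.ov).neg.mem a3 a5, fun v hv => ?_, ?_⟩
  · obtain ⟨z, hz⟩ := C6.exists_res (s := -s) (g := r) (by simp [a4])
    have a6 : Res (-(r * s)) z := by simpa using hz.mul (res_self (-s))
    simpa using ((hz.hs S.two a3).mul (a6.hs S.two a5).inv ⟨v, hv⟩).symm
  · have a6 : Res (-(r * s)) (-y) := by simpa using (h2.mul (res_self s)).neg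
    have := (h2.hs S.two a3).mul (a6.hs S.two a5).inv
    rwa [hs_div_neg S.two e] at this

theorem exists_conj {h : S.PV} {hs : S.Inv s a} {hb : polar S.Q a b = 1} {g r : (End F V)ˣ}
    {y : (loc h hs hb).Nm} (hy : Res g y.1) {x : EE S.Q a b} (hr : S.Ov r x) :
    ∃ t, S.Ov t ((loc h hs hb).φ y x : EE S.Q a b) ∧ t * t = r * r ∧
      ∀ v ∈ WW s, (g * r * g⁻¹) • v = t • v := by
  obtain ⟨z, hz⟩ := C6.exists_res (hs.comm x hr)
  obtain ⟨t, h1, h2⟩ := exists_lift ((ov_loc hr hz).φ y)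
  refine ⟨t, h1, ?_, fun v => (hy.conj hz).eq_on h2⟩
  rw [sq_eq_of_res h hs h2 (hy.conj hz) h1.sq (hr.sq.imp conj_sq' conj_sq)]
  rcases hr.sq with e | e <;> simp [e]

variable (X) in
/-- The groups induced on the eigenspaces normalise the restricted systems. -/
def PV.Loc (h : S.PV) : Prop :=
  ∀ s a b (hs : S.Inv s a) (hb : polar S.Q a b = 1), resG X s ≤ (loc h hs hb).Nm

variable {h : S.PV}

theorem PV.Loc.exists_conj (hL : h.Loc X) (hs : S.Inv s a) {g r : (End F V)ˣ} (hg : g ∈ X)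
    (hgs : g * s = s * g) (hr : r ∈ S.R) (hrs : r * s = s * r) :
    ∃ t ∈ S.R, ∀ v ∈ WW s, (g * r * g⁻¹) • v = t • v := by
  obtain ⟨b, hb⟩ := exists_one S.nd hs.ne
  obtain ⟨y, hy⟩ := C6.exists_res hgs
  obtain ⟨z, hz⟩ := C6.exists_res hrs
  obtain ⟨x, hx⟩ := conj_mem (hL s a b hs hb ⟨g, hg, hgs, hy⟩) (mem_loc_R hr hrs hz)
  obtain ⟨t, h1, h2⟩ := exists_lift hx
  exact ⟨t, h1.mem, fun v => (hy.conj hz).eq_on h2⟩

theorem star {hs : S.Inv s a} {hb : polar S.Q a b = 1} {k : (End F V)ˣ}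
    (h1 : ∀ v ∈ WW (-s), k • v = v) {y : (loc h hs hb).Nm} (hy : Res k y.1) {a' : EE S.Q a b}
    (hs' : S.Inv s' a') {x : EE S.Q a b}
    (hk : ∃ t ∈ S.R, ∀ v ∈ WW s', (k * S.P x * k⁻¹) • v = t • v) :
    (loc h hs hb).φ y x = x ∨ (loc h hs hb).φ y x = x + a' := by
  obtain ⟨t, ⟨z, b1⟩, b2⟩ := hk
  obtain ⟨t', b3, -, b4⟩ := exists_conj hy (S.ov_P x)
  have c1 : a ≠ a' := fun e => EE.ne_add hb 0 a' (by rw [← e]; simp [aself])
  have c2 := (hs.comm a' hs'.ov).symm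
  have c3 := hs.neg.faithful hs' c1 (by simp [c2]) ((S.ov_P x).inv.mul b1) fun v d1 d2 => by
    rw [mul_smul, ← b2 v d2, mul_smul, mul_smul, inv_smul_eq_iff.2 (h1 v d1).symm,
      h1 _ (smul_mem_WW_neg (hs.comm x (S.ov_P x)) d1), inv_smul_smul]
  have c4 := hs.faithful hs' c1 c2 (b3.inv.mul b1) fun v d1 d2 => by
    rw [mul_smul, ← b2 v d2, b4 v d1, inv_smul_smul]
  have c5 := Submodule.add_mem _ c4 c3
  rw [add_add_add_comm, aself, add_zero, mem_span_two] at c5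
  generalize (loc h hs hb).φ y x = w at c5
  rcases c5 with e | e | e | e
  · exact Or.inl (Subtype.ext (add_eq_zero'.1 e))
  · exact absurd e (by simpa using EE.ne_add hb (w + x) 0)
  · exact Or.inr (Subtype.ext (by rw [Submodule.coe_add, ← e, add_comm, aright]))
  · exact absurd (e.trans (add_comm _ _)) (EE.ne_add hb (w + x) a')

theorem n0_of_eq (hL : h.Loc X) (hs : S.Inv s a) (hb : polar S.Q a b = 1)
    (hσ : ∀ g ∈ X, g * s = s * g → ∀ (y : (loc h hs hb).Nm) (z : (loc h hs.neg hb).Nm),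
      Res g y.1 → Res g z.1 → (loc h hs hb).φ y = (loc h hs.neg hb).φ z) : S.N0 X s := by
  intro g hg hgs
  have hgs' : g * -s = -s * g := by simp [hgs]
  obtain ⟨y, hy⟩ := C6.exists_res hgs
  obtain ⟨z, hz⟩ := C6.exists_res hgs'
  have key : ∀ (r : (End F V)ˣ) (x : EE S.Q a b), S.Ov r x → g * r * g⁻¹ ∈ S.R := fun r x hr => by
    obtain ⟨t, a1, a2, a3⟩ := exists_conj (y := ⟨y, hL s a b hs hb ⟨g, hg, hgs, hy⟩⟩) hy hr
    obtain ⟨t', b1, b2, b3⟩ := exists_conj (y := ⟨z, hL _ a b hs.neg hb ⟨g, hg, hgs', hz⟩⟩) hz hr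
    rw [hσ g hg hgs _ ⟨z, hL _ a b hs.neg hb ⟨g, hg, hgs', hz⟩⟩ hy hz] at a1
    rcases b1.eq_or a1 (b2.trans a2.symm) with rfl | rfl
    · rw [ext_WW S.two hs.sq a3 b3]; exact a1.mem
    · rw [ext_WW S.two hs.sq (g := g * r * g⁻¹) (k := t * s) (fun v hv => by rw [a3 v hv, mul_smul, mem_WW.1 hv])
        fun v hv => by rw [b3 v hv, mul_smul, mem_WW_neg.1 hv, smul_neg, Units.neg_smul]]
      exact (a1.mul hs.ov).mem
  intro r ⟨x, hx⟩ hrs
  obtain ⟨y, rfl | rfl⟩ := exists_EE' hb (hs.ov.polar0 hx hrs.symm)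
  · exact key r y hx
  · have := key _ y ((hx.mul hs.ov).congr (aright a y))
    rw [← conj_mul, hgs, mul_inv_cancel_right] at this
    exact (S.R.mul_mem_cancel_right hs.ov.mem).1 this

/-- The conjugate of an element of order four, on the two eigenspaces. -/
theorem exists_conj_hs {hs : S.Inv s a} {hb : polar S.Q a b = 1} {g u : (End F V)ˣ}
    {y : (loc h hs hb).Nm} {z : (loc h hs.neg hb).Nm} (hy : Res g y.1)
    (hz : Res g z.1) {x : EE S.Q a b} (hu : S.Ov u x) (huu : u * u = -1) :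
    ∃ t, S.Ov t ((loc h hs.neg hb).φ z x : EE S.Q a b) ∧ t * t = -1 ∧
      (∀ v ∈ WW (-s), C6.hs (g * u * g⁻¹) • v = C6.hs t • v) ∧
      (∃ m : (loc h hs hb).Nm, Res (C6.hs (g * u * g⁻¹)) m.1 ∧
        (loc h hs hb).φ m = tvE (QQ S.Q a b) ((loc h hs hb).φ y x)) ∧
      (∃ m : (loc h hs hb).Nm, Res (C6.hs t) m.1 ∧
        (loc h hs hb).φ m = tvE (QQ S.Q a b) ((loc h hs.neg hb).φ z x)) ∧
      ∀ r w, S.Ov r w → polar S.Q w a = 0 → polar S.Q w ((loc h hs hb).φ y x : EE S.Q a b) = 0 →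
        polar S.Q w ((loc h hs.neg hb).φ z x : EE S.Q a b) = 0 →
        r * (g * u * g⁻¹) = g * u * g⁻¹ * r := by
  obtain ⟨t, a1, a2, a3⟩ := exists_conj hz hu
  obtain ⟨t', b1, b2, b3⟩ := exists_conj hy hu
  rw [huu] at a2 b2
  obtain ⟨p, hp⟩ := C6.exists_res (hs.comm _ a1)
  obtain ⟨q, hq⟩ := C6.exists_res (hs.comm _ b1)
  have c1 := ov_loc (h := h) (hs := hs) (hb := hb) a1 hp
  have c2 := ov_loc (h := h) (hs := hs) (hb := hb) b1 hq
  refine ⟨t, a1, a2, fun v hv => ?_, ⟨_, ?_, φ_hs c2 (hq.sq b2)⟩,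
    ⟨_, hp.hs S.two a2, φ_hs c1 (hp.sq a2)⟩, fun r w d1 d2 d3 d4 => ?_⟩
  · rw [hs_smul S.two (conj_sq huu), hs_smul S.two a2, a3 v hv]
  · exact (hq.congr fun v hv => (b3 v hv).symm).hs S.two (conj_sq huu)
  · have d5 := d1.comm0 hs.ov d2
    refine ext_WW S.two hs.sq (fun v hv => ?_) fun v hv => ?_
    · rw [mul_smul, mul_smul _ r, b3 v hv, b3 _ (smul_mem_WW d5 hv), ← mul_smul, ← mul_smul,
        d1.comm0 b1 d3]
    · rw [mul_smul, mul_smul _ r, a3 v hv, a3 _ (smul_mem_WW_neg d5 hv), ← mul_smul, ← mul_smul,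
        d1.comm0 a1 d4]

theorem exists_inv {j : (End F V)ˣ} (hj : j ∈ S.Z) (hjj : j * j = -1) {x : E} (hx : x ≠ 0) :
    ∃ s, S.Inv s x := by
  obtain ⟨u, h1, h2⟩ := exists_w' hj hjj x
  refine ⟨j * u, h1.zmul hj, hx, ?_⟩
  rw [mul_assoc, ← mul_assoc u, ← h1.zcomm hj, mul_assoc, h2, mul_neg_one, mul_neg, hjj, neg_neg]

theorem n0_four (hX : S.OverF X) (hL : h.Loc X) (h5 : 5 ≤ finrank (ZMod 2) E) {j : (End F V)ˣ}
    (hj : j ∈ S.Z) (hjj : j * j = -1) (hs : S.Inv s a) : S.N0 X s := by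
  obtain ⟨b, hb⟩ := exists_one S.nd hs.ne
  have h3 := finrank_EE S.nd hb
  refine n0_of_eq hL hs hb fun g hg hgs y z hy hz => LinearEquiv.ext fun x => ?_
  by_cases hx : x = 0
  · simp [hx]
  obtain ⟨u, hu, huu⟩ := exists_w' hj hjj (x : E)
  obtain ⟨t, a1, a2, a3, ⟨m, a4, a5⟩, ⟨m', a6, a7⟩, a8⟩ := exists_conj_hs hy hz hu huu
  have b1 : C6.hs (g * u * g⁻¹) * (C6.hs t)⁻¹ ∈ X := by
    have := X.mul_mem (X.mul_mem (X.mul_mem hg (hX.pr _ hu.mem _ (S.Z_le hj) huu hjj))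
      (X.inv_mem hg)) (hX.pr _ (S.Z_le hj) _ a1.mem hjj a2)
    rwa [show g * (C6.hs u * (C6.hs j)⁻¹) * g⁻¹ * (C6.hs j * (C6.hs t)⁻¹) =
      g * C6.hs u * g⁻¹ * (g * C6.hs j * g⁻¹)⁻¹ * C6.hs j * (C6.hs t)⁻¹ by group,
      hs_conj S.two huu, hs_conj S.two hjj, conj_Z (h.mem_CZ g) hj, inv_mul_cancel_right] at this
  have b2 : ∀ v ∈ WW (-s), (C6.hs (g * u * g⁻¹) * (C6.hs t)⁻¹) • v = v := fun v hv => by
    have c1 : Commute (C6.hs t) s := (hs_comm S.two a2 (hs.comm _ a1).symm).symm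
    rw [mul_smul, a3 _ (smul_mem_WW_neg c1.inv_left hv), smul_inv_smul]
  refine eq_of_sections (nd_QQ S.nd hb) (by omega) (by simpa using hx) (by simpa using hx)
    fun a' c1 c2 c3 w c4 => ?_
  obtain ⟨s', hs'⟩ := exists_inv hj hjj (x := (a' : E)) (by simpa using c1)
  have c5 : Commute s' (C6.hs (g * u * g⁻¹)) :=
    hs_comm S.two (conj_sq huu) (a8 s' _ hs'.ov (pc (EE.left a')) (pc c2) (pc c3))
  have c6 : Commute s' (C6.hs t) := hs_comm S.two a2 (hs'.ov.comm0 a1 (pc c3))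
  have := star (y := m * m'⁻¹) b2 (a4.mul a6.inv) hs' (hL.exists_conj hs' b1
    (c5.mul_right c6.inv_right).symm (S.P_mem _) ((S.ov_P w).comm0 hs'.ov (pc c4)))
  rwa [map_mul, map_inv, a5, a7, tvE_inv] at this

theorem OverF.tv_mem (hX : S.OverF X) {j : (End F V)ˣ} (hj : j ∈ S.Z) (hjj : j * j = -1) (x : E) :
    tvE S.Q x ∈ S.bar X := by
  obtain ⟨u, hu, huu⟩ := exists_w' hj hjj x
  refine ⟨⟨_, hd_mem hu.mem (S.Z_le hj) huu hjj⟩, hX.pr _ hu.mem _ (S.Z_le hj) huu hjj, ?_⟩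
  simpa [tvE_zero] using φ_hd hu (S.ov_zero.2 hj) huu hjj

/-- Centre of order four: the local condition implies the global one. -/
theorem PV.Loc.le_four (hL : h.Loc X) (hX : S.OverF X) (hse : SE.{u})
    (h5 : 5 ≤ finrank (ZMod 2) E) {j : (End F V)ˣ} (hj : j ∈ S.Z) (hjj : j * j = -1) :
    X ≤ S.Nm := by
  have h1 : X ≤ S.CZ := fun g _ => h.mem_CZ g
  refine le_of_cen_four hse (by omega) hj hjj h1 hX.le
    (fun u hu huu => hX.pr u hu j (S.Z_le hj) huu hjj) fun a ha g hg hga => ?_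
  obtain ⟨a', c1, c2, -, c3⟩ := exists_sing_two S.nd h5 ha
  obtain ⟨s, hs⟩ := exists_inv hj hjj ha
  obtain ⟨s', hs'⟩ := exists_inv hj hjj c1
  refine mem_of_N0 h1 hX.le hs.ov hs'.ov ha c1 c2.symm c3 (n0_four hX hL h5 hj hjj hs)
    (n0_four hX hL h5 hj hjj hs') hg ?_ fun y hy => ?_
  · obtain ⟨c, hc, rfl⟩ := hs.ov
    rw [← mul_assoc, ← h1 hg c hc, mul_assoc, hga, mul_assoc]
  · obtain ⟨_, ⟨n, d1, rfl⟩, d2⟩ := trans_all S.nd (hX.tv_mem hj hjj)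
      (ne_zero_of_conj (h1 hg) hs'.ov c1 hy) c1
    exact ⟨n, d1, d2⟩

/-- The elements fixing one eigenspace act trivially on the section. -/
theorem bar_resK (hX : S.OverF X) (h2 : S.Two) (h5 : 5 ≤ finrank (ZMod 2) E) (hs : S.Inv s a)
    (hb : polar S.Q a b = 1) (hg : Good (QQ S.Q a b))
    (hL : ∀ k ∈ X, (∀ v ∈ WW (-s), k • v = v) → ∀ (y : (loc h hs hb).Nm), Res k y.1 →
      ∀ s' (a' x : EE S.Q a b), S.Inv s' a' → k * s' = s' * k → polar S.Q (a' : E) x = 0 →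
        ∃ t ∈ S.R, ∀ v ∈ WW s', (k * S.P x * k⁻¹) • v = t • v)
    {y : (loc h hs hb).Nm} (hy : y.1 ∈ resK X s) : (loc h hs hb).φ y = 1 := by
  refine Sec.eq_one (Q := QQ S.Q a b) (K := (loc h hs hb).bar (resK X s))
    ⟨nd_QQ S.nd hb, hg, ?_, ?_, ?_⟩ ⟨y, hy, rfl⟩
  · rintro _ ⟨n, -, rfl⟩
    exact φ_Q (loc_two h2) n
  · rintro c d hc hd _ ⟨n, hn, rfl⟩
    obtain ⟨m, hm, e⟩ := ((hX.loc h hs hb).over fun g _ => loc_PV.mem_CZ g).tv_mem hc hd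
    exact ⟨m * n * m⁻¹, conj_mem_resK (fun g hg n hn => X.mul_mem (X.mul_mem hg hn) (X.inv_mem hg))
      _ hm _ hn, by rw [map_mul, map_mul, map_inv, e]; rfl⟩
  · rintro _ ⟨n, hn, rfl⟩ a' c1 c2 c3 x c4
    have hs' : S.Inv (S.P a') a' := ⟨S.ov_P _, by simpa using c2, sq_zero c1⟩
    obtain ⟨t, c5, c6⟩ := ((loc h hs hb).ov_P a').exists_comm c2
      ((((loc h hs hb).ov_P a').φ n).congr c3)
    obtain ⟨k, d1, d2, d3⟩ := (resK X s).mul_mem (show n.1 ∈ _ from hn) (hX.le_resK h hs hb h5 c5)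
    have d4 := hs.comm a' (S.ov_P _)
    have := star (y := n * ⟨t, Pau.R_le _ c5⟩) d2 d3 hs' (hL k d1 d2 (n * ⟨t, Pau.R_le _ c5⟩) d3
      _ a' x hs' (ext_WW S.two hs.sq
        (fun v => (d3.mul (hs.res_P a')).eq_on (c6 ▸ (hs.res_P a').mul d3)) fun v hv => by
          rw [mul_smul, mul_smul, d2 v hv, d2 _ (smul_mem_WW_neg d4 hv)]) c4)
    rwa [map_mul, φ_R (g := ⟨t, _⟩) c5, mul_one] at this

theorem n0_two (hX : S.OverF X) (h5 : 5 ≤ finrank (ZMod 2) E) (hs : S.Inv s a)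
    (hb : polar S.Q a b = 1) (hL : h.Loc X)
    (hK : ∀ y : (loc h hs hb).Nm, y.1 ∈ resK X s → (loc h hs hb).φ y = 1) : S.N0 X s := by
  have h3 := finrank_EE S.nd hb
  refine n0_of_eq hL hs hb fun g hg hgs y z hy hz => ?_
  rw [← inv_mul_eq_one, mul_eq_one_comm, mul_eq_one_comm]
  refine eq_one_of_tvE (nd_QQ S.nd hb) (by omega) fun c d hc hd => ?_
  have hc' : S.P c * S.P c = -1 := sq_one hc
  have hd' : S.P d * S.P d = -1 := sq_one hd
  obtain ⟨t, a1, a2, a3, ⟨m, a4, a5⟩, ⟨m', a6, a7⟩, -⟩ := exists_conj_hs hy hz (S.ov_P c) hc'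
  obtain ⟨w, b1, b2, b3, ⟨n, b4, b5⟩, ⟨n', b6, b7⟩, -⟩ := exists_conj_hs hy hz (S.ov_P d) hd'
  have c1 := X.mul_mem (X.mul_mem (X.mul_mem hg (hX.pr _ (S.P_mem c) _ (S.P_mem d) hc' hd'))
    (X.inv_mem hg)) (hX.pr _ b1.mem _ a1.mem b2 a2)
  rw [show ∀ p q : (End F V)ˣ, g * (p * q⁻¹) * g⁻¹ = g * p * g⁻¹ * (g * q * g⁻¹)⁻¹ from
    fun p q => by group, hs_conj S.two hc', hs_conj S.two hd'] at c1
  have c2 := hK (m * n⁻¹ * (n' * m'⁻¹)) ⟨_, c1, fun v hv => by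
    have d1 : Commute (C6.hs t) s := (hs_comm S.two a2 (hs.comm _ a1).symm).symm
    have d2 := smul_mem_WW_neg d1.inv_left hv
    rw [mul_smul, mul_smul, mul_smul, ← b3 _ d2, inv_smul_smul, a3 _ d2, smul_inv_smul],
    (a4.mul b4.inv).mul (b6.mul a6.inv)⟩
  simp only [map_mul, map_inv, a5, a7, b5, b7, tvE_inv] at c2
  have c3 : ∀ p q, polar (QQ S.Q a b) (((loc h hs hb).φ y)⁻¹ p) (((loc h hs hb).φ y)⁻¹ q) =
      polar (QQ S.Q a b) p q := map_inv (loc h hs hb).φ y ▸ φ_polar y⁻¹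
  rw [LinearEquiv.mul_apply, LinearEquiv.mul_apply, ← conj_tvE₂ c3,
    ← inv_inv (tvE _ _ * tvE _ _), mul_inv_rev, tvE_inv, tvE_inv, ← eq_inv_of_mul_eq_one_left c2,
    conj_tvE₂ c3]
  simp

theorem cenAt_of_n0 (h : S.PV) (hX : S.OverF X) (h2 : S.Two) (h5 : 5 ≤ finrank (ZMod 2) E)
    (hN : ∀ a, a ≠ 0 → S.Q a = 0 → S.N0 X (S.P a)) (a : E) (ha : a ≠ 0) (h0 : S.Q a = 0) :
    S.CenAt X a := fun g hg hga => by
  have h1 : X ≤ S.CZ := fun g _ => h.mem_CZ g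
  obtain ⟨a', c1, c2, c3, c4⟩ := exists_sing_two S.nd h5 ha
  exact mem_of_N0 h1 hX.le (S.ov_P a) (S.ov_P a') ha c1 c2.symm c4 (hN a ha h0) (hN a' c1 c3) hg hga
    fun y hy => (hX.over h1).trans h5 (ne_zero_of_conj (h1 hg) (S.ov_P a') c1 hy) c1
      (h2.Q_eq (S.ov_P a') hy)

/-- Centre of order two: the local condition implies the global one. -/
theorem PV.Loc.le_two (hL : h.Loc X) (hX : S.OverF X) (hse : SE.{u}) (h2 : S.Two)
    (h6 : 6 ≤ finrank (ZMod 2) E)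
    (hg : ∀ a b, S.Q a = 0 → polar S.Q a b = 1 → Good (QQ S.Q a b))
    (hi : ∀ g ∈ X, (∀ y, g * S.P y = S.P y * g) → g ∈ S.R) : X ≤ S.Nm := by
  have h1 := hX.over fun g _ => h.mem_CZ g
  refine BT.le_Nm ⟨h1, h2, by omega, h1.cen_of_sing hse h2 h6
    (cenAt_of_n0 h hX h2 (by omega) fun a ha h0 => ?_), hi⟩ hse
  obtain ⟨b, hb⟩ := exists_one S.nd ha
  have hs : S.Inv (S.P a) a := ⟨S.ov_P a, ha, sq_zero h0⟩
  exact n0_two hX (by omega) hs hb hL fun y => bar_resK hX h2 (by omega) hs hb (hg a b h0 hb)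
    fun k hk _ _ _ s' a' x hs' e c =>
      hL.exists_conj hs' hk e (S.P_mem _) ((S.ov_P x).comm0 hs'.ov (pc c))

end Pau

end CfsgLib.C6
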