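import Mathlib
import Cfsg.Agent.Lib.C6.Step
import Cfsg.Agent.Lib.C6.Frame

/-! Clifford frames inside a Pauli system and the twisted action on their span. -/

set_option autoImplicit false
set_option linter.unusedSectionVars false

namespace CfsgLib.C6

open CfsgLib.OrthE CfsgLib.OMax CfsgLib.SUMax Module QuadraticMap Matrix

universe u

/-- The standard form. -/
noncomputable def stdQ (K κ : Type*) [Field K] [Fintype κ] : QuadraticForm K (κ → K) :=
  LinearMap.BilinMap.toQuadraticMap ((2 : K)⁻¹ • dotProductBilin K K)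

theorem std5_stdQ {K κ : Type*} [Field K] [Fintype κ] [DecidableEq κ] (hK : (Nat.card K).Prime)
    (h2 : (2 : K) ≠ 0) (h5 : 5 ≤ Fintype.card κ) : Std5 (stdQ K κ) :=
  ⟨hK, h2, h5, fun u v => by
    rw [stdQ, LinearMap.BilinMap.polar_toQuadraticMap]
    simp only [LinearMap.smul_apply, dotProductBilin_apply_apply, dotProduct_comm v u, smul_eq_mul]
    field_simp; ring⟩

variable {F : Type*} {V : Type u} [Field F] [AddCommGroup V] [Module F V] {E : Type*}
  [AddCommGroup E] [Module (ZMod 2) E] [FiniteDimensional F V] [Finite F]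
  [FiniteDimensional (ZMod 2) E]

/-- A Clifford frame with an anti-automorphism fixing it. -/
structure Fr (S : Pau F (End F V) E) (κ : Type*) where
  /-- the anti-automorphism -/
  st : End F V →ₗ[F] End F V
  /-- the frame -/
  e : κ → (End F V)ˣ
  /-- its image in `E` -/
  w : κ → E
  pv : S.PV
  st_mul : ∀ a b, st (a * b) = st b * st a
  st_one : st 1 = 1
  st_e : ∀ a, st (e a) = e a
  ov : ∀ a, S.Ov (e a) (w a)
  anti : ∀ {a b}, a ≠ b → e a * (e b)⁻¹ = -(e b * (e a)⁻¹)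
  anti' : ∀ {a b}, a ≠ b → (e a)⁻¹ * e b = -((e b)⁻¹ * e a)
  inj : Function.Injective w
  gen : ∀ U : AddSubmonoid E, (∀ a b, w a + w b ∈ U) → ∀ x, x ∈ U

namespace Fr

variable {S : Pau F (End F V) E} {κ : Type*} [Fintype κ] [DecidableEq κ] (T : Fr S κ)

/-- The anti-automorphism on units. -/
def su (g : (End F V)ˣ) : (End F V)ˣ :=
  ⟨T.st g, T.st ↑g⁻¹, by rw [← T.st_mul, Units.inv_mul, T.st_one],
    by rw [← T.st_mul, Units.mul_inv, T.st_one]⟩

theorem su_val (g : (End F V)ˣ) : (T.su g : End F V) = T.st g := rfl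

theorem su_mul (g k : (End F V)ˣ) : T.su (g * k) = T.su k * T.su g := Units.ext (T.st_mul _ _)

theorem su_one : T.su 1 = 1 := Units.ext T.st_one

theorem su_inv (g : (End F V)ˣ) : T.su g⁻¹ = (T.su g)⁻¹ := Units.ext rfl

theorem su_e (a : κ) : T.su (T.e a) = T.e a := Units.ext (T.st_e a)

/-- The span of the frame. -/
noncomputable def ι : (κ → F) →ₗ[F] End F V := Fintype.linearCombination F fun a => (T.e a : End F V)

theorem ι_apply (v : κ → F) : T.ι v = ∑ a, v a • (T.e a : End F V) := rfl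

theorem ι_bv (a : κ) : T.ι (bv a) = T.e a := by simp [ι_apply]

theorem τ_ι (v : κ → F) (b : κ) : S.τ (T.ι v * ↑(T.e b)⁻¹) = v b * S.τ 1 := by
  rw [ι_apply, Finset.sum_mul, map_sum, Finset.sum_eq_single b]
  · simp
  · intro a _ hab
    rw [smul_mul_assoc, map_smul, ← Units.val_mul,
      ((T.ov a).mul (T.ov b).inv).τ_eq (add_ne (T.inj.ne hab)), smul_zero]
  · simp

theorem ι_inj : Function.Injective T.ι := fun v v' h => funext fun b =>
  mul_right_cancel₀ S.τ1 (by rw [← τ_ι, ← τ_ι, h])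

/-- The quotient of two members of the frame. -/
def u (a b : κ) : (End F V)ˣ := T.e a * (T.e b)⁻¹

theorem u_ov (a b : κ) : S.Ov (T.u a b) (T.w a + T.w b) := (T.ov a).mul (T.ov b).inv

theorem u_sq {a b : κ} (h : a ≠ b) : T.u a b * T.u a b = -1 := by
  nth_rewrite 2 [u]
  rw [T.anti h]; simp [u, mul_assoc]

theorem su_u (a b : κ) : T.su (T.u a b) = (T.e b)⁻¹ * T.e a := by
  rw [u, su_mul, su_inv, su_e, su_e]

theorem u_e_left {a b : κ} (h : a ≠ b) : T.u a b * T.e a = -T.e b := by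
  rw [u, T.anti h]; simp

theorem u_e_right (a b : κ) : T.u a b * T.e b = T.e a := by simp [u]

theorem e_su_left {a b : κ} (h : a ≠ b) : T.e a * T.su (T.u a b) = -T.e b := by
  rw [su_u, T.anti' h.symm]; simp

theorem e_su_right (a b : κ) : T.e b * T.su (T.u a b) = T.e a := by simp [su_u]

theorem u_e_other {a b c : κ} (h : a ≠ b) (h1 : c ≠ a) (h2 : c ≠ b) :
    T.u a b * T.e c = -(T.e c * T.su (T.u a b)) := by
  rw [su_u, u, mul_assoc, T.anti' h2.symm, mul_neg, ← mul_assoc, T.anti h1.symm, neg_mul, neg_neg,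
    mul_assoc, T.anti' h, mul_neg]

theorem u_su {a b c : κ} (h : a ≠ b) (h1 : c ≠ a) (h2 : c ≠ b) :
    T.u a b * (T.e c * T.su (T.u a b)) = T.e c := by
  rw [← neg_neg (T.e c * _), ← T.u_e_other h h1 h2, mul_neg, ← mul_assoc, T.u_sq h]; simp

variable {K : Type*} [Field K] [Algebra K F] {Q : QuadraticForm K (κ → K)}

/-- The span of the frame over the small field. -/
noncomputable def ιK (v : κ → K) : End F V := T.ι fun a => algebraMap K F (v a)

theorem ιK_bv (a : κ) : T.ιK (bv a : κ → K) = T.e a := by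
  rw [← T.ι_bv, ιK]; congr 1; ext b; simp [apply_ite (algebraMap K F)]

theorem ιK_smul (c : K) (v : κ → K) : T.ιK (c • v) = algebraMap K F c • T.ιK v := by
  rw [ιK, ιK, ← map_smul]; congr 1; ext b; simp

theorem ιK_neg (v : κ → K) : T.ιK (-v) = -T.ιK v := by
  rw [ιK, ιK, ← map_neg]; congr 1; ext b; simp

theorem ιK_add (v v' : κ → K) : T.ιK (v + v') = T.ιK v + T.ιK v' := by
  rw [ιK, ιK, ιK, ← map_add]; congr 1; ext b; simp

theorem ιK_inj {v v' : κ → K} (h : T.ιK v = T.ιK v') : v = v' :=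
  funext fun a => (algebraMap K F).injective (congrFun (T.ι_inj h) a)

/-- `g` acts on the span of the frame as `c` times `s`. -/
def Act (g : (End F V)ˣ) (c : F) (s : O Q) : Prop :=
  c ≠ 0 ∧ ∀ v, g * T.ιK v * T.su g = c • T.ιK (s.1 v)

variable {T}

theorem act_of_bv {g : (End F V)ˣ} {c : F} {s : O Q} (hc : c ≠ 0)
    (h : ∀ a, ((g * T.e a * T.su g : (End F V)ˣ) : End F V) = c • T.ιK (s.1 (bv a))) :
    T.Act g c s := by
  refine ⟨hc, fun v => ?_⟩
  induction v using Pi.single_induction with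
  | zero => simp [ιK, Pi.zero_def.symm]
  | add v v' h1 h2 => rw [ιK_add, mul_add, add_mul, h1, h2, map_add, ιK_add, smul_add]
  | single a t =>
    have : Pi.single a t = t • (bv a : κ → K) := by ext b; simp [Pi.single_apply]
    rw [this, map_smul, ιK_smul, ιK_smul, smul_comm, ← h, ιK_bv]
    simp

namespace Act

variable {g k : (End F V)ˣ} {c d : F} {s t : O Q}

theorem bv (h : T.Act g c s) (a : κ) :
    ((g * T.e a * T.su g : (End F V)ˣ) : End F V) = c • T.ιK (s.1 (OMax.bv a)) := by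
  rw [← h.2, ιK_bv]; rfl

theorem one : T.Act 1 1 (1 : O Q) := ⟨one_ne_zero, fun v => by simp [su_one]⟩

theorem mul (h : T.Act g c s) (h' : T.Act k d t) : T.Act (g * k) (c * d) (s * t) :=
  ⟨mul_ne_zero h.1 h'.1, fun v => by
    rw [su_mul, Units.val_mul, Units.val_mul, O_mul_apply, mul_comm c, mul_smul, ← h.2,
      ← smul_mul_assoc, ← mul_smul_comm, ← h'.2]
    simp only [mul_assoc]⟩

theorem inv (h : T.Act g c s) : T.Act g⁻¹ c⁻¹ s⁻¹ :=
  ⟨inv_ne_zero h.1, fun v => by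
    have := h.2 (s⁻¹.1 v)
    rw [O_apply_inv_apply] at this
    rw [eq_inv_smul_iff₀ h.1, ← smul_mul_assoc, ← mul_smul_comm, ← this, su_inv]
    simp [mul_assoc]⟩

theorem congr (h : T.Act g c s) (e : c = d) (e' : s = t) : T.Act g d t := e ▸ e' ▸ h

theorem conj (h : T.Act g c s) (h' : T.Act k 1 t) : T.Act (g * k * g⁻¹) 1 (s * t * s⁻¹) :=
  ((h.mul h').mul h.inv).congr (by simp [h.1]) rfl

theorem unique (h : T.Act g c s) (h' : T.Act g c t) : s = t :=
  O_ext fun v => T.ιK_inj (smul_right_injective _ h.1 ((h.2 v).symm.trans (h'.2 v)))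

theorem smul (h : T.Act g c s) (hd : d ≠ 0) (e : (k : End F V) = d • g) : T.Act k (d * d * c) s :=
  ⟨mul_ne_zero (mul_ne_zero hd hd) h.1, fun v => by
    rw [su_val, e, map_smul, mul_smul, mul_smul, ← h.2, su_val]
    simp⟩

theorem mon (h : T.Act g c s) (hm : ∀ a, ∃ b, ∃ t : F,
    ((g * T.e a * T.su g : (End F V)ˣ) : End F V) = t • T.e b) : Mon OMax.bv s.1 := fun a => by
  obtain ⟨b, t, e⟩ := hm a
  rw [h.bv, ιK, ← map_smul, ← T.ι_bv, ← map_smul] at e
  refine ⟨b, s.1 (OMax.bv a) b, funext fun l => ?_⟩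
  by_cases hl : l = b
  · simp [hl]
  · simpa [hl, h.1] using congrFun (T.ι_inj e) l

end Act

variable (T) (hQ : Std5 Q)
include hQ

theorem act_u {a b : κ} (h : a ≠ b) : T.Act (T.u a b) 1 (refl Q (bv a) * refl Q (bv b)) := by
  refine act_of_bv one_ne_zero fun c => ?_
  have h1 : ∀ {c d : κ}, c ≠ d → (refl Q (bv c)).1 (bv d) = bv d := fun e => by
    simp [hQ.refl_bv, e]
  rw [O_mul_apply, one_smul]
  by_cases h2 : c = a
  · rw [h2, h1 h.symm, refl_apply_self (hQ.Q_bv_ne a), ιK_neg, ιK_bv, T.u_e_left h, neg_mul,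
      e_su_right, Units.val_neg]
  by_cases h3 : c = b
  · rw [h3, refl_apply_self (hQ.Q_bv_ne b), map_neg, h1 h, ιK_neg, ιK_bv, u_e_right, T.e_su_left h,
      Units.val_neg]
  · rw [h1 (Ne.symm h3), h1 (Ne.symm h2), ιK_bv, mul_assoc, T.u_su h h2 h3]

theorem act_hs {a b : κ} (h : a ≠ b) :
    T.Act (hs (T.u a b)) 2 (refl Q (bv b) * refl Q (bv a - bv b)) := by
  refine act_of_bv S.two fun c => ?_
  have h1 : ∀ {c d : κ}, c ≠ d → (refl Q (bv c)).1 (bv d) = bv d := fun e => by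
    simp [hQ.refl_bv, e]
  have h4 : ((hs (T.u a b) * T.e c * T.su (hs (T.u a b)) : (End F V)ˣ) : End F V) =
      T.e c + ↑(T.u a b * T.e c) + ↑(T.e c * T.su (T.u a b)) +
        ↑(T.u a b * (T.e c * T.su (T.u a b))) := by
    rw [Units.val_mul, Units.val_mul, su_val, hs_val S.two (T.u_sq h), map_add, T.st_one, ← su_val]
    simp only [Units.val_mul]
    noncomm_ring
  rw [h4, O_mul_apply, hQ.sw_bv h, two_smul]
  by_cases h2 : c = a
  · rw [h2, Equiv.swap_apply_left, refl_apply_self (hQ.Q_bv_ne b), ιK_neg, ιK_bv, T.u_e_left h,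
      T.e_su_left h, mul_neg, u_e_right]
    simp only [Units.val_neg]; abel
  by_cases h3 : c = b
  · rw [h3, Equiv.swap_apply_right, h1 h.symm, ιK_bv, u_e_right, e_su_right, T.u_e_left h]
    simp only [Units.val_neg]; abel
  · rw [Equiv.swap_apply_of_ne_of_ne h2 h3, h1 (Ne.symm h3), ιK_bv, T.u_su h h2 h3,
      T.u_e_other h h2 h3]
    simp only [Units.val_neg]; abel

variable (Q) in
/-- The group induced on the span of the frame, up to scalars. -/
def hat (X : Subgroup (End F V)ˣ) : Subgroup (O Q) where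
  carrier := {s | ∃ g ∈ X, ∃ c, T.Act g c s}
  mul_mem' := fun ⟨g, a1, _, a2⟩ ⟨k, b1, _, b2⟩ => ⟨g * k, X.mul_mem a1 b1, _, a2.mul b2⟩
  one_mem' := ⟨1, X.one_mem, 1, Act.one⟩
  inv_mem' := fun ⟨g, a1, _, a2⟩ => ⟨g⁻¹, X.inv_mem a1, _, a2.inv⟩

variable {T} {X : Subgroup (End F V)ˣ}

theorem rr_mem (hX : S.R ≤ X) (a b : κ) : refl Q (bv a) * refl Q (bv b) ∈ T.hat Q X := by
  by_cases h : a = b
  · rw [h, refl_mul_self]; exact Subgroup.one_mem _
  · exact ⟨_, hX (T.u_ov a b).mem, _, T.act_u hQ h⟩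

theorem sw_mem (hX : S.Over X) (a b c d : κ) (h : a ≠ b) (h' : c ≠ d) :
    refl Q (bv a - bv b) * refl Q (bv c - bv d) ∈ T.hat Q X := by
  have h1 : _ ∈ T.hat Q X := ⟨_, hX.pr (T.u_ov a b) (T.u_ov c d) (add_ne (T.inj.ne h))
    (add_ne (T.inj.ne h')) (T.u_sq h) (T.u_sq h'), _, (T.act_hs hQ h).mul (T.act_hs hQ h').inv⟩
  have h2 := conj_refl (refl Q (bv a - bv b) * refl Q (bv c - bv d)) (bv d)
  rw [O_mul_apply, hQ.sw_bv h', hQ.sw_bv h] at h2
  have h3 := Subgroup.mul_mem _ (Subgroup.inv_mem _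
    (rr_mem (T := T) hQ hX.le b (Equiv.swap a b (Equiv.swap c d d)))) h1
  rw [← h2] at h3
  rw [_root_.mul_inv_rev (refl Q (bv d)), refl_inv (bv c - bv d), refl_inv (bv d)] at h3
  nth_rewrite 1 [← refl_inv (bv d)] at h3
  convert h3 using 1
  group
  rw [mul_assoc, refl_mul_self, mul_one]

theorem rot_mem {a b : κ} (h : a ≠ b) {g : (End F V)ˣ} (hg : g ∈ X) {c : F} (hc : c ≠ 0)
    (e : (g : End F V) = c • (hs (T.u b a) : (End F V)ˣ)) :
    refl Q (bv a) * refl Q (bv a - bv b) ∈ T.hat Q X := by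
  rw [← neg_sub, refl_neg]
  exact ⟨g, hg, _, (T.act_hs hQ h.symm).smul hc e⟩

omit hQ in
theorem forall_P {p : (End F V)ˣ → Prop} (h1 : ∀ c ∈ S.Z, p c) (h2 : ∀ a b, p (T.u a b))
    (h3 : ∀ r s, p r → p s → p (r * s)) (x : E) : p (S.P x) := by
  refine T.gen ⟨⟨{x | ∀ r, S.Ov r x → p r}, fun {x y} hx hy r hr => ?_⟩,
    fun r hr => h1 r (S.ov_zero.1 hr)⟩ (fun a b r hr => ?_) x _ (S.ov_P x)
  · simpa using h3 _ _ (hx _ (S.ov_P x)) (hy _ (((S.ov_P x).inv.mul hr).congr (aleft x y)))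
  · simpa using h3 _ _ (h1 _ (hr.div (T.u_ov a b))) (h2 a b)

theorem Act.mem_Nm {g : (End F V)ˣ} {c : F} {s : O Q} (h : T.Act g c s) (hm : Mon OMax.bv s.1) :
    g ∈ S.Nm := by
  obtain ⟨m, hm'⟩ : ∃ m : (End F V)ˣ, (m : End F V) = c • 1 :=
    ⟨Units.map (algebraMap F (End F V)).toMonoidHom (Units.mk0 c h.1), by
      simp [Algebra.algebraMap_eq_smul_one]⟩
  have h0 : ∀ r : (End F V)ˣ, m * r = r * m := fun r => Units.ext (by simp [hm'])
  have h1 : ∀ a, ∃ r ∈ S.R, g * T.e a * T.su g = m * r := fun a => by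
    obtain ⟨b, t, e⟩ := hm a
    have h2 := O_map s (OMax.bv a)
    rw [e, Q_smul, hQ.Q_bv, hQ.Q_bv, mul_eq_right₀ (inv_ne_zero hQ.h2), mul_self_eq_one_iff] at h2
    have h3 := h.bv a
    rw [e, ιK_smul, ιK_bv] at h3
    rcases h2 with rfl | rfl
    · exact ⟨_, (T.ov b).mem, Units.ext (by simpa [hm'] using h3)⟩
    · exact ⟨_, (T.ov b).neg.mem, Units.ext (by simpa [hm'] using h3)⟩
  refine Pau.mem_Nm (T.pv.mem_CZ g) (forall_P (T := T) (p := fun r => g * r * g⁻¹ ∈ S.R)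
    (fun c hc => ?_) (fun a b => ?_) fun r s h1 h2 => by rw [← conj_mul]; exact S.R.mul_mem h1 h2)
  · rw [Pau.conj_Z (T.pv.mem_CZ g) hc]; exact S.Z_le hc
  · obtain ⟨r, a1, a2⟩ := h1 a
    obtain ⟨r', b1, b2⟩ := h1 b
    rw [show g * T.u a b * g⁻¹ = g * T.e a * T.su g * (g * T.e b * T.su g)⁻¹ by rw [u]; group,
      a2, b2, h0, h0]
    simpa [mul_assoc] using S.R.mul_mem a1 (S.R.inv_mem b1)

theorem Act.eq_of_one {g : (End F V)ˣ} (h : T.Act g 1 (1 : O Q)) : g = 1 ∨ g = -1 := by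
  have h1 : ∀ a, g * T.e a * T.su g = T.e a := fun a => Units.ext (by simpa [ιK_bv] using h.bv a)
  obtain ⟨t, ht⟩ := T.pv.scalar_of_comm (g := g) fun x => congrArg Units.val
    (forall_P (T := T) (p := fun r => g * r = r * g) (fun c hc => (T.pv.mem_CZ g c hc).symm) (fun a b => by
      rw [← mul_inv_eq_iff_eq_mul, show g * T.u a b * g⁻¹ =
        g * T.e a * T.su g * (g * T.e b * T.su g)⁻¹ by rw [u]; group, h1, h1, u])
      (fun r s h1 h2 => (Commute.mul_right h1 h2 :)) x)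
  have h2 : (g : End F V) = t • 1 := LinearMap.ext ht
  obtain ⟨a, -⟩ := hQ.out ∅ (by simp)
  have h3 := congrArg (fun y : (End F V)ˣ => S.τ ↑(y * (T.e a)⁻¹)) (h1 a)
  simp only [Units.val_mul, su_val, h2, map_smul, T.st_one, smul_mul_assoc, mul_smul_comm, one_mul,
    mul_one, Units.mul_inv, smul_smul, smul_eq_mul] at h3
  rcases mul_self_eq_one_iff.1 (mul_right_cancel₀ S.τ1 (h3.trans (one_mul _).symm)) with rfl | rfl
  · exact Or.inl (Units.ext (by simp [h2]))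
  · exact Or.inr (Units.ext (by simp [h2]))

/-- Transfer of the simplicity of the orthogonal group. -/
theorem le_of_E_le {C N : Subgroup (End F V)ˣ} (hC : C ≤ ⁅C, C⁆)
    (hA : ∀ g ∈ C, ∃ s : O Q, T.Act g 1 s) (hR : S.R ≤ C)
    (hXC : ∀ g ∈ X, ∀ n ∈ C, g * n * g⁻¹ ∈ C) (hE : OrthE.E Q ≤ T.hat Q X) (hN : S.R ≤ N)
    (hXN : ∀ g ∈ X, ∀ n ∈ N, g * n * g⁻¹ ∈ N) : C ≤ N := by
  have := hQ.fin
  let H : Subgroup (End F V)ˣ → Subgroup (O Q) := fun Y =>
    { carrier := {s | ∃ g ∈ Y, T.Act g 1 s}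
      mul_mem' := fun ⟨g, a1, a2⟩ ⟨k, b1, b2⟩ =>
        ⟨g * k, Y.mul_mem a1 b1, (a2.mul b2).congr (by simp) rfl⟩
      one_mem' := ⟨1, Y.one_mem, Act.one⟩
      inv_mem' := fun ⟨g, a1, a2⟩ => ⟨g⁻¹, Y.inv_mem a1, a2.inv.congr (by simp) rfl⟩ }
  have h1 : ∀ g ∈ C, ∃ s ∈ OrthE.E Q, T.Act g 1 s := fun g hg => by
    rw [E_eq hQ.hQ hQ.five]
    refine Subgroup.closure_induction (p := fun g _ => ∃ s ∈ commutator (O Q), T.Act g 1 s) ?_
      ⟨1, Subgroup.one_mem _, Act.one⟩ ?_ ?_ (hC hg)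
    · rintro _ ⟨g, a1, k, a2, rfl⟩
      obtain ⟨s, a3⟩ := hA g a1
      obtain ⟨t, a4⟩ := hA k a2
      exact ⟨s * t * s⁻¹ * t⁻¹, Subgroup.commutator_mem_commutator (Subgroup.mem_top s)
        (Subgroup.mem_top t),
        ((a3.conj a4).mul a4.inv).congr (by simp) rfl⟩
    · rintro g k _ _ ⟨s, a1, a2⟩ ⟨t, a3, a4⟩
      exact ⟨s * t, Subgroup.mul_mem _ a1 a3, (a2.mul a4).congr (by simp) rfl⟩
    · rintro g _ ⟨s, a1, a2⟩
      exact ⟨s⁻¹, Subgroup.inv_mem _ a1, a2.inv.congr (by simp) rfl⟩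
  obtain ⟨e, f, h⟩ := hQ.hQ.exists_hyp_of_three (hQ.five.trans' (by omega))
  have hn : ((H (N ⊓ C)).subgroupOf (OrthE.E Q)).Normal := ⟨fun n ⟨k, a1, a2⟩ s => by
    obtain ⟨g, b1, c, b2⟩ := hE s.2
    exact ⟨_, ⟨hXN g b1 k a1.1, hXC g b1 k a1.2⟩, b2.conj a2⟩⟩
  rcases h.normal_le_center_or_eq_top hQ.hQ hQ.five (h.exists_singular_orth hQ.five)
    ((H (N ⊓ C)).subgroupOf (OrthE.E Q)) with h2 | h2
  · exfalso
    obtain ⟨a, -⟩ := hQ.out ∅ (by simp)
    obtain ⟨b, hb⟩ := hQ.out {a} (by simp)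
    obtain ⟨c, hc⟩ := hQ.out {a, b} (Finset.card_le_two.trans (by omega))
    simp only [Finset.mem_insert, Finset.mem_singleton, not_or] at hb hc
    obtain ⟨s, a1, a2⟩ := h1 _ (hR (T.u_ov a b).mem)
    have a3 := (h.mem_center_E_iff hQ.hQ (hQ.five.trans' (by omega)) ⟨s, a1⟩).1
      (h2 ⟨_, ⟨hN (T.u_ov a b).mem, hR (T.u_ov a b).mem⟩, a2⟩)
    simp only [a2.unique (T.act_u hQ (Ne.symm hb))] at a3
    have h3 := hQ.h2
    rcases a3 with e | e
    · have := congrArg (fun s : O Q => s.1 (bv b) b) e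
      simp [hQ.refl_bv, Ne.symm hb] at this
      grind
    · have := congrArg (fun s : O Q => s.1 (bv c) c) e
      simp [hQ.refl_bv, Ne.symm hc.1, Ne.symm hc.2, negO_apply] at this
      exact h3 (by linear_combination this)
  · intro g hg
    obtain ⟨s, a1, a2⟩ := h1 g hg
    obtain ⟨n, b1, b2⟩ : (⟨s, a1⟩ : OrthE.E Q) ∈ (H (N ⊓ C)).subgroupOf (OrthE.E Q) := by rw [h2]; trivial
    rcases Act.eq_of_one hQ ((a2.mul b2.inv).congr (by simp) (by simp)) with e | e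
    · rw [mul_inv_eq_one.1 e]; exact b1.1
    · rw [mul_inv_eq_iff_eq_mul.1 e]; exact N.mul_mem (hN (S.Z_le S.neg_mem)) b1.1

end Fr

end CfsgLib.C6
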