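import Mathlib
import Cfsg.Agent.Lib.C6.Fr

/-! The twisted action on the span of a Clifford frame is by similarities. -/

set_option autoImplicit false
set_option linter.unusedSectionVars false

namespace CfsgLib.C6

open CfsgLib.OrthE CfsgLib.OMax CfsgLib.SUMax Module QuadraticMap Matrix

universe u

theorem eq_mul_of_sing {F U : Type*} [Field F] [AddCommGroup U] [Module F U]
    {Q Q' : QuadraticForm F U} {e f : U} (h : Hyp Q e f) (h2 : (2 : F) ≠ 0) {j : F}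
    (hj : j * j = -1) (hs : ∀ v, Q v = 0 → Q' v = 0) (v : U) : Q' v = polar Q' e f * Q v := by
  have key : ∀ {e f : U}, Hyp Q e f → ∀ w, polar Q w e = 0 → polar Q w f = 0 →
      Q' w = polar Q' e f * Q w ∧ polar Q' f w = 0 := fun {e f} h w h1 h3 => by
    have a : ∀ t : F, t * t * Q' w + t * polar Q' f w - t * t * Q w * polar Q' e f -
        t * t * Q w * (t * polar Q' e w) = 0 := fun t => by
      have := hs (f + t • w - (t * t * Q w) • e) (by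
        simp [Q_sub, Q_add, Q_smul, h.he, h.hf, h.hfe, h1, polar_comm _ f w, h3])
      simp only [Q_sub, Q_add, Q_smul, hs e h.he, hs f h.hf, polar_smul_right, polar_add_left,
        polar_smul_left, smul_eq_mul, polar_comm _ f e, polar_comm _ w e] at this
      linear_combination this
    have hj0 : j ≠ 0 := by rintro rfl; simp at hj
    refine ⟨mul_left_cancel₀ h2 (by linear_combination a 1 + a (-1)),
      mul_left_cancel₀ (mul_ne_zero (mul_ne_zero h2 h2) hj0) ?_⟩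
    linear_combination a j - a (-j) + j * (a 1 - a (-1)) + 2 * j * Q w * polar Q' e w * hj
  obtain ⟨a1, a2⟩ := key h _ (h.pr_e v) (h.pr_f v)
  obtain ⟨-, a3⟩ := key h.symm _ (h.pr_f v) (h.pr_e v)
  rw [h.Q_eq v]
  conv_lhs => rw [eq_add_pr (Q := Q) (e := e) (f := f) v]
  simp only [Q_add, Q_smul, hs e h.he, hs f h.hf, polar_smul_right, polar_add_left,
    polar_smul_left, smul_eq_mul, a1, a2, a3]
  ring

variable {F : Type*} {V : Type u} [Field F] [AddCommGroup V] [Module F V] {E : Type*}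
  [AddCommGroup E] [Module (ZMod 2) E] [FiniteDimensional F V] [Finite F]
  [FiniteDimensional (ZMod 2) E]

/-- `X` contains multiples of the elements `1 + u`. -/
def Pau.Rot (S : Pau F (End F V) E) (X : Subgroup (End F V)ˣ) : Prop :=
  ∀ u ∈ S.R, u * u = -1 → ∃ g ∈ X, ∃ c : F, c ≠ 0 ∧ (g : End F V) = c • (hs u : (End F V)ˣ)

/-- Either `X` normalises `R` or every overgroup of `R` normalised by `X` contains `C`. -/
def Pau.Dich (S : Pau F (End F V) E) (X C : Subgroup (End F V)ˣ) : Prop :=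
  X ≤ S.Nm ∨ ∀ N, S.R ≤ N → (∀ g ∈ X, ∀ n ∈ N, g * n * g⁻¹ ∈ N) → C ≤ N

namespace Fr

variable {S : Pau F (End F V) E} {κ : Type*} [Fintype κ] [DecidableEq κ] {T : Fr S κ}

theorem su_Z {c : (End F V)ˣ} (hc : c ∈ S.Z) : T.su c = c := by
  obtain ⟨t, ht⟩ := T.pv.scal c hc
  have : (c : End F V) = t • 1 := LinearMap.ext ht
  exact Units.ext (by rw [su_val, this, map_smul, T.st_one])

theorem su_ov {r : (End F V)ˣ} {x : E} (h : S.Ov r x) : S.Ov (T.su r) x := by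
  obtain ⟨c, hc, rfl⟩ := h
  obtain ⟨y, h1, h2⟩ := forall_P (T := T) (p := fun r => ∃ y, S.Ov r y ∧ S.Ov (T.su r) y)
    (fun c hc => ⟨0, S.ov_zero.2 hc, by rw [su_Z hc]; exact S.ov_zero.2 hc⟩)
    (fun a b => ⟨_, T.u_ov a b, by rw [su_u, add_comm]; exact (T.ov b).inv.mul (T.ov a)⟩)
    (fun r s ⟨y, a1, a2⟩ ⟨z, b1, b2⟩ => ⟨_, a1.mul b1, by rw [su_mul, add_comm]; exact b2.mul a2⟩) x
  rw [su_mul, su_Z hc]
  exact (h2.mul (S.ov_zero.2 hc)).congr ((add_zero y).trans (h1.unique (S.ov_P x)))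

theorem exists_e {r : (End F V)ˣ} (hr : r ∈ S.R) {t : F} {v : κ → F}
    (h : t • (r : End F V) = T.ι v) (a : κ) : ∃ b, ∃ t' : F, T.ι v = t' • (T.e b : End F V) := by
  obtain ⟨y, hy⟩ := hr
  by_cases h1 : ∃ b, y = T.w b
  · obtain ⟨b, rfl⟩ := h1
    obtain ⟨d, hd⟩ := T.pv.scal _ (hy.div (T.ov b))
    refine ⟨b, t * d, ?_⟩
    rw [← h, mul_smul, ← inv_mul_cancel_right r (T.e b), Units.val_mul,
      show ((r * (T.e b)⁻¹ : (End F V)ˣ) : End F V) = d • 1 from LinearMap.ext hd]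
    simp
  · refine ⟨a, 0, ?_⟩
    rw [zero_smul, ← map_zero T.ι]
    congr 1
    refine funext fun b => mul_right_cancel₀ S.τ1 ?_
    rw [← T.τ_ι, ← h, smul_mul_assoc, map_smul, ← Units.val_mul,
      (hy.mul (T.ov b).inv).τ_eq (add_ne fun e => h1 ⟨b, e⟩)]
    simp

variable {K : Type*} [Field K] [Algebra K F] {Q : QuadraticForm K (κ → K)}

theorem Act.mon_of_Nm {g : (End F V)ˣ} {c : F} {s : O Q} (h : T.Act g c s) (hg : g ∈ S.Nm) :
    Mon OMax.bv s.1 := by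
  have h1 : ∀ x, S.Ov ((T.su g)⁻¹ * S.P x * (T.su g)⁻¹⁻¹) (S.φ ⟨g, hg⟩ x) := fun x => by
    have a1 := su_ov (T := T) ((S.ov_P x).φ ⟨g, hg⟩)
    have a2 := (S.ov_P x).div (su_ov (T := T) (S.ov_P x))
    have a3 := a1.zmul a2
    rw [su_mul, su_mul, Subgroup.coe_inv, su_inv, ← mul_assoc, T.pv.mem_CZ _ _ a2] at a3
    simpa [mul_assoc] using a3
  have h2 : (T.su g)⁻¹ ∈ S.Nm := Pau.mem_Nm (T.pv.mem_CZ _) fun x => (h1 x).mem
  obtain ⟨r, h3, h4⟩ := Pau.inner (g := ⟨g, hg⟩ * ⟨_, h2⟩⁻¹) (by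
    rw [map_mul, map_inv, mul_inv_eq_one]
    exact LinearEquiv.ext fun x => (Pau.φ_eq ⟨_, h2⟩ (S.ov_P x) (h1 x)).symm)
  obtain ⟨t, ht⟩ := T.pv.scalar_of_comm (g := (r * (g * T.su g) : (End F V)ˣ)) fun x =>
    congrArg Units.val (by simpa using h4 x)
  refine h.mon fun a => ?_
  have h5 := h.bv a
  rw [ιK, ← map_smul] at h5
  rw [h5]
  refine exists_e (S.R.mul_mem (Pau.conj_mem hg (T.ov a).mem) (S.R.inv_mem h3)) (t := t) ?_ a
  rw [← h5, show g * T.e a * T.su g = g * T.e a * g⁻¹ * r⁻¹ * (r * (g * T.su g)) by group,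
    Units.val_mul _ (r * _), show ((r * (g * T.su g) : (End F V)ˣ) : End F V) = t • 1 from
      LinearMap.ext ht]
  simp

variable (T)

/-- The conjugate span. -/
noncomputable def ι' : (κ → F) →ₗ[F] End F V :=
  Fintype.linearCombination F fun a => ((T.e a)⁻¹ : (End F V)ˣ)

theorem ι'_apply (v : κ → F) : T.ι' v = ∑ a, v a • (((T.e a)⁻¹ : (End F V)ˣ) : End F V) := rfl

theorem τ_ι' (v : κ → F) (b : κ) : S.τ (T.ι' v * T.e b) = v b * S.τ 1 := by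
  rw [ι'_apply, Finset.sum_mul, map_sum, Finset.sum_eq_single b]
  · simp
  · intro a _ hab
    rw [smul_mul_assoc, map_smul, ← Units.val_mul,
      ((T.ov a).inv.mul (T.ov b)).τ_eq (add_ne (T.inj.ne hab)), smul_zero]
  · simp

theorem ι'_inj : Function.Injective T.ι' := fun v v' h => funext fun b =>
  mul_right_cancel₀ S.τ1 (by rw [← τ_ι', ← τ_ι', h])

theorem ι_mul_ι' (v : κ → F) : T.ι v * T.ι' v = (v ⬝ᵥ v) • 1 := by
  have h1 : T.ι v * T.ι' v = ∑ a, ∑ b, (v a * v b) • (T.u a b : End F V) := by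
    simp [ι_apply, ι'_apply, Finset.sum_mul_sum, u, smul_smul, mul_comm]
  refine smul_right_injective _ S.two ?_
  simp only [two_smul]
  nth_rewrite 1 [h1, Finset.sum_comm]
  rw [h1, dotProduct, Finset.sum_smul, ← Finset.sum_add_distrib, ← Finset.sum_add_distrib]
  refine Finset.sum_congr rfl fun a _ => ?_
  rw [← Finset.sum_add_distrib, Finset.sum_eq_single a]
  · simp [u]
  · intro b _ hb
    rw [u, T.anti hb, mul_comm (v b), u]; simp
  · simp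

/-- `g` acts on the span of the frame as a similarity with multiplier `μ`. -/
def Sim (g : (End F V)ˣ) (μ : F) : Prop :=
  ∀ v, ∃ v', g * T.ι v * T.su g = T.ι v' ∧ v' ⬝ᵥ v' = μ * (v ⬝ᵥ v)

variable {T}

theorem Sim.mul {g k : (End F V)ˣ} {μ ν : F} (h : T.Sim g μ) (h' : T.Sim k ν) :
    T.Sim (g * k) (μ * ν) := fun v => by
  obtain ⟨w, a1, a2⟩ := h' v
  obtain ⟨z, b1, b2⟩ := h w
  exact ⟨z, by rw [← b1, ← a1, su_mul]; simp only [Units.val_mul, mul_assoc], by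
    rw [b2, a2, mul_assoc]⟩

theorem Sim.eq_one {μ : F} (h : T.Sim 1 μ) (a : κ) : μ = 1 := by
  obtain ⟨w, a1, a2⟩ := h (bv a)
  rw [su_one, Units.val_one, one_mul, mul_one] at a1
  simpa [← T.ι_inj a1] using a2.symm

theorem exists_sim {j : F} (hj : j * j = -1) {a b : κ} (hab : a ≠ b) {g : (End F V)ˣ}
    (h : ∀ v, ∃ v', g * T.ι v * T.su g = T.ι v') : ∃ μ, T.Sim g μ := by
  have h2 := S.two
  let f : (κ → F) →ₗ[F] End F V := LinearMap.mulRight F (T.su g : End F V) ∘ₗ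
    LinearMap.mulLeft F (g : End F V) ∘ₗ T.ι
  let L := (LinearEquiv.ofInjective _ T.ι_inj).symm.toLinearMap ∘ₗ
    f.codRestrict (LinearMap.range T.ι) fun v => (h v).imp fun _ => Eq.symm
  have h1 : ∀ v, T.ι (L v) = g * T.ι v * T.su g := fun v =>
    LinearEquiv.ofInjective_symm_apply T.ι (h := T.ι_inj) _
  have h3 : ∀ v, stdQ F κ v = 2⁻¹ * (v ⬝ᵥ v) := fun v => by simp [stdQ]
  have h4 : Hyp (stdQ F κ) (bv a + j • bv b) ((2 : F)⁻¹ • (bv a - j • bv b)) := by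
    refine ⟨?_, ?_, ?_⟩ <;> simp only [polar, h3, add_dotProduct, dotProduct_add, smul_dotProduct,
      dotProduct_smul, sub_dotProduct, dotProduct_sub, bv_dot, bv_apply, hab, hab.symm, if_true,
      if_false, smul_eq_mul] <;> field_simp
    · linear_combination hj
    · linear_combination hj
    · linear_combination -4 * hj
  obtain ⟨μ, h5⟩ : ∃ μ, ∀ v, (stdQ F κ).comp L v = μ * stdQ F κ v :=
    ⟨_, eq_mul_of_sing (Q' := (stdQ F κ).comp L) h4 h2 hj fun v hv => by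
      rw [QuadraticMap.comp_apply]
      rw [h3, mul_eq_zero, or_iff_right (inv_ne_zero h2)] at hv ⊢
      by_contra h6
      have h7 : IsUnit (T.ι (L v)) := IsUnit.of_mul_eq_one ((L v ⬝ᵥ L v)⁻¹ • T.ι' (L v)) (by
        rw [mul_smul_comm, ι_mul_ι', smul_smul, inv_mul_cancel₀ h6, one_smul])
      rw [h1, Units.isUnit_mul_units, Units.isUnit_units_mul] at h7
      have h8 := T.ι_mul_ι' v
      rw [hv, zero_smul, h7.mul_right_eq_zero, ← map_zero T.ι'] at h8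
      exact h6 (by simp [T.ι'_inj h8])⟩
  refine ⟨μ, fun v => ⟨L v, (h1 v).symm, mul_left_cancel₀ (inv_ne_zero h2) ?_⟩⟩
  rw [← h3, mul_left_comm, ← h3]
  exact h5 v

theorem sim_of_commutator {C : Subgroup (End F V)ˣ} (hC : C ≤ ⁅C, C⁆)
    (h : ∀ g ∈ C, ∃ μ, T.Sim g μ) (a : κ) {g : (End F V)ˣ} (hg : g ∈ C) : T.Sim g 1 := by
  have h0 : T.Sim 1 1 := fun v => ⟨v, by simp [su_one], by simp⟩
  refine (Subgroup.closure_induction (p := fun g _ => g ∈ C ∧ T.Sim g 1) ?_ ⟨C.one_mem, h0⟩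
    (fun g k _ _ h1 h2 => ⟨C.mul_mem h1.1 h2.1, by simpa using h1.2.mul h2.2⟩)
    (fun g _ h1 => ⟨C.inv_mem h1.1, ?_⟩) (hC hg)).2
  · rintro _ ⟨g, a1, k, a2, rfl⟩
    obtain ⟨μ, b1⟩ := h g a1
    obtain ⟨μ', b2⟩ := h _ (C.inv_mem a1)
    obtain ⟨ν, b3⟩ := h k a2
    obtain ⟨ν', b4⟩ := h _ (C.inv_mem a2)
    refine ⟨C.mul_mem (C.mul_mem (C.mul_mem a1 a2) (C.inv_mem a1)) (C.inv_mem a2), ?_⟩
    have b5 := Sim.eq_one (mul_inv_cancel g ▸ b1.mul b2) a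
    have b6 := Sim.eq_one (mul_inv_cancel k ▸ b3.mul b4) a
    rw [show (1 : F) = μ * ν * μ' * ν' by linear_combination -(ν * ν') * b5 - b6]
    exact ((b1.mul b3).mul b2).mul b4
  · obtain ⟨μ, b1⟩ := h _ (C.inv_mem h1.1)
    have b2 := Sim.eq_one (mul_inv_cancel g ▸ h1.2.mul b1) a
    rwa [← one_mul μ, b2] at b1

theorem Sim.exists_act (hQ : Std5 Q) {g : (End F V)ˣ} (h : T.Sim g 1)
    (hr : ∀ a v, g * T.e a * T.su g = T.ι v → v ⬝ᵥ v = 1 → ∀ b, ∃ k, algebraMap K F k = v b) :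
    ∃ s : O Q, T.Act g 1 s := by
  have h1 : ∀ a, ∃ m : κ → K, g * T.e a * T.su g = T.ιK m := fun a => by
    obtain ⟨v, a1, a2⟩ := h (bv a)
    rw [ι_bv] at a1
    choose m hm using hr a v a1 (by simpa using a2)
    exact ⟨m, by rw [a1, ιK, funext hm]⟩
  choose m hm using h1
  let f := Fintype.linearCombination K m
  have h2 : ∀ v, g * T.ιK v * T.su g = T.ιK (f v) := fun v => by
    induction v using Pi.single_induction with
    | zero => simp [ιK, Pi.zero_def.symm]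
    | add v v' h1 h2 => rw [ιK_add, mul_add, add_mul, h1, h2, map_add, ιK_add]
    | single a t =>
      have : Pi.single a t = t • (bv a : κ → K) := by ext b; simp [Pi.single_apply]
      rw [this, map_smul, ιK_smul, ιK_smul, ιK_bv, show f (bv a) = m a by
        simp [f, Fintype.linearCombination_apply], ← hm]
      simp
  refine ⟨⟨LinearEquiv.ofInjectiveEndo f fun v v' e => T.ιK_inj (K := K) ?_, fun v => ?_⟩,
    one_ne_zero, fun v => (h2 v).trans (one_smul _ _).symm⟩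
  · have := (h2 v).trans (e ▸ (h2 v').symm)
    rwa [Units.mul_left_inj, Units.mul_right_inj] at this
  · obtain ⟨w, a1, a2⟩ := h fun a => algebraMap K F (v a)
    rw [← T.ι_inj ((h2 v).symm.trans a1)] at a2
    change Q (f v) = _
    rw [hQ.Q_eq, hQ.Q_eq]
    congr 1
    apply (algebraMap K F).injective
    simpa [dotProduct] using a2

variable (hQ : Std5 Q) {X C : Subgroup (End F V)ˣ} (hC : C ≤ ⁅C, C⁆)
  (hA : ∀ g ∈ C, ∃ s : O Q, T.Act g 1 s) (hR : S.R ≤ C) (hX : S.Over X)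
  (rot : IsSquare (2 : K) → S.Rot X)
include hQ hC hA hR hX rot

omit hC hA hR hX in
theorem rot_mem' (h2 : IsSquare (2 : K)) (a b : κ) (h : a ≠ b) :
    refl Q (bv a) * refl Q (bv a - bv b) ∈ T.hat Q X :=
  let ⟨_, a1, _, a2, a3⟩ := rot h2 _ (T.u_ov b a).mem (T.u_sq h.symm)
  rot_mem hQ h a1 a2 a3

theorem base_five (hXC : X ≤ C) (rc : ∀ a, refl Q (bv a) ∈ T.hat Q X) : S.Dich X C := by
  refine or_iff_not_imp_left.2 fun hn N => le_of_E_le hQ hC hA hR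
    (fun g hg n hn => C.mul_mem (C.mul_mem (hXC hg) hn) (C.inv_mem (hXC hg))) ?_
  obtain ⟨g, h1, h2⟩ := SetLike.not_le_iff_exists.1 hn
  obtain ⟨s, h3⟩ := hA g (hXC h1)
  exact FR5 hQ rc (sw_mem hQ hX) (fun h a b hab => (Subgroup.mul_mem_cancel_left _ (rc a)).1
    (rot_mem' hQ rot h a b hab)) ⟨g, h1, 1, h3⟩ fun h => h2 (h3.mem_Nm hQ h)

theorem base_six (h6 : Fintype.card κ = 6) (hse : SE.{u}) (h4 : 4 ≤ finrank (ZMod 2) E)
    {j : (End F V)ˣ} (hj : j ∈ S.Z) (hjj : j * j = -1)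
    (hall : ∀ x, x ≠ 0 → ∃ a b, a ≠ b ∧ x = T.w a + T.w b)
    (hXC : ∀ g ∈ X, ∀ n ∈ C, g * n * g⁻¹ ∈ C)
    (hcm : X ≤ C ∨ S.OverF X ∧ ∀ g ∈ X, ∀ k ∈ X, g * k * g⁻¹ * k⁻¹ ∈ C) : S.Dich X C := by
  rcases FR6 hQ h6 (rr_mem (T := T) hQ hX.le) (sw_mem hQ hX) (rot_mem' hQ rot) with hE | hr
  · exact Or.inr fun N => le_of_E_le hQ hC hA hR hXC hE
  let Y : Subgroup (End F V)ˣ :=
    { carrier := {g | g ∈ X ∧ ∃ c, ∃ s : O Q, T.Act g c s}
      mul_mem' := fun ⟨a1, _, _, a2⟩ ⟨b1, _, _, b2⟩ => ⟨X.mul_mem a1 b1, _, _, a2.mul b2⟩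
      one_mem' := ⟨X.one_mem, 1, 1, Act.one⟩
      inv_mem' := fun ⟨a1, _, _, a2⟩ => ⟨X.inv_mem a1, _, _, a2.inv⟩ }
  have h1 : ∀ {u x}, S.Ov u x → x ≠ 0 → u * u = -1 → ∃ c, ∃ s : O Q, T.Act (hs u) c s :=
    fun {u x} a1 a2 a3 => by
      obtain ⟨a, b, a4, rfl⟩ := hall x a2
      rcases a1.eq_or (T.u_ov a b) (a3.trans (T.u_sq a4).symm) with rfl | rfl
      · exact ⟨_, _, T.act_hs hQ a4⟩
      · rw [u, ← T.anti a4.symm]; exact ⟨_, _, T.act_hs hQ a4.symm⟩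
  have h2 : Y ≤ S.Nm := by
    refine Pau.Over.le_of_rigid ⟨fun g _ => T.pv.mem_CZ g, fun r hr => ⟨hX.le hr, 1, hA r (hR hr)⟩,
      fun a1 a2 a3 a4 a5 a6 => ⟨hX.pr a1 a2 a3 a4 a5 a6, ?_⟩⟩ hse h4 hj hjj ?_
    · obtain ⟨_, _, b1⟩ := h1 a1 a3 a5
      obtain ⟨_, _, b2⟩ := h1 a2 a4 a6
      exact ⟨_, _, b1.mul b2.inv⟩
    · rintro g ⟨a1, c, s, a2⟩ x hx a3
      obtain ⟨a, b, a4, rfl⟩ := hall x hx
      obtain ⟨d, a5, a6⟩ := T.u_ov a b
      refine a2.mem_Nm hQ (hr s ⟨g, a1, c, a2⟩ a b a4 ((a2.conj (T.act_u hQ a4)).mon_of_Nm ?_))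
      rw [a6, ← mul_assoc, ← T.pv.mem_CZ g d a5, mul_assoc, mul_assoc, ← mul_assoc g]
      exact S.Nm.mul_mem (S.R_le (S.Z_le a5)) a3
  have h3 : ∀ g ∈ X, g ∈ C → g ∈ S.Nm := fun g a1 a2 => h2 ⟨a1, 1, hA g a2⟩
  refine Or.inl fun g hg => ?_
  rcases hcm with h5 | ⟨h5, h6⟩
  · exact h3 g hg (h5 hg)
  refine Pau.mem_Nm (T.pv.mem_CZ g) fun x => ?_
  obtain ⟨u, a1, a2⟩ := Pau.exists_w' hj hjj x
  have a3 := hX.le a1.mem
  have a4 := h5.pr u a1.mem j (S.Z_le hj) a2 hjj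
  have a5 := h3 _ (X.mul_mem (X.mul_mem (X.mul_mem hg a4) (X.inv_mem hg)) (X.inv_mem a4))
    (h6 g hg _ a4)
  rw [show g * (hs u * (hs j)⁻¹) * g⁻¹ = g * hs u * g⁻¹ * (g * hs j * g⁻¹)⁻¹ by group,
    hs_conj S.two a2, hs_conj S.two hjj, Pau.conj_Z (T.pv.mem_CZ g) hj,
    S.Nm.mul_mem_cancel_right (S.Nm.inv_mem (Pau.hd_mem a1.mem (S.Z_le hj) a2 hjj)),
    S.Nm.mul_mem_cancel_right (S.Nm.inv_mem (Pau.hs_mem (S.Z_le hj) hjj))] at a5
  have a6 := Pau.mem_of_hs (T.pv.mem_CZ g) a1.mem a2 (h3 _ (X.mul_mem (X.mul_mem hg a3)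
    (X.inv_mem hg)) (hXC g hg u (hR a1.mem))) a5
  obtain ⟨d, b1, rfl⟩ := a1
  rwa [← mul_assoc, ← T.pv.mem_CZ g d b1, mul_assoc, mul_assoc, ← mul_assoc g,
    S.R.mul_mem_cancel_left (S.Z_le b1)] at a6

end Fr

end CfsgLib.C6
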