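import Mathlib
import Cfsg.Agent.Lib.C6.Sim

/-! The Clifford frames of a Pauli system in dimension four. -/

set_option autoImplicit false
set_option linter.unusedSectionVars false

namespace CfsgLib.C6

open CfsgLib.OrthE CfsgLib.OMax CfsgLib.SUMax Module QuadraticMap Matrix

universe u

variable {E : Type*} [AddCommGroup E] [Module (ZMod 2) E] [FiniteDimensional (ZMod 2) E]

/-- Five pairwise non-orthogonal vectors of a four-dimensional space. -/
structure Pent (Q : QuadraticForm (ZMod 2) E) (m : E) (z : Fin 5 → E) : Prop where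
  pol : ∀ i j, i ≠ j → polar Q (z i) (z j) = 1
  q : ∀ i, polar Q m (z i) = Q (z i)
  all : ∀ x, x = 0 ∨ (∃ i, x = z i) ∨ ∃ i j, i ≠ j ∧ x = z i + z j
  sum : ∀ i, ∃ a b c d, z i = z a + z b + (z c + z d)

theorem exists_pent {Q : QuadraticForm (ZMod 2) E} (hQ : Nondeg Q) (h4 : finrank (ZMod 2) E = 4) :
    ∃ m z, Pent Q m z ∧ (Minus4 Q → m = 0) := by
  obtain ⟨a, h1, h2⟩ := exists_sing hQ (by omega)
  obtain ⟨b, -, h3, h5⟩ := hQ.exists_hyp h2 h1
  obtain ⟨c, d, ⟨a1, a2⟩, ⟨a3, a4⟩, a5⟩ := exists_hyp_pair hQ (by omega) h5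
  let f : E →ₗ[ZMod 2] Fin 4 → ZMod 2 := LinearMap.pi fun k => polarBilin Q (![a, b, c, d] k)
  have hf : Function.Injective f :=
    (LinearMap.injective_iff_surjective_of_finrank_eq_finrank (by simp [h4])).2 fun t =>
      ⟨t 0 • b + t 1 • a + t 2 • d + t 3 • c, funext fun k => by
        fin_cases k <;> simp [f, h5, pc1 h5, a1, a2, a3, a4, a5, pc a1, pc a2, pc a3, pc a4, pc1 a5]⟩
  let z : Fin 5 → E := ![a, b, a + b + c, a + b + d, a + b + (c + d)]
  let ζ : Fin 5 → Fin 4 → ZMod 2 :=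
    ![![0, 1, 0, 0], ![1, 0, 0, 0], ![1, 1, 0, 1], ![1, 1, 1, 0], ![1, 1, 1, 1]]
  have hz : ∀ i, f (z i) = ζ i := fun i => funext fun k => by
    fin_cases i <;> fin_cases k <;>
      simp [f, z, ζ, h5, pc1 h5, a1, a2, a3, a4, a5, pc a1, pc a2, pc a3, pc a4, pc1 a5]
  refine ⟨(Q c + 1) • d + (Q d + 1) • c, z, ⟨fun i j hij => ?_, fun i => ?_, fun x => ?_, fun i => ?_⟩,
    fun hm => ?_⟩
  · fin_cases i <;> fin_cases j <;> simp at hij <;>
      simp [z, h5, pc1 h5, a1, a2, a3, a4, a5, pc a1, pc a2, pc a3, pc a4, pc1 a5, z11]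
  · fin_cases i <;>
      simp [z, Q_add, h2, h3, h5, a1, a2, a3, a4, a5, pc a1, pc a2, pc a3, pc a4, pc1 a5]
    all_goals grind
  · simp only [← hf.eq_iff, map_add, map_zero, hz]
    generalize f x = t
    revert t
    decide
  · simp only [← hf.eq_iff, map_add, hz]
    revert i
    decide
  · have h6 : ∀ x, polar Q a x = 0 → polar Q b x = 0 → x ≠ 0 → Q x + 1 = 0 := fun x b1 b2 b3 => by
      rcases z2 (Q x) with e | e
      · rcases hm a x h2 e b1 with h | h | h
        · exact absurd h h1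
        · exact absurd h b3
        · simp [← h, pc1 h5] at b2
      · rw [e, z11]
    rw [h6 c a1 a2 (by rintro rfl; simp at a5), h6 d a3 a4 (by rintro rfl; simp at a5)]
    simp

variable {F : Type*} {V : Type u} [Field F] [AddCommGroup V] [Module F V] [FiniteDimensional F V]
  [Finite F] {S : Pau F (End F V) E}

/-- The isometry group of a sesquilinear form. -/
def Iso {σ : F →+* F} (B : V →ₛₗ[σ] V →ₗ[F] F) : Subgroup (End F V)ˣ where
  carrier := {g | ∀ u v, B (g • u) (g • v) = B u v}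
  mul_mem' {g k} h h' u v := by rw [mul_smul, mul_smul, h, h']
  one_mem' u v := by simp
  inv_mem' {g} h u v := by rw [← h, smul_inv_smul, smul_inv_smul]

/-- Adjointness. -/
def Adj {σ : F →+* F} (B : V →ₛₗ[σ] V →ₗ[F] F) (a a' : End F V) : Prop :=
  ∀ u v, B (a u) v = B u (a' v)

section Adj

variable {σ : F →+* F} {B : V →ₛₗ[σ] V →ₗ[F] F} {a a' b b' : End F V}

theorem adj_inv {g : (End F V)ˣ} (h : g ∈ Iso B) : Adj B g ↑g⁻¹ := fun u v => by
  rw [← usmul, ← usmul, ← h u, smul_inv_smul]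

theorem Adj.mem {g : (End F V)ˣ} (h : Adj B g ↑g⁻¹) : g ∈ Iso B := fun u v => by
  rw [usmul, h, ← usmul, inv_smul_smul]

theorem Adj.unique (hB : ∀ y, (∀ x, B x y = 0) → y = 0) (h : Adj B a b) (h' : Adj B a b') :
    b = b' := LinearMap.ext fun v => sub_eq_zero.1 (hB _ fun u => by rw [map_sub, ← h, ← h', sub_self])

theorem Adj.zero : Adj B 0 0 := fun u v => by simp

theorem Adj.add (h : Adj B a a') (h' : Adj B b b') : Adj B (a + b) (a' + b') := fun u v => by
  simp [h u v, h' u v]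

theorem Adj.smul (h : Adj B a a') (t : F) : Adj B (t • a) (σ t • a') := fun u v => by
  simp [h u v]

end Adj

theorem Pau.one_ne (S : Pau F (End F V) E) : (1 : End F V) ≠ 0 := fun e =>
  S.τ1 (by rw [e, map_zero])

namespace Pau.PV

variable (h : S.PV)
include h

theorem induction {p : End F V → Prop} (h1 : ∀ x, p (S.P x)) (h2 : p 0)
    (h3 : ∀ a b, p a → p b → p (a + b)) (h4 : ∀ (t : F) a, p a → p (t • a)) (a : End F V) : p a :=
  Submodule.span_induction (p := fun a _ => p a) (by rintro _ ⟨x, rfl⟩; exact h1 x) h2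
    (fun a b _ _ => h3 a b) (fun t a _ => h4 t a) (h.span.ge Submodule.mem_top)

/-- The anti-automorphism inverting the section. -/
noncomputable def adj : End F V →ₗ[F] End F V :=
  (Basis.mk S.linearIndependent_P h.span.ge).constr F fun x => ((S.P x)⁻¹ : (End F V)ˣ)

theorem adj_P (x : E) : h.adj (S.P x) = ((S.P x)⁻¹ : (End F V)ˣ) := by
  have := (Basis.mk S.linearIndependent_P h.span.ge).constr_basis F
    (fun x => (((S.P x)⁻¹ : (End F V)ˣ) : End F V)) x
  rwa [Basis.mk_apply] at this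

theorem adj_mul (a b : End F V) : h.adj (a * b) = h.adj b * h.adj a := by
  induction a using h.induction with
  | h1 x =>
    induction b using h.induction with
    | h1 y =>
      rw [adj_P, adj_P, ← Units.val_mul, ← Units.val_mul, ← _root_.mul_inv_rev]
      rcases S.mul x y with e | e <;> simp [e, adj_P]
    | h2 => simp
    | h3 a b h1 h2 => simp [mul_add, add_mul, h1, h2]
    | h4 t a h1 => simp [h1]
  | h2 => simp
  | h3 a b h1 h2 => simp [mul_add, add_mul, h1, h2]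
  | h4 t a h1 => simp [h1]

theorem adj_one : h.adj 1 = 1 := by simpa [S.P0] using h.adj_P 0

theorem adj_P_inv (x : E) : h.adj ((S.P x)⁻¹ : (End F V)ˣ) = S.P x := by
  have := h.adj_mul (S.P x) ((S.P x)⁻¹ : (End F V)ˣ)
  rw [Units.mul_inv, adj_one, adj_P] at this
  exact Units.mul_inv_eq_one.1 this.symm

variable {σ : F →+* F} {B : V →ₛₗ[σ] V →ₗ[F] F}

theorem adj_eq {B : V →ₗ[F] V →ₗ[F] F} (hB : ∀ y, (∀ x, B x y = 0) → y = 0) (hR : S.R ≤ Iso B)
    {g : (End F V)ˣ} (hg : g ∈ Iso B) : h.adj g = ↑g⁻¹ := by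
  refine Adj.unique hB (?_ : Adj B g _) (adj_inv hg)
  generalize (g : End F V) = a
  induction a using h.induction with
  | h1 x => rw [adj_P]; exact adj_inv (hR (S.P_mem x))
  | h2 => simpa using Adj.zero
  | h3 a b h1 h2 => simpa using h1.add h2
  | h4 t a h1 => simpa using h1.smul t

theorem adj_adj (hB : ∀ y, (∀ x, B x y = 0) → y = 0) (hR : S.R ≤ Iso B) {a a' : End F V}
    (ha : Adj B a a') : Adj B (h.adj a) (h.adj a') := by
  suffices ∃ a', Adj B a a' ∧ Adj B (h.adj a) (h.adj a') from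
    let ⟨_, h1, h2⟩ := this; h1.unique hB ha ▸ h2
  clear ha
  induction a using h.induction with
  | h1 x => exact ⟨_, adj_inv (hR (S.P_mem x)), by
      simpa [adj_P, adj_P_inv] using adj_inv (hR (S.R.inv_mem (S.P_mem x)))⟩
  | h2 => exact ⟨0, Adj.zero, by simpa using Adj.zero⟩
  | h3 a b h1 h2 =>
    obtain ⟨_, a1, a2⟩ := h1
    obtain ⟨_, b1, b2⟩ := h2
    exact ⟨_, a1.add b1, by simpa using a2.add b2⟩
  | h4 t a h1 =>
    obtain ⟨_, a1, a2⟩ := h1
    exact ⟨_, a1.smul t, by simpa using a2.smul t⟩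

/-- The twisted anti-automorphism. -/
noncomputable def stm (m : E) : End F V →ₗ[F] End F V :=
  LinearMap.mulRight F (((S.P m)⁻¹ : (End F V)ˣ) : End F V) ∘ₗ LinearMap.mulLeft F (S.P m : End F V) ∘ₗ
    h.adj

theorem stm_apply (m : E) (a : End F V) :
    h.stm m a = S.P m * h.adj a * ((S.P m)⁻¹ : (End F V)ˣ) := rfl

theorem stm_mul (m : E) (a b : End F V) : h.stm m (a * b) = h.stm m b * h.stm m a := by
  simp [stm_apply, adj_mul, mul_assoc]

theorem stm_one (m : E) : h.stm m 1 = 1 := by simp [stm_apply, adj_one]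

theorem stm_ov (m : E) {r : (End F V)ˣ} {x : E} (hr : S.Ov r x) :
    h.stm m r = ((sg (polar S.Q m x + S.Q x) * r : (End F V)ˣ) : End F V) := by
  obtain ⟨c, hc, rfl⟩ := hr
  obtain ⟨t, ht⟩ := h.scal c hc
  have h1 : (S.P x)⁻¹ = sg (S.Q x) * S.P x := by
    rw [inv_eq_iff_mul_eq_one, sg_comm, ← mul_assoc, S.sq, ← sg_add, zadd, sg_zero]
  rw [← mul_assoc, sg_comm _ c, mul_assoc, Units.val_mul c, Units.val_mul c,
    show (c : End F V) = t • 1 from LinearMap.ext ht, smul_one_mul, smul_one_mul, map_smul,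
    stm_apply, adj_P, ← Units.val_mul, ← Units.val_mul, (S.ov_P m).comm (S.ov_P x).inv, h1, sg_add]
  simp [mul_assoc]

end Pau.PV

theorem Pau.Ov.anti {r s : (End F V)ˣ} {x y : E} (h : S.Ov r x) (h' : S.Ov s y)
    (e : polar S.Q x y = 1) (e' : r * r = s * s) :
    r * s⁻¹ = -(s * r⁻¹) ∧ r⁻¹ * s = -(s⁻¹ * r) := by
  have : s⁻¹ * r = s * r⁻¹ := by rw [inv_mul_eq_iff_eq_mul, ← mul_assoc, ← e']; group
  exact ⟨by rw [h.comm1 h'.inv e, this], by rw [h.inv.comm1 h' e, this]⟩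

namespace Fr

variable {κ : Type*} [Fintype κ] [DecidableEq κ] {T : Fr S κ}
  (hst : ∀ x, T.st (S.P x) = -S.P x ∨ x = 0 ∨ ∃ b, x = T.w b)
include hst

omit hst in
theorem exists_P (b : κ) : ∃ d : F, (S.P (T.w b) : End F V) = d • T.e b := by
  obtain ⟨d, hd⟩ := T.pv.scal _ ((S.ov_P _).div (T.ov b))
  refine ⟨d, ?_⟩
  rw [← inv_mul_cancel_right (S.P _) (T.e b), Units.val_mul,
    show ((S.P (T.w b) * (T.e b)⁻¹ : (End F V)ˣ) : End F V) = d • 1 from LinearMap.ext hd]
  simp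

theorem st_st (a : End F V) : T.st (T.st a) = a := by
  induction a using T.pv.induction with
  | h1 x =>
    rcases hst x with e | rfl | ⟨b, rfl⟩
    · simp [e]
    · simp [S.P0, T.st_one]
    · obtain ⟨d, hd⟩ := T.exists_P b
      simp [hd, T.st_e]
  | h2 => simp
  | h3 a b h1 h2 => simp [h1, h2]
  | h4 t a h1 => simp [h1]

theorem exists_fix (g : (End F V)ˣ) (v : κ → F) :
    ∃ t : F, ∃ v', g * T.ι v * T.su g = t • 1 + T.ι v' := by
  have h1 : ∀ a, ∃ t : F, ∃ v', a + T.st a = t • 1 + T.ι v' := fun a => by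
    induction a using T.pv.induction with
    | h1 x =>
      rcases hst x with e | rfl | ⟨b, rfl⟩
      · exact ⟨0, 0, by simp [e]⟩
      · exact ⟨2, 0, by simp [S.P0, T.st_one, two_smul]⟩
      · obtain ⟨d, hd⟩ := T.exists_P b
        exact ⟨0, d • bv b + d • bv b, by simp [hd, T.st_e, ι_bv]⟩
    | h2 => exact ⟨0, 0, by simp⟩
    | h3 a b h1 h2 =>
      obtain ⟨t, v, a1⟩ := h1
      obtain ⟨t', v', b1⟩ := h2
      exact ⟨t + t', v + v', by rw [map_add, add_add_add_comm, a1, b1, add_smul, map_add]; abel⟩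
    | h4 t a h1 =>
      obtain ⟨t', v, a1⟩ := h1
      exact ⟨t * t', t • v, by rw [map_smul, ← smul_add, a1, smul_add, map_smul, mul_smul]⟩
  obtain ⟨t, v', h2⟩ := h1 (g * T.ι v * T.su g)
  have h3 : T.st (T.ι v) = T.ι v := by simp [ι_apply, T.st_e]
  rw [T.st_mul, T.st_mul, h3, su_val, st_st hst, ← mul_assoc, ← two_smul F] at h2
  exact ⟨2⁻¹ * t, (2 : F)⁻¹ • v', by
    rw [map_smul, mul_smul, ← smul_add, ← h2, smul_smul, inv_mul_cancel₀ S.two, one_smul, su_val]⟩

end Fr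

variable {m : E} {z : Fin 5 → E}

theorem Pent.ne {Q : QuadraticForm (ZMod 2) E} (hp : Pent Q m z) (i : Fin 5) : z i ≠ 0 := fun h => by
  obtain ⟨k, hk⟩ := exists_ne i
  simpa [h] using hp.pol k i hk

theorem Pent.inj {Q : QuadraticForm (ZMod 2) E} (hp : Pent Q m z) : Function.Injective z :=
  fun i k h => by_contra fun e => by simpa [h] using hp.pol i k e

theorem Pent.stm (h : S.PV) (hp : Pent S.Q m z) (x : E) :
    h.stm m (S.P x) = -S.P x ∨ x = 0 ∨ ∃ b, x = z b := by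
  rcases hp.all x with e | e | ⟨a, b, e, rfl⟩
  · exact Or.inr (Or.inl e)
  · exact Or.inr (Or.inr e)
  · left
    rw [h.stm_ov m (S.ov_P _), polar_add_right, Q_add, hp.q, hp.q, hp.pol a b e, ← add_assoc, zadd]
    simp

/-- The frame of five anticommuting involutions. -/
noncomputable def fr5 (h : S.PV) (hp : Pent S.Q 0 z) : Fr S (Fin 5) where
  st := h.stm 0
  e i := S.P (z i)
  w := z
  pv := h
  st_mul := h.stm_mul 0
  st_one := h.stm_one 0
  st_e a := by rw [h.stm_ov 0 (S.ov_P _), hp.q, zadd]; simp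
  ov a := S.ov_P _
  anti e := ((S.ov_P _).anti (S.ov_P _) (hp.pol _ _ e) (by simp [S.sq, ← hp.q])).1
  anti' e := ((S.ov_P _).anti (S.ov_P _) (hp.pol _ _ e) (by simp [S.sq, ← hp.q])).2
  inj := hp.inj
  gen U hU x := by
    rcases hp.all x with rfl | ⟨i, rfl⟩ | ⟨a, b, -, rfl⟩
    · exact U.zero_mem
    · obtain ⟨a, b, c, d, e⟩ := hp.sum i
      rw [e]; exact U.add_mem (hU a b) (hU c d)
    · exact hU a b

/-- The frame of the identity and five anticommuting elements of order four. -/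
noncomputable def fr6 (h : S.PV) (hp : Pent S.Q m z) {u : Fin 5 → (End F V)ˣ}
    (hu : ∀ i, S.Ov (u i) (z i)) (huu : ∀ i, u i * u i = -1) : Fr S (Option (Fin 5)) where
  st := h.stm m
  e o := o.elim 1 u
  w o := o.elim 0 z
  pv := h
  st_mul := h.stm_mul m
  st_one := h.stm_one m
  st_e := by
    rintro (_ | a)
    · exact h.stm_one m
    · exact (h.stm_ov m (hu a)).trans (by rw [hp.q, zadd]; simp)
  ov := by
    rintro (_ | a)
    exacts [S.ov_zero.2 S.Z.one_mem, hu a]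
  anti := by
    rintro (_ | a) (_ | b) e
    · exact absurd rfl e
    · simp [inv_eq_iff_mul_eq_one, huu]
    · simp [neg_eq_iff_eq_neg, eq_comm (a := u a), inv_eq_iff_mul_eq_one, huu]
    · exact ((hu a).anti (hu b) (hp.pol _ _ (by simpa using e)) (by rw [huu, huu])).1
  anti' := by
    rintro (_ | a) (_ | b) e
    · exact absurd rfl e
    · simp [neg_eq_iff_eq_neg, eq_comm (a := u b), inv_eq_iff_mul_eq_one, huu]
    · simp [inv_eq_iff_mul_eq_one, huu]
    · exact ((hu a).anti (hu b) (hp.pol _ _ (by simpa using e)) (by rw [huu, huu])).2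
  inj := by
    rintro (_ | a) (_ | b) e
    exacts [rfl, absurd e.symm (hp.ne b), absurd e (hp.ne a), congrArg _ (hp.inj e)]
  gen U hU x := by
    rcases hp.all x with rfl | ⟨i, rfl⟩ | ⟨a, b, -, rfl⟩
    · exact U.zero_mem
    · simpa using hU none (some i)
    · exact hU (some a) (some b)

/-- The base of the induction for symplectic groups. -/
theorem base_sp (h : S.PV) (hF : (Nat.card F).Prime) (h4 : finrank (ZMod 2) E = 4)
    (hm : Minus4 S.Q) {B : V →ₗ[F] V →ₗ[F] F} (hB : ∀ y, (∀ x, B x y = 0) → y = 0)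
    (hC : Iso B ≤ ⁅Iso B, Iso B⁆) {X : Subgroup (End F V)ˣ} (hX : S.Over X) (hXC : X ≤ Iso B)
    (rot : IsSquare (2 : F) → S.Rot X) : S.Dich X (Iso B) := by
  obtain ⟨m, z, hp, h0⟩ := exists_pent S.nd h4
  obtain rfl := h0 hm
  have hQ : Std5 (stdQ F (Fin 5)) := std5_stdQ hF S.two (by simp)
  have hR := hX.le.trans hXC
  set T := fr5 h hp
  have h1 : ∀ g ∈ Iso B, T.su g = g⁻¹ := fun g hg => Units.ext (by
    simp [Fr.su_val, T, fr5, Pau.PV.stm_apply, S.P0, h.adj_eq hB hR hg])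
  have h2 : ∀ a, (T.e a)⁻¹ = T.e a := fun a => inv_eq_of_mul_eq_one_right (by
    simp [T, fr5, S.sq, ← hp.q])
  have h3 : ∀ v, T.ι v * T.ι v = (v ⬝ᵥ v) • 1 := fun v => by
    rw [← T.ι_mul_ι', Fr.ι'_apply, Fr.ι_apply]; simp only [h2]
  have h5 : ∀ v, S.τ (T.ι v) = 0 := fun v => by
    simp [Fr.ι_apply, fun a => (T.ov a).τ_eq (hp.ne a)]
  refine Fr.base_five (T := T) hQ hC (fun g hg => Fr.Sim.exists_act hQ (fun v => ?_)
    fun _ v _ _ b => ⟨v b, rfl⟩) hR hX rot hXC fun a => ⟨T.e a, hX.le (T.ov a).mem, -1,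
      Fr.act_of_bv (by simp) fun b => ?_⟩
  · obtain ⟨t, v', e⟩ := Fr.exists_fix (T := T) (hp.stm h) g v
    have a1 := congrArg S.τ e
    rw [h1 g hg, S.τc, Units.inv_mul_cancel_left, map_add, h5, h5, map_smul, add_zero, eq_comm,
      smul_eq_zero, or_iff_left S.τ1] at a1
    rw [a1, zero_smul, zero_add] at e
    refine ⟨v', e, smul_left_injective F S.one_ne ?_⟩
    simp only [← h3, one_mul, ← e, h1 g hg, mul_assoc, Units.inv_mul_cancel_left]
    rw [← mul_assoc (T.ι v), h3]; simp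
  · rw [T.su_e]
    by_cases e : a = b
    · rw [← e, refl_apply_self (hQ.Q_bv_ne a), Fr.ιK_neg, Fr.ιK_bv]
      nth_rewrite 1 [← h2 a]
      simp
    · have := T.anti e
      rw [h2, h2] at this
      rw [hQ.refl_bv, this, neg_mul, mul_assoc]
      nth_rewrite 1 [← h2 a]
      simp [e, Fr.ιK_bv]

/-- The base of the induction for centre of order four. -/
theorem base_four (h : S.PV) (hse : SE.{u}) (h4 : finrank (ZMod 2) E = 4) {j : (End F V)ˣ}
    (hj : j ∈ S.Z) (hjj : j * j = -1) {K : Type*} [Field K] [Algebra K F] (hK : (Nat.card K).Prime)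
    {σ : F →+* F} {B : V →ₛₗ[σ] V →ₗ[F] F} {X C : Subgroup (End F V)ˣ}
    (hB : Function.Surjective (algebraMap K F) ∨ (∀ y, (∀ x, B x y = 0) → y = 0) ∧ C ≤ Iso B ∧
      ∀ t, σ t = t → ∃ k, algebraMap K F k = t)
    (hC : C ≤ ⁅C, C⁆) (hR : S.R ≤ C) (hX : S.Over X) (rot : IsSquare (2 : K) → S.Rot X)
    (hXC : ∀ g ∈ X, ∀ n ∈ C, g * n * g⁻¹ ∈ C)
    (hcm : X ≤ C ∨ S.OverF X ∧ ∀ g ∈ X, ∀ k ∈ X, g * k * g⁻¹ * k⁻¹ ∈ C) : S.Dich X C := by
  obtain ⟨m, z, hp, -⟩ := exists_pent S.nd h4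
  choose u hu huu using fun i => Pau.exists_w' hj hjj (z i)
  have hQ : Std5 (stdQ K (Option (Fin 5))) := std5_stdQ hK (fun e => S.two (by
    rw [← map_ofNat (algebraMap K F), e, map_zero])) (by simp)
  set T := fr6 h hp hu huu
  obtain ⟨i, hi⟩ := h.scal j hj
  have h1 : i * i = -1 := smul_left_injective F S.one_ne (by
    simpa [show (j : End F V) = i • 1 from LinearMap.ext hi, smul_smul] using val_sq hjj)
  have h2 : ∀ g, ∃ μ, T.Sim g μ := fun g => Fr.exists_sim h1 (a := none) (b := some 0) (by simp)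
    fun v => by
      obtain ⟨t, v', e⟩ := Fr.exists_fix (T := T) (fun x => (hp.stm h x).imp_right
        (Or.imp_right fun ⟨b, hb⟩ => ⟨some b, hb⟩)) g v
      exact ⟨t • bv none + v', by rw [e, map_add, map_smul, Fr.ι_bv]; rfl⟩
  refine Fr.base_six (T := T) hQ hC (fun g hg => (Fr.sim_of_commutator hC (fun g _ => h2 g) none
    hg).exists_act hQ fun a v e1 e2 b => ?_) hR hX rot (by simp) hse h4.ge hj hjj (fun x hx => ?_)
    hXC hcm
  · rcases hB with hB | ⟨hB, h5, h6⟩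
    · exact hB _
    have h7 := hR.trans h5
    have a1 : T.su g ∈ Iso B := by
      have a2 : T.su g = S.P m * ⟨h.adj g, h.adj ↑g⁻¹, by simp [← h.adj_mul, h.adj_one],
        by simp [← h.adj_mul, h.adj_one]⟩ * (S.P m)⁻¹ := Units.ext rfl
      rw [a2]
      exact Subgroup.mul_mem _ (Subgroup.mul_mem _ (h7 (S.P_mem m))
        (Adj.mem (h.adj_adj hB h7 (adj_inv (h5 hg))))) (Subgroup.inv_mem _ (h7 (S.P_mem m)))
    have a2 := adj_inv (Subgroup.mul_mem _ (Subgroup.mul_mem _ (h5 hg) (h7 (T.ov a).mem)) a1)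
    have a3 : Adj B (T.ι v) (T.ι' fun c => σ (v c)) := fun x y => by
      simp [Fr.ι_apply, Fr.ι'_apply, fun c => adj_inv (h7 (T.ov c).mem) x y]
    have a4 := T.ι_mul_ι' v
    rw [e2, one_smul, ← e1, ← Units.val_mul, ← Units.val_mul] at a4
    rw [← e1, ← Units.val_mul, ← Units.val_mul] at a3
    exact h6 _ (congrFun (T.ι'_inj ((a3.unique hB a2).trans
      (Units.inv_eq_of_mul_eq_one_right a4))) b)
  · rcases hp.all x with e | ⟨i, rfl⟩ | ⟨a, b, e, rfl⟩
    · exact absurd e hx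
    · exact ⟨none, some i, by simp, (zero_add _).symm⟩
    · exact ⟨some a, some b, by simpa using e, rfl⟩

end CfsgLib.C6
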