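import Mathlib
import Cfsg.Agent.Lib.C6.Pent
import Cfsg.Agent.Lib.ClMax.SpTv
import Cfsg.Agent.Lib.ClMax.SLStab
import Cfsg.Agent.Lib.SUMax.Dec

/-! Generation of the classical groups by the subgroups attached to the eigenspaces. -/

set_option autoImplicit false
set_option linter.unusedSectionVars false

namespace CfsgLib.C6

open CfsgLib.OrthE CfsgLib.OMax CfsgLib.SUMax CfsgLib.ClMax CfsgLib.Forms Module QuadraticMap

universe u

variable {F : Type*} {V : Type u} [Field F] [AddCommGroup V] [Module F V]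

/-- Units of the endomorphism ring as linear automorphisms. -/
noncomputable abbrev toE : (End F V)ˣ ≃* (V ≃ₗ[F] V) :=
  LinearMap.GeneralLinearGroup.generalLinearEquiv F V

/-- Transport to the units. -/
noncomputable abbrev up (C : Subgroup (V ≃ₗ[F] V)) : Subgroup (End F V)ˣ := C.comap toE.toMonoidHom

/-- Transport to the automorphisms. -/
noncomputable abbrev dn (N : Subgroup (End F V)ˣ) : Subgroup (V ≃ₗ[F] V) :=
  N.comap toE.symm.toMonoidHom

theorem up_le {C : Subgroup (V ≃ₗ[F] V)} {N : Subgroup (End F V)ˣ} (h : C ≤ dn N) : up C ≤ N :=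
  fun g hg => by simpa using h hg

theorem up_perfect {C : Subgroup (V ≃ₗ[F] V)} (h : C ≤ ⁅C, C⁆) : up C ≤ ⁅up C, up C⁆ := by
  have e : ∀ D : Subgroup (V ≃ₗ[F] V), up D = D.map toE.symm.toMonoidHom := fun D =>
    Subgroup.comap_equiv_eq_map_symm' _ _
  rw [e, ← Subgroup.map_commutator]
  exact Subgroup.map_mono h

theorem mem_comm {G : Type*} [Group G] {C : Subgroup G} {g k t : G} (hg : g ∈ C) (hk : k ∈ C)
    (e : g * k = t * (k * g)) : t ∈ ⁅C, C⁆ := by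
  rw [show t = g * k * g⁻¹ * k⁻¹ by rw [e]; group]
  exact Subgroup.commutator_mem_commutator hg hk

variable [FiniteDimensional F V]

theorem sp_perfect {B : LinearMap.BilinForm F V} (hA : B.IsAlt) (hB : B.Nondegenerate)
    (h2 : (2 : F) ≠ 0) (h3 : 3 ≤ finrank F V) : spIso B ≤ ⁅spIso B, spIso B⁆ := by
  refine spIso_le_of_full hA hB (Subgroup.commutator_le_self _) fun x d => ?_
  obtain ⟨u, v, a1, a2, a3⟩ := exists_pair_orth hA hB h3 x
  refine tvIn_of_mem hA (mem_comm (heis_mem hA x ((2⁻¹ * d) • v) (by simp [a2]) 0)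
    (heis_mem hA x u a1 0) (LinearEquiv.ext fun w => ?_))
  have a4 : B u v = -1 := by rw [← hA.neg_eq, a3]
  have a5 : B u x = 0 := by rw [← hA.neg_eq, a1, neg_zero]
  have a6 : B v x = 0 := by rw [← hA.neg_eq, a2, neg_zero]
  simp only [LinearEquiv.mul_apply, heis_apply, tv_apply, map_add, map_smul, LinearMap.smul_apply,
    a1, a2, a3, a4, a5, a6, hA.self_eq_zero, smul_eq_mul]
  match_scalars <;> field_simp <;> ring

theorem sl_perfect (h3 : 3 ≤ finrank F V) : SLV F V ≤ ⁅SLV F V, SLV F V⁆ := by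
  refine SLV_le_of_forall fun v φ h0 h1 => ?_
  obtain ⟨u, a1, a2⟩ := SetLike.not_le_iff_exists.1
    (show ¬ LinearMap.ker φ ≤ Submodule.span F {v} from fun h => by
      have b1 := Submodule.finrank_mono h
      have b2 := φ.finrank_range_add_finrank_ker
      have b3 := (LinearMap.range φ).finrank_le
      rw [finrank_span_singleton h0] at b1
      rw [finrank_self] at b3
      omega)
  obtain ⟨ψ, a3, a4⟩ := Submodule.exists_dual_map_eq_bot_of_notMem a2 inferInstance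
  have a5 : ψ v = 0 := by
    rw [← Submodule.mem_bot F, ← a4]
    exact Submodule.mem_map_of_mem (Submodule.mem_span_singleton_self v)
  obtain ⟨g, b1, b2⟩ := hasTv_SLV (v := v) (φ := (ψ u)⁻¹ • ψ) (by simp [a5])
  obtain ⟨k, b3, b4⟩ := hasTv_SLV (v := u) (φ := φ) a1
  obtain ⟨t, -, b5⟩ := hasTv_SLV h1
  refine ⟨t, mem_comm b1 b3 (LinearEquiv.ext fun w => ?_), b5⟩
  simp only [LinearEquiv.mul_apply, b2, b4, b5, map_add, map_smul, LinearMap.smul_apply, h1,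
    LinearMap.mem_ker.1 a1, smul_eq_mul]
  match_scalars <;> field_simp <;> ring

theorem su_perfect {σ : F →+* F} {P : PQ σ V} (hH : P.IsHerm) (hP : P.Nondeg)
    (h4 : 4 ≤ finrank F V) : SUV P ≤ ⁅SUV P, SUV P⁆ := by
  refine suv_le_of_tf hH hP (Or.inl h4) ((Subgroup.commutator_le_self _).trans inf_le_left)
    fun x hx d hd => ?_
  by_cases h0 : x = 0
  · rw [h0]; exact tv_zero_left d
  obtain ⟨g, k, a1, a2, a3, a4, a5⟩ := hH.transvection_eq_commutator hP (Or.inl h4) h0 hx hd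
  obtain ⟨t, -, a6⟩ := exists_tv_SUV hH hx hd
  exact ⟨t, mem_comm (g := g) (k := k) ⟨a1, mem_SLV.2 a3⟩ ⟨a2, mem_SLV.2 a4⟩
    (LinearEquiv.ext fun w => (a5 w).trans (a6 _).symm), a6⟩

theorem iso_eq (B : LinearMap.BilinForm F V) : Iso B = up (spIso B) := rfl

theorem mem_up_SUV {σ : F →+* F} {P : PQ σ V} (hH : P.IsHerm) {g : (End F V)ˣ} :
    g ∈ up (SUV P) ↔ g ∈ Iso P.B ∧ g ∈ up (SLV F V) :=
  and_congr_left' (hH.isIso_iff _)

theorem mem_up_SLV {g : (End F V)ˣ} : g ∈ up (SLV F V) ↔ LinearMap.det (g : End F V) = 1 := mem_SLV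

theorem conj_mem_SLV (g : (End F V)ˣ) {n : (End F V)ˣ} (hn : n ∈ up (SLV F V)) :
    g * n * g⁻¹ ∈ up (SLV F V) := (SLV_normal.comap _).conj_mem n hn g

theorem comm_mem_SLV (g k : (End F V)ˣ) : g * k * g⁻¹ * k⁻¹ ∈ up (SLV F V) := by
  rw [mem_up_SLV]
  simp only [Units.val_mul, map_mul]
  rw [mul_right_comm (LinearMap.det g.1), ← map_mul, mul_assoc, ← map_mul]; simp

variable {s : (End F V)ˣ}

theorem Res.mem_SLV (h2 : (2 : F) ≠ 0) (hs : s * s = 1) {g : (End F V)ˣ} {y : (End F (WW s))ˣ}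
    (hy : Res g y) (h : ∀ v ∈ WW (-s), g • v = v) (hg : g ∈ up (SLV F V)) :
    y ∈ up (SLV F (WW s)) := by
  have h1 : WW s ≤ (WW s).comap (g : End F V) := fun v => hy.mem
  have h3 : (WW s).mapQ (WW s) (g : End F V) h1 = 1 := Submodule.linearMap_qext _ (by
    ext v
    obtain ⟨a, ha, b, hb, rfl⟩ := exists_WW h2 hs v
    refine (Submodule.Quotient.eq _).2 ?_
    rw [← usmul, smul_add, h b hb, add_sub_add_right_eq_sub]
    exact Submodule.sub_mem _ (hy.mem ha) ha)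
  rw [mem_up_SLV, LinearMap.det_eq_det_mul_det _ _ h1, h3, map_one, mul_one] at hg
  rw [mem_up_SLV, ← hg]
  congr 1
  exact LinearMap.ext fun w => Subtype.ext (hy w)

section Form

variable {σ : F →+* F} {B : V →ₛₗ[σ] V →ₗ[F] F}

theorem Res.mem_Iso {W : Submodule F V} {B' : W →ₛₗ[σ] W →ₗ[F] F} (e : ∀ u v, B' u v = B u v)
    {g : (End F V)ˣ} {y : (End F W)ˣ} (hy : Res g y) (hg : g ∈ Iso B) : y ∈ Iso B' :=
  fun u v => by rw [e, e, hy, hy, hg]

theorem orth_WW (h2 : (2 : F) ≠ 0) (hs : s ∈ Iso B) {u v : V} (hu : u ∈ WW s) (hv : v ∈ WW (-s)) :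
    B u v = 0 ∧ B v u = 0 := by
  have h1 := hs u v
  have h3 := hs v u
  rw [mem_WW.1 hu, mem_WW_neg.1 hv, map_neg] at h1 h3
  rw [LinearMap.neg_apply] at h3
  exact ⟨mul_left_cancel₀ h2 (by linear_combination -h1),
    mul_left_cancel₀ h2 (by linear_combination -h3)⟩

theorem nondeg_WW (h2 : (2 : F) ≠ 0) (hB : ∀ x, (∀ y, B x y = 0) → x = 0) (hs : s ∈ Iso B)
    (hss : s * s = 1) {x : V} (hx : x ∈ WW s) (h : ∀ y ∈ WW s, B x y = 0) : x = 0 := hB x fun y => by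
  obtain ⟨a, ha, b, hb, rfl⟩ := exists_WW h2 hss y
  rw [map_add, h a ha, (orth_WW h2 hs hx hb).1, add_zero]

end Form

/-- `N` contains the elements of `C` acting only on the fixed space of `s`. -/
def Tw (C N : Subgroup (End F V)ˣ) (s : (End F V)ˣ) : Prop :=
  ∀ g ∈ C, g * s = s * g → (∀ v ∈ WW (-s), g • v = v) → g ∈ N

theorem Tw.tv {C N : Subgroup (End F V)ˣ} (h : Tw C N s) (h2 : (2 : F) ≠ 0) (hs : s * s = 1)
    {g : V ≃ₗ[F] V} (hg : toE.symm g ∈ C) {φ : V → F} {x : V} (e : ∀ v, g v = v + φ v • x)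
    (hx : x ∈ WW s) (hφ : ∀ v ∈ WW (-s), φ v = 0) : g ∈ dn N := by
  have h1 : ∀ v ∈ WW (-s), toE.symm g • v = v := fun v hv => (e v).trans (by simp [hφ v hv])
  refine h _ hg (comm_of_WW h2 hs (fun v hv => ?_) fun v hv => (h1 v hv).symm ▸ hv) h1
  exact (show toE.symm g • v = _ from e v) ▸ Submodule.add_mem _ hv (Submodule.smul_mem _ _ hx)

variable [Finite F] {E : Type*} [AddCommGroup E] [Module (ZMod 2) E] [FiniteDimensional (ZMod 2) E]
  {S : Pau F (End F V) E} {N : Subgroup (End F V)ˣ} {a : E}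

namespace Pau

theorem Inv.exists_two (hs : S.Inv s a) (h5 : 5 ≤ finrank (ZMod 2) E) :
    ∃ s' a', S.Inv s' a' ∧ a ≠ a' ∧ s * s' = s' * s :=
  let ⟨a', h1, h2, h3, h4⟩ := exists_sing_two S.nd h5 hs.ne
  ⟨_, a', ⟨S.ov_P a', h1, sq_zero h3⟩, h2.symm, hs.ov.comm0 (S.ov_P a') h4⟩

theorem exists_Inv (S : Pau F (End F V) E) (h3 : 3 ≤ finrank (ZMod 2) E) : ∃ s a, S.Inv s a :=
  let ⟨a, h1, h2⟩ := exists_sing S.nd h3
  ⟨_, a, S.ov_P a, h1, sq_zero h2⟩

theorem Inv.four_le (h : S.PV) (hs : S.Inv s a) (h6 : 6 ≤ finrank (ZMod 2) E) :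
    4 ≤ finrank F (WW s) := by
  obtain ⟨b, hb⟩ := exists_one S.nd hs.ne
  have h1 := (loc_PV (h := h) (hs := hs) (hb := hb)).finrank_sq
  have h2 := finrank_EE S.nd hb
  have h3 : 2 ^ 4 ≤ 2 ^ finrank (ZMod 2) (EE S.Q a b) := Nat.pow_le_pow_right (by omega) (by omega)
  nlinarith

theorem eq_top_of_dich {σ : F →+* F} {B : V →ₛₗ[σ] V →ₗ[F] F} (hB : ∀ x, (∀ y, B x y = 0) → x = 0)
    (hR : S.R ≤ Iso B) (h5 : 5 ≤ finrank (ZMod 2) E) {U U' : Submodule F V}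
    (h0 : ∀ u ∈ U, ∀ u' ∈ U', B u u' = 0 ∧ B u' u = 0)
    (hd : ∀ s a, S.Inv s a → WW s ≤ U ∨ WW s ≤ U') (hs : S.Inv s a) (hU : WW s ≤ U) : U = ⊤ := by
  rcases hd _ _ hs.neg with h1 | h1
  · refine eq_top_iff.2 fun v _ => ?_
    obtain ⟨x, hx, y, hy, rfl⟩ := exists_WW S.two hs.sq v
    exact U.add_mem (hU hx) (h1 hy)
  obtain ⟨s', a', b1, b2, b3⟩ := hs.exists_two h5
  rcases hd _ _ b1 with h2 | h2
  · obtain ⟨v, c1, c2, c3⟩ := hs.neg.exists_mem b1 b2 (by simp [b3]) (by omega)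
    exact absurd (nondeg_WW S.two hB (hR hs.neg.ov.mem) hs.neg.sq c1
      fun y hy => (h0 v (h2 c2) y (h1 hy)).1) c3
  · obtain ⟨v, c1, c2, c3⟩ := hs.exists_mem b1 b2 b3 (by omega)
    exact absurd (nondeg_WW S.two hB (hR hs.ov.mem) hs.sq c1
      fun y hy => (h0 y (hU hy) v (h2 c2)).2) c3

theorem gen_sp {B : LinearMap.BilinForm F V} (hA : B.IsAlt) (hB : B.Nondegenerate)
    (hR : S.R ≤ Iso B) (h5 : 5 ≤ finrank (ZMod 2) E) (hT : ∀ s a, S.Inv s a → Tw (Iso B) N s) :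
    Iso B ≤ N := by
  have h1 : ∀ s a, S.Inv s a → ∀ x ∈ WW s, Full B (dn N ⊓ spIso B) x := fun s a hs x hx d =>
    tvIn_of_mem hA ⟨(hT s a hs).tv S.two hs.sq (tv_mem hA x d) (tv_apply hA x d) hx fun v hv => by
      rw [(orth_WW S.two (hR hs.ov.mem) hx hv).1, mul_zero], tv_mem hA x d⟩
  obtain ⟨s, a, hs⟩ := S.exists_Inv (by omega)
  obtain ⟨s', a', b1, b2, b3⟩ := hs.exists_two h5
  obtain ⟨e, c1, -, c2⟩ := hs.exists_mem b1 b2 b3 (by omega)
  obtain ⟨f, c3, c4⟩ : ∃ f ∈ WW s, B e f ≠ 0 := by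
    by_contra! h
    exact c2 (nondeg_WW S.two hB.1 (hR hs.ov.mem) hs.sq c1 h)
  refine up_le ((spIso_le_of_full hA hB inf_le_right (full_of_connected hA hB inf_le_right
    (c := -1) (by simp) (fun h => S.two (by linear_combination -h)) (h1 s a hs e c1) (h1 s a hs f c3)
    c4 fun U d1 d2 d3 => ?_)).trans inf_le_left)
  by_contra! h
  have h2 : ∀ s a, S.Inv s a → WW s ≤ U ∨ WW s ≤ B.orthogonal U := fun s a hs => by
    by_contra! h'
    obtain ⟨x, e1, e2⟩ := SetLike.not_le_iff_exists.1 h'.1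
    obtain ⟨y, e3, e4⟩ := SetLike.not_le_iff_exists.1 h'.2
    have e5 : ∀ z ∈ WW s, z ∉ U → z ∈ B.orthogonal U := fun z f1 f2 u f3 =>
      hA.isRefl _ _ (h z (h1 s a hs z f1) f2 u f3)
    have e6 : y ∈ U := by_contra fun f => e4 (e5 y e3 f)
    exact e4 ((Submodule.add_mem_iff_right _ (e5 x e1 e2)).1 (e5 _ (Submodule.add_mem _ e1 e3)
      fun f => e2 ((Submodule.add_mem_iff_left _ e6).1 f)))
  exact d3 (eq_top_of_dich hB.1 hR h5 (U' := B.orthogonal U) (fun u e1 u' e2 => ⟨e2 u e1, hA.isRefl _ _ (e2 u e1)⟩) h2 hs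
    ((h2 s a hs).resolve_right fun h' => c4 (h' c3 e d1)))

theorem gen_su {σ : F →+* F} {P : PQ σ V} (hH : P.IsHerm) (hP : P.Nondeg) (h : S.PV)
    (hR : S.R ≤ Iso P.B) (h6 : 6 ≤ finrank (ZMod 2) E)
    (hT : ∀ s a, S.Inv s a → Tw (up (SUV P)) N s) : up (SUV P) ≤ N := by
  have h1 : ∀ s a, S.Inv s a → TFOn P (dn N ⊓ P.isom) (WW s) := fun s a hs x hx hxx d hd =>
    let ⟨g, a1, a2⟩ := exists_tv_SUV hH hxx hd
    ⟨g, ⟨(hT s a hs).tv S.two hs.sq a1 a2 hx fun v hv => by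
      rw [(orth_WW S.two (hR hs.ov.mem) hx hv).1, mul_zero], a1.1⟩, a2⟩
  have h2 : ∀ s a, S.Inv s a → Disjoint (WW s) (P.perp (WW s)) := fun s a hs =>
    P.disjoint_perp_iff.2 fun x => nondeg_WW S.two hP (hR hs.ov.mem) hs.sq
  have h3 : ∀ s a, S.Inv s a → 4 ≤ finrank F (WW s) := fun s a hs => hs.four_le h h6
  obtain ⟨s, a, hs⟩ := S.exists_Inv (by omega)
  obtain ⟨W, b1, -, b2, b3⟩ := exists_dichotomy hH hP inf_le_right (hrad_of hH fun u hu => by
    by_contra! h'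
    refine hu (hP u fun y => ?_)
    obtain ⟨x, hx, z, hz, rfl⟩ := exists_WW S.two hs.sq y
    rw [map_add, h' _ (h2 s a hs) ((h3 s a hs).trans' (by omega)) (h1 s a hs) x hx,
      h' _ (h2 _ a hs.neg) ((h3 _ a hs.neg).trans' (by omega)) (h1 _ a hs.neg) z hz, add_zero])
    (h2 s a hs) ((h3 s a hs).trans' (by omega)) (h1 s a hs)
    (trOn_of_tfOn hH (h2 s a hs) ((h3 s a hs).trans' (by omega)) (Or.inl (h3 s a hs)) (h1 s a hs))
  obtain rfl := eq_top_of_dich hP hR (by omega) (U' := P.perp W)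
    (fun u e1 u' e2 => ⟨e2 u e1, P.mem_perp'.1 e2 u e1⟩)
    (fun s a hs => le_or_le_of_dichotomy hH b3 (h2 s a hs) ((h3 s a hs).trans' (by omega))
      (h1 s a hs)) hs b1
  exact up_le ((suv_le_of_tf hH hP (Or.inl ((h3 s a hs).trans (WW s).finrank_le)) inf_le_right
    fun x => b2 x trivial).trans inf_le_left)

theorem gen_sl (h5 : 5 ≤ finrank (ZMod 2) E) (hT : ∀ s a, S.Inv s a → Tw (up (SLV F V)) N s) :
    up (SLV F V) ≤ N := by
  have h2 := S.two
  have h1 : ∀ s a, S.Inv s a → ∀ x ∈ WW s, ∀ φ : Dual F V, φ x = 0 → (∀ v, s • v = -v → φ v = 0) →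
      HasTv (dn N) x φ := fun s a hs x hx φ a1 a2 =>
    let ⟨g, b1, b2⟩ := hasTv_SLV a1
    ⟨g, (hT s a hs).tv h2 hs.sq b1 b2 hx fun v hv => a2 v (mem_WW_neg.1 hv), b2⟩
  have h3 : ∀ s a s' a', S.Inv s a → S.Inv s' a' → a ≠ a' → s * s' = s' * s → ∀ x ∈ WW s,
      x ∈ WW s' → FullTv (dn N) x := fun s a s' a' hs hs' a1 a2 x a3 a4 φ a5 => by
    have b1 : S.Inv (s * s') (a + a') := ⟨hs.ov.mul hs'.ov, add_ne a1, by
      rw [mul_assoc, ← mul_assoc s', ← a2, mul_assoc, hs'.sq, mul_one, hs.sq]⟩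
    have b2 := mem_WW.1 a3
    have b3 := mem_WW.1 a4
    have b4 : ∀ v : V, s • s • v = v := fun v => by rw [← mul_smul, hs.sq, one_smul]
    have c1 := h1 s a hs x a3 ((2 : F)⁻¹ • φ ∘ₗ (1 + s.1)) (by simp [← usmul, b2, a5])
      fun v hv => by simp [← usmul, hv]
    have c2 := h1 s' a' hs' x a4 ((4 : F)⁻¹ • φ ∘ₗ ((1 - s.1) * (1 + s'.1))) (by simp [← usmul, b2, b3])
      fun v hv => by simp [← usmul, hv]
    have c3 := h1 _ _ b1 x (by rw [mem_WW, mul_smul, b3, b2])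
      ((4 : F)⁻¹ • φ ∘ₗ ((1 - s.1) * (1 - s'.1))) (by simp [← usmul, b3]) fun v hv => by
        rw [mul_smul] at hv
        have := congrArg (s • ·) hv
        simp only [b4, smul_neg] at this
        simp [← usmul, this, b4, add_comm]
    refine ((c1.add_right c2 (by simp [← usmul, b2, a5])).add_right c3
      (by simp [← usmul, b2, b3, a5])).congr fun v => ?_
    have h4 : (4 : F) ≠ 0 := by rw [show (4 : F) = 2 * 2 by norm_num]; exact mul_ne_zero h2 h2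
    congr 1
    simp
    field_simp
    ring
  obtain ⟨s, a, hs⟩ := S.exists_Inv (by omega)
  obtain ⟨s', a', b1, b2, b3⟩ := hs.exists_two h5
  have h4 : ∀ s, S.Inv s a → s * s' = s' * s → ∀ x ∈ WW s,
      x ∈ Submodule.span F {v | FullTv (dn N) v} := fun s hs b3 x hx => by
    have c1 := fun s' (hs' : S.Inv s' a') (e : s * s' = s' * s) => Submodule.subset_span (R := F)
      (s := {v | FullTv (dn N) v}) (h3 s a s' a' hs hs' b2 e _ (Submodule.add_mem _ hx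
        (smul_mem_WW e.symm hx)) (add_mem_WW hs'.sq x))
    have := Submodule.smul_mem _ (2 : F)⁻¹ (Submodule.add_mem _ (c1 s' b1 b3)
      (c1 _ b1.neg (by simp [b3])))
    rwa [Units.neg_smul, add_add_add_comm, add_neg_cancel, add_zero, ← two_smul F, smul_smul,
      inv_mul_cancel₀ h2, one_smul] at this
  refine up_le (SLV_le_of_span (eq_top_iff.2 fun v _ => ?_))
  obtain ⟨x, hx, y, hy, rfl⟩ := exists_WW h2 hs.sq v
  exact Submodule.add_mem _ (h4 s hs b3 x hx) (h4 _ hs.neg (by simp [b3]) y hy)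

end Pau

end CfsgLib.C6
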