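import Mathlib
import Cfsg.Agent.Lib.C6.Gen

/-! The induction on the dimension for symplectic, linear and unitary groups. -/

set_option autoImplicit false
set_option linter.unusedSectionVars false

namespace CfsgLib.C6

open CfsgLib.OrthE CfsgLib.OMax CfsgLib.SUMax CfsgLib.ClMax CfsgLib.Forms Module QuadraticMap

universe u v

section Minus

variable {E : Type*} [AddCommGroup E] [Module (ZMod 2) E] [FiniteDimensional (ZMod 2) E]
  {Q : QuadraticForm (ZMod 2) E}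

variable (Q) in
/-- Minus type. -/
def MinusT : Prop :=
  ∀ U : Submodule (ZMod 2) E, (∀ x ∈ U, Q x = 0) → 2 * finrank (ZMod 2) U < finrank (ZMod 2) E

theorem MinusT.QQ (hQ : Nondeg Q) (h : MinusT Q) {a b : E} (ha : Q a = 0) (hb : polar Q a b = 1) :
    MinusT (QQ Q a b) := fun U hU => by
  have h1 := finrank_EE hQ hb
  have h2 : a ∉ U.map (EE Q a b).subtype := fun ⟨x, _, e⟩ => EE.ne_add hb x 0 (by simpa using e)
  have h3 := h (U.map (EE Q a b).subtype ⊔ Submodule.span (ZMod 2) {a}) fun x hx => by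
    obtain ⟨_, ⟨y, hy, rfl⟩, z, hz, rfl⟩ := Submodule.mem_sup.1 hx
    have := hU y hy
    rcases mem_span_one.1 hz with rfl | rfl
    · simpa using this
    · simpa [Q_add, ha, pc (EE.left y)] using this
  rw [Submodule.finrank_sup_span_singleton h2, Submodule.finrank_map_subtype_eq] at h3
  omega

theorem MinusT.minus4 (h : MinusT Q) (h4 : finrank (ZMod 2) E = 4) : Minus4 Q :=
  fun x y h1 h2 h3 => by
    by_contra! hn
    have h5 := h (Submodule.span (ZMod 2) {x} ⊔ Submodule.span (ZMod 2) {y}) fun z hz => by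
      rw [← Submodule.span_insert, mem_span_two] at hz
      rcases hz with rfl | rfl | rfl | rfl <;> simp [Q_add, h1, h2, h3]
    rw [Submodule.finrank_sup_span_singleton (by simp [mem_span_one, hn.2.1, hn.2.2.symm]),
      finrank_span_singleton hn.1] at h5
    omega

end Minus

variable {F : Type*} {V : Type u} [Field F] [AddCommGroup V] [Module F V] [FiniteDimensional F V]
  [Finite F] {E : Type v} [AddCommGroup E] [Module (ZMod 2) E] [FiniteDimensional (ZMod 2) E]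
  {S : Pau F (End F V) E} {X N C : Subgroup (End F V)ˣ} {s : (End F V)ˣ} {a b : E}

theorem Tw.conj (h : Tw C N s) {n : (End F V)ˣ} (h1 : ∀ g ∈ C, n⁻¹ * g * n⁻¹⁻¹ ∈ C)
    (h2 : ∀ g ∈ N, n * g * n⁻¹ ∈ N) : Tw C N (n * s * n⁻¹) := fun g a1 a2 a3 => by
  have := h2 _ (h _ (h1 g a1) (by
    rw [← mul_left_inj n⁻¹, ← mul_right_inj n]; simpa [mul_assoc] using a2) fun v hv => by
      rw [inv_inv, mul_smul, mul_smul, a3, inv_smul_smul]
      rw [mem_WW_neg, mul_smul, mul_smul, inv_smul_smul, mem_WW_neg.1 hv, smul_neg])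
  simpa [mul_assoc] using this

namespace Pau

theorem Inv.exists_conj (hs : S.Inv s a) {s' : (End F V)ˣ} {a' : E} (hs' : S.Inv s' a')
    (hR : S.R ≤ X) {n : S.Nm} (hn : n.1 ∈ X) (e : S.φ n a = a') : ∃ n ∈ X, n * s * n⁻¹ = s' := by
  rcases ((hs.ov.φ n).congr e).eq_or hs'.ov ((conj_sq' hs.sq).trans hs'.sq.symm) with h | h
  · exact ⟨n, hn, h⟩
  · obtain ⟨b, hb⟩ := exists_one S.nd hs'.ne
    refine ⟨S.P b * n, X.mul_mem (hR (S.P_mem b)) hn, ?_⟩
    rw [Subgroup.coe_inv] at h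
    rw [show S.P b * n * s * (S.P b * n)⁻¹ = S.P b * (n * s * (n : (End F V)ˣ)⁻¹) * (S.P b)⁻¹ by group,
      h, mul_neg, (S.ov_P b).comm1 hs'.ov (pc1 hb)]
    simp

theorem tw_of_le (hs : S.Inv s a) {D : Subgroup (End F (WW s))ˣ} (h1 : D ≤ resK N s)
    (h2 : ∀ g ∈ C, ∀ y, Res g y → (∀ v ∈ WW (-s), g • v = v) → y ∈ D) : Tw C N s :=
  fun g a1 a2 a3 => by
    obtain ⟨y, hy⟩ := C6.exists_res a2
    obtain ⟨k, b1, b2, b3⟩ := h1 (h2 g a1 y hy a3)
    rwa [ext_WW S.two hs.sq (fun v => hy.eq_on b3) fun v hv => (a3 v hv).trans (b2 v hv).symm]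

theorem step (h : S.PV) (hX : S.OverF X) (h5 : 5 ≤ finrank (ZMod 2) E)
    (hXC : ∀ g ∈ X, ∀ n ∈ C, g * n * g⁻¹ ∈ C) (D : ∀ s : (End F V)ˣ, Subgroup (End F (WW s))ˣ)
    (hres : ∀ s a, S.Inv s a → ∀ g ∈ C, ∀ y, Res g y → (∀ v ∈ WW (-s), g • v = v) → y ∈ D s)
    (hD : ∀ s a, S.Inv s a → D s ≤ ⁅D s, D s⁆)
    (htr : ∀ s a s' a', S.Inv s a → S.Inv s' a' → ∃ n : S.Nm, n.1 ∈ X ∧ S.φ n a = a')
    (ih : ∀ s a b (hs : S.Inv s a) (hb : polar S.Q a b = 1), (loc h hs hb).Dich (resG X s) (D s))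
    (h1 : h.Loc X → X ≤ S.Nm)
    (h2 : ∀ N, (∀ s a, S.Inv s a → Tw C N s) → C ≤ N) : S.Dich X C := by
  refine or_iff_not_imp_left.2 fun hn N hN hXN => h2 N fun s' a' hs' => ?_
  obtain ⟨s, a, b, hs, hb, h3⟩ : ∃ s a b, ∃ (hs : S.Inv s a) (hb : polar S.Q a b = 1),
      ¬ resG X s ≤ (loc h hs hb).Nm := by
    by_contra! h3
    exact hn (h1 h3)
  have h4 := (ih s a b hs hb).resolve_left h3 _ (hX.le_resK h hs hb h5)
    (conj_mem_resK fun g hg n hn => X.mul_mem (X.mul_mem hg hn) (X.inv_mem hg))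
  obtain ⟨n, c1, c2⟩ := htr s a s' a' hs hs'
  obtain ⟨n, c1, rfl⟩ := hs.exists_conj hs' hX.le c1 c2
  exact (tw_of_le hs ((hD s a hs).trans (Subgroup.commutator_le.2 fun y hy z hz =>
    comm_mem_resK S.two hXN hs.sq (hN (S.P_mem b)) ((S.ov_P b).comm1 hs.ov (pc1 hb)) (h4 hy) (h4 hz)))
    (hres s a hs)).conj (hXC _ (X.inv_mem c1)) (hXN n c1)

theorem Rot.loc (hX : S.Rot X) (h : S.PV) (hs : S.Inv s a) (hb : polar S.Q a b = 1) :
    (loc h hs hb).Rot (resG X s) := fun y ⟨x, hx⟩ e => by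
  obtain ⟨r, h1, h2⟩ := exists_lift hx
  have h3 := sq_of_res h hs h1.mem h2 e
  obtain ⟨g, a1, c, a2, a3⟩ := hX r h1.mem h3
  have a4 : g * s = s * g := Units.ext (by
    simp only [Units.val_mul, a3, smul_mul_assoc, mul_smul_comm]
    exact congrArg (fun u : (End F V)ˣ => c • u.1) (hs_comm S.two h3 (hs.comm x h1).symm).symm)
  obtain ⟨z, hz⟩ := C6.exists_res a4
  exact ⟨z, ⟨g, a1, a4, hz⟩, c, a2, LinearMap.ext fun w => Subtype.ext ((hz w).trans (by
    rw [usmul, a3]; exact congrArg (c • ·) (h2.hs S.two h3 w).symm))⟩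

theorem OverF.rot (hX : S.OverF X) (h : S.PV) {j : (End F V)ˣ} (hj : j ∈ S.Z) (hjj : j * j = -1) :
    S.Rot X := fun u h1 h2 => by
  obtain ⟨t, ht⟩ := h.scal j hj
  have h3 : (C6.hs j : End F V) = (1 + t) • 1 := by
    rw [hs_val S.two hjj, add_smul, one_smul, show (j : End F V) = t • 1 from LinearMap.ext ht]
  have h4 : 1 + t ≠ 0 := fun e => S.one_ne (by
    simpa [h3, e] using (C6.hs j).mul_inv.symm)
  refine ⟨_, hX.pr u h1 j (S.Z_le hj) h2 hjj, (1 + t)⁻¹, inv_ne_zero h4, ?_⟩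
  rw [Units.val_mul, Units.mul_inv_eq_iff_eq_mul, h3]
  simp [smul_smul, h4]

theorem PV.finrank_eq (h : S.PV) {k : ℕ} (hk : finrank (ZMod 2) E = 2 * k) : finrank F V = 2 ^ k := by
  have := h.finrank_sq
  rw [hk, mul_comm 2, pow_mul, pow_two] at this
  exact Nat.mul_self_inj.1 this

theorem PV.four_le (h : S.PV) (h4 : 4 ≤ finrank (ZMod 2) E) : 4 ≤ finrank F V := by
  have h1 := h.finrank_sq
  have h3 : 2 ^ 4 ≤ 2 ^ finrank (ZMod 2) E := Nat.pow_le_pow_right (by omega) h4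
  nlinarith

theorem PV.mem_R_of_comm (h : S.PV) {B : LinearMap.BilinForm F V} (hB : ∃ u v, B u v ≠ 0)
    {g : (End F V)ˣ} (hg : g ∈ Iso B) (h1 : ∀ y, g * S.P y = S.P y * g) : g ∈ S.R := by
  obtain ⟨t, ht⟩ := h.scalar_of_comm (g := g) fun x => congrArg Units.val (h1 x)
  obtain ⟨u, v, e⟩ := hB
  have h2 := hg u v
  simp only [usmul, ht, map_smul, LinearMap.smul_apply, smul_eq_mul] at h2
  rcases mul_self_eq_one_iff.1 (mul_right_cancel₀ e (by linear_combination h2) : t * t = 1) with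
    rfl | rfl
  · rw [show g = 1 from uext fun v => by simp [usmul, ht]]; exact S.R.one_mem
  · rw [show g = -1 from uext fun v => by simp [usmul, ht]]; exact S.Z_le S.neg_mem

end Pau

omit [AddCommGroup V] [Module F V] [FiniteDimensional F V] [AddCommGroup E] [Module (ZMod 2) E]
  [FiniteDimensional (ZMod 2) E] in
/-- The symplectic case. -/
theorem ind_sp (hse : SE.{u}) (hF : (Nat.card F).Prime) (k : ℕ) : ∀ {V : Type u} [AddCommGroup V]
    [Module F V] [FiniteDimensional F V] {E : Type v} [AddCommGroup E] [Module (ZMod 2) E]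
    [FiniteDimensional (ZMod 2) E] {S : Pau F (End F V) E}, S.PV → S.Two → MinusT S.Q →
    finrank (ZMod 2) E = 2 * k + 4 → ∀ {B : LinearMap.BilinForm F V}, B.IsAlt → B.Nondegenerate →
    ∀ {X : Subgroup (End F V)ˣ}, S.OverF X → X ≤ Iso B → (IsSquare (2 : F) → S.Rot X) →
    S.Dich X (Iso B) := by
  induction k with
  | zero =>
    intro V _ _ _ E _ _ _ S h h2 hm hk B hA hB X hX hXC rot
    exact base_sp h hF hk (hm.minus4 hk) hB.2 (up_perfect (sp_perfect hA hB S.two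
      ((h.four_le hk.ge).trans' (by omega)))) (hX.over fun g _ => h.mem_CZ g) hXC rot
  | succ k ih =>
    intro V _ _ _ E _ _ _ S h h2 hm hk B hA hB X hX hXC rot
    have hR := hX.le.trans hXC
    have h1 : ∀ s a, S.Inv s a → (B.restrict (WW s)).Nondegenerate := fun s a hs =>
      have : ∀ x : WW s, (∀ y, B.restrict (WW s) x y = 0) → x = 0 := fun x hx => Subtype.ext
        (nondeg_WW S.two hB.1 (hR hs.ov.mem) hs.sq x.2 fun y hy => hx ⟨y, hy⟩)
      ⟨this, fun x hx => this x fun y => hA.isRefl _ _ (hx y)⟩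
    have h3 : ∀ s : (End F V)ˣ, (B.restrict (WW s)).IsAlt := fun s x => hA x
    refine Pau.step h hX (by omega) (fun g hg n hn => Subgroup.mul_mem _ (Subgroup.mul_mem _
      (hXC hg) hn) (Subgroup.inv_mem _ (hXC hg))) (fun s => Iso (B.restrict (WW s)))
      (fun s a _ g hg y hy _ => hy.mem_Iso (fun _ _ => rfl) hg)
      (fun s a hs => up_perfect (sp_perfect (h3 s) (h1 s a hs) S.two
        ((hs.four_le h (by omega)).trans' (by omega))))
      (fun s a s' a' hs hs' => (hX.over fun g _ => h.mem_CZ g).trans (by omega) hs.ne hs'.ne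
        (((h2.Q_zero hs.ov).1 hs.sq).trans ((h2.Q_zero hs'.ov).1 hs'.sq).symm))
      (fun s a b hs hb => ?_) (fun hL => hL.le_two hX hse h2 (by omega) (fun a b ha hb => ?_)
        fun g hg => h.mem_R_of_comm ?_ (hXC hg)) fun N => Pau.gen_sp hA hB hR (by omega)
    · have := finrank_EE S.nd hb
      exact ih Pau.loc_PV (Pau.loc_two h2) (hm.QQ S.nd ((h2.Q_zero hs.ov).1 hs.sq) hb) (by omega)
        (h3 s) (h1 s a hs) (hX.loc h hs hb)
        (fun y ⟨g, a1, _, a2⟩ => a2.mem_Iso (fun _ _ => rfl) (hXC a1)) fun e => (rot e).loc h hs hb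
    · have := finrank_EE S.nd hb
      rcases k with _ | k
      · exact Or.inr ⟨by omega, (hm.QQ S.nd ha hb).minus4 (by omega)⟩
      · exact Or.inl (by omega)
    · by_contra! h4
      exact S.one_ne (LinearMap.ext fun v => hB.1 v (h4 v))

theorem exists_j_loc {h : S.PV} {hs : S.Inv s a} {hb : polar S.Q a b = 1} {j : (End F V)ˣ}
    (hj : j ∈ S.Z) (hjj : j * j = -1) : ∃ j' ∈ (Pau.loc h hs hb).Z, j' * j' = -1 :=
  let ⟨y, hy⟩ := exists_res (hs.ov.zcomm hj)
  ⟨y, ⟨j, hj, hs.ov.zcomm hj, hy⟩, hy.sq hjj⟩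

theorem Pau.OverF.trans_four (hX : S.OverF X) {j : (End F V)ˣ} (hj : j ∈ S.Z) (hjj : j * j = -1)
    {x y : E} (hx : x ≠ 0) (hy : y ≠ 0) : ∃ n : S.Nm, n.1 ∈ X ∧ S.φ n x = y :=
  let ⟨_, ⟨n, d1, d2⟩, d3⟩ := trans_all S.nd (hX.tv_mem hj hjj) hx hy
  ⟨n, d1, by rw [d2, d3]⟩

theorem Pau.PV.R_le_SL (h : S.PV) (h4 : 4 ≤ finrank (ZMod 2) E) : S.R ≤ up (SLV F V) := by
  refine Pau.R_le_of_sq (by omega) fun u ⟨x, hx⟩ hu => ?_
  by_cases h0 : x = 0
  · obtain ⟨t, ht⟩ := h.scal u (S.ov_zero.1 (h0 ▸ hx))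
    have h1 : (u : End F V) = t • 1 := LinearMap.ext ht
    have h2 : t * t = -1 := smul_left_injective F S.one_ne (by
      simpa [h1, smul_smul] using val_sq hu)
    obtain ⟨m, hm⟩ : 4 ∣ finrank F V := (Nat.pow_dvd_pow_iff two_ne_zero).1 (by
      rw [pow_two (finrank F V), h.finrank_sq]; exact pow_dvd_pow 2 h4)
    rw [mem_up_SLV, h1, LinearMap.det_smul, hm, pow_mul,
      show t ^ 4 = 1 by linear_combination (t * t - 1) * h2]
    simp
  · obtain ⟨y, hy⟩ := exists_one S.nd h0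
    have := comm_mem_SLV (hs u) (S.P y)
    rwa [hs_anti S.two hu ((S.ov_P y).comm1 hx (pc1 hy)), mul_inv_cancel_right] at this

omit [AddCommGroup V] [Module F V] [FiniteDimensional F V] [AddCommGroup E] [Module (ZMod 2) E]
  [FiniteDimensional (ZMod 2) E] in
/-- The linear case. -/
theorem ind_sl (hse : SE.{u}) (hF : (Nat.card F).Prime) (k : ℕ) : ∀ {V : Type u} [AddCommGroup V]
    [Module F V] [FiniteDimensional F V] {E : Type v} [AddCommGroup E] [Module (ZMod 2) E]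
    [FiniteDimensional (ZMod 2) E] {S : Pau F (End F V) E}, S.PV → (∃ j ∈ S.Z, j * j = -1) →
    finrank (ZMod 2) E = 2 * k + 4 → ∀ {X : Subgroup (End F V)ˣ}, S.OverF X →
    S.Dich X (up (SLV F V)) := by
  induction k with
  | zero =>
    intro V _ _ _ E _ _ _ S h ⟨j, hj, hjj⟩ hk X hX
    exact base_four h hse hk hj hjj hF (B := (0 : V →ₗ[F] V →ₗ[F] F))
      (Or.inl Function.surjective_id) (up_perfect (sl_perfect ((h.four_le hk.ge).trans' (by omega))))
      (h.R_le_SL hk.ge) (hX.over fun g _ => h.mem_CZ g) (fun _ => hX.rot h hj hjj)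
      (fun g _ n => conj_mem_SLV g) (Or.inr ⟨hX, fun g _ k _ => comm_mem_SLV g k⟩)
  | succ k ih =>
    intro V _ _ _ E _ _ _ S h ⟨j, hj, hjj⟩ hk X hX
    refine Pau.step h hX (by omega) (fun g _ n => conj_mem_SLV g) (fun s => up (SLV F (WW s)))
      (fun s a hs g hg y hy e => hy.mem_SLV S.two hs.sq e hg)
      (fun s a hs => up_perfect (sl_perfect ((hs.four_le h (by omega)).trans' (by omega))))
      (fun s a s' a' hs hs' => hX.trans_four hj hjj hs.ne hs'.ne) (fun s a b hs hb => ?_)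
      (fun hL => hL.le_four hX hse (by omega) hj hjj) fun N => Pau.gen_sl (by omega)
    have := finrank_EE S.nd hb
    exact ih Pau.loc_PV (exists_j_loc hj hjj) (by omega) (hX.loc h hs hb)

theorem conj_mem_SUV {σ : F →+* F} {P : PQ σ V} (hH : P.IsHerm) {g n : (End F V)ˣ}
    (hg : g ∈ Iso P.B) (hn : n ∈ up (SUV P)) : g * n * g⁻¹ ∈ up (SUV P) :=
  (mem_up_SUV hH).2 ⟨Subgroup.mul_mem _ (Subgroup.mul_mem _ hg ((mem_up_SUV hH).1 hn).1)
    (Subgroup.inv_mem _ hg), conj_mem_SLV g hn.2⟩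

theorem base_su (h : S.PV) (hse : SE.{u}) (h4 : finrank (ZMod 2) E = 4) {j : (End F V)ˣ}
    (hj : j ∈ S.Z) (hjj : j * j = -1) {K : Type*} [Field K] [Algebra K F] (hK : (Nat.card K).Prime)
    {σ : F →+* F} (hσ : ∀ t, σ t = t → ∃ k, algebraMap K F k = t) {P : PQ σ V} (hH : P.IsHerm)
    (hP : P.Nondeg) (hX : S.Over X) (hXC : X ≤ Iso P.B) (rot : IsSquare (2 : K) → S.Rot X)
    (hcm : X ≤ up (SLV F V) ∨ S.OverF X) : S.Dich X (up (SUV P)) :=
  base_four h hse h4 hj hjj hK (Or.inr ⟨hP.right, fun _ hg => ((mem_up_SUV hH).1 hg).1, hσ⟩)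
    (up_perfect (su_perfect hH hP (h.four_le h4.ge)))
    (fun _ hr => (mem_up_SUV hH).2 ⟨hXC (hX.le hr), h.R_le_SL h4.ge hr⟩) hX rot
    (fun _ hg _ => conj_mem_SUV hH (hXC hg)) (hcm.imp
      (fun e _ hg => (mem_up_SUV hH).2 ⟨hXC hg, e hg⟩) fun e => ⟨e, fun g hg k hk =>
        (mem_up_SUV hH).2 ⟨hXC (X.mul_mem (X.mul_mem (X.mul_mem hg hk) (X.inv_mem hg))
          (X.inv_mem hk)), comm_mem_SLV g k⟩⟩)

omit [AddCommGroup V] [Module F V] [FiniteDimensional F V] [AddCommGroup E] [Module (ZMod 2) E]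
  [FiniteDimensional (ZMod 2) E] in
/-- The unitary case. -/
theorem ind_su (hse : SE.{u}) {K : Type*} [Field K] [Algebra K F] (hK : (Nat.card K).Prime)
    {σ : F →+* F} (hσ : ∀ t, σ t = t → ∃ k, algebraMap K F k = t) (k : ℕ) :
    ∀ {V : Type u} [AddCommGroup V]
    [Module F V] [FiniteDimensional F V] {E : Type v} [AddCommGroup E] [Module (ZMod 2) E]
    [FiniteDimensional (ZMod 2) E] {S : Pau F (End F V) E}, S.PV → (∃ j ∈ S.Z, j * j = -1) →
    finrank (ZMod 2) E = 2 * k + 4 → ∀ {P : PQ σ V}, P.IsHerm → P.Nondeg →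
    ∀ {X : Subgroup (End F V)ˣ}, S.OverF X → X ≤ Iso P.B → S.Dich X (up (SUV P)) := by
  induction k with
  | zero =>
    intro V _ _ _ E _ _ _ S h ⟨j, hj, hjj⟩ hk P hH hP X hX hXC
    exact base_su h hse hk hj hjj hK hσ hH hP (hX.over fun g _ => h.mem_CZ g) hXC
      (fun _ => hX.rot h hj hjj) (Or.inr hX)
  | succ k ih =>
    intro V _ _ _ E _ _ _ S h ⟨j, hj, hjj⟩ hk P hH hP X hX hXC
    have hR := hX.le.trans hXC
    have h1 : ∀ s a, S.Inv s a → (P.restrict (WW s)).Nondeg := fun s a hs x hx => Subtype.ext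
      (nondeg_WW S.two hP (hR hs.ov.mem) hs.sq x.2 fun y hy => hx ⟨y, hy⟩)
    refine Pau.step h hX (by omega) (fun g hg n => conj_mem_SUV hH (hXC hg))
      (fun s => up (SUV (P.restrict (WW s))))
      (fun s a hs g hg y hy e => (mem_up_SUV (hH.restrict _)).2 ⟨hy.mem_Iso (fun _ _ => rfl)
        ((mem_up_SUV hH).1 hg).1, hy.mem_SLV S.two hs.sq e hg.2⟩)
      (fun s a hs => up_perfect (su_perfect (hH.restrict _) (h1 s a hs) (hs.four_le h (by omega))))
      (fun s a s' a' hs hs' => hX.trans_four hj hjj hs.ne hs'.ne) (fun s a b hs hb => ?_)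
      (fun hL => hL.le_four hX hse (by omega) hj hjj) fun N => Pau.gen_su hH hP h hR (by omega)
    have := finrank_EE S.nd hb
    exact ih Pau.loc_PV (exists_j_loc hj hjj) (by omega) (hH.restrict _) (h1 s a hs)
      (hX.loc h hs hb) fun y ⟨g, a1, _, a2⟩ => a2.mem_Iso (fun _ _ => rfl) (hXC a1)

end CfsgLib.C6
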