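import Mathlib
import Cfsg.Agent.Lib.C6.Ind

/-! The Pauli system of a spanning group of exponent four and class two. -/

set_option autoImplicit false
set_option linter.unusedSectionVars false

namespace CfsgLib.C6

open CfsgLib.OrthE CfsgLib.OMax CfsgLib.SUMax CfsgLib.ClMax CfsgLib.Forms Module QuadraticMap

universe u v

theorem exists_Q {A E : Type*} [Ring A] [AddCommGroup E] [Module (ZMod 2) E] (h : (-1 : Aˣ) ≠ 1)
    {P : E → Aˣ} (h0 : P 0 = 1) (hm : ∀ x y, P x * P y = P (x + y) ∨ P x * P y = -P (x + y))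
    (hs : ∀ x, P x * P x = 1 ∨ P x * P x = -1) :
    ∃ Q : QuadraticForm (ZMod 2) E, (∀ x, P x * P x = sg (Q x)) ∧
      ∀ x y, P x * P y = sg (polar Q x y) * (P y * P x) := by
  classical
  let q : E → ZMod 2 := fun x => if P x * P x = 1 then 0 else 1
  have h1 : ∀ x, P x * P x = sg (q x) := fun x => by rcases hs x with e | e <;> simp [q, e, h]
  have h2 : ∀ {s t : ZMod 2}, (sg s : Aˣ) = sg t → s = t := fun {s t} e => by
    rcases z2 s with rfl | rfl <;> rcases z2 t with rfl | rfl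
    exacts [rfl, absurd (by simpa using e.symm) h, absurd (by simpa using e) h, rfl]
  have h3 : ∀ x y, P x * P y = sg (polar q x y) * (P y * P x) := fun x y => by
    have a1 : P x * P y * (P x * P y) = sg (q (x + y)) := by
      rcases hm x y with h | h <;> simp [h, h1]
    have a2 : P x * P y * (P y * P x) = sg (q x + q y) := by
      rw [mul_assoc, ← mul_assoc (P y), h1, sg_comm, ← mul_assoc, h1, sg_add]
    rw [show q (x + y) = q x + q y + polar q x y by rw [polar]; ring, sg_add, ← a2,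
      mul_assoc (P x * P y), mul_right_inj] at a1
    rw [a1, sg_comm]
  have h4 : q 0 = 0 := by simp [q, h0]
  refine ⟨QuadraticMap.ofPolar q (fun a x => ?_) (fun x x' y => h2 ?_) fun a x y => ?_, h1, h3⟩
  · rcases z2 a with rfl | rfl <;> simp [h4]
  · have a1 := h3 (x + x') y
    have a2 : P x * P x' * P y = sg (polar q x y + polar q x' y) * (P y * (P x * P x')) := by
      rw [mul_assoc, h3 x' y, ← mul_assoc, ← sg_comm, mul_assoc, ← mul_assoc (P x), h3 x y,
        add_comm, sg_add]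
      simp only [mul_assoc]
    rcases hm x x' with e | e <;> rw [e] at a2
    · simpa using a1.symm.trans a2
    · simpa [a1] using a2
  · rcases z2 a with rfl | rfl <;> simp [polar, h4]

variable {F : Type*} {V : Type u} [Field F] [AddCommGroup V] [Module F V] [FiniteDimensional F V]
  [Finite F]

theorem pm_of_scalar [Nontrivial V] {c : (End F V)ˣ} {t : F} (h : (c : End F V) = t • 1)
    (e : c * c = 1) : c = 1 ∨ c = -1 := by
  have h1 : t * t = 1 := smul_left_injective F (one_ne_zero (α := End F V)) (by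
    simpa [h, smul_smul] using congrArg Units.val e)
  rcases mul_self_eq_one_iff.1 h1 with rfl | rfl
  exacts [Or.inl (Units.ext (by simp [h])), Or.inr (Units.ext (by simp [h]))]

theorem exists_pau [Nontrivial V] (h2 : (2 : F) ≠ 0) {R : Subgroup (End F V)ˣ}
    (hs : Submodule.span F ((fun r : (End F V)ˣ => (r : End F V)) '' R) = ⊤)
    (h4 : ∀ r ∈ R, r ^ 4 = 1) (hn : ∃ r ∈ R, r * r ≠ 1)
    (hc : ∀ r ∈ R, ∀ s ∈ R, ∃ t : F, ((r * s * r⁻¹ * s⁻¹ : (End F V)ˣ) : End F V) = t • 1) :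
    ∃ (E : Type u) (_ : AddCommGroup E) (_ : Module (ZMod 2) E) (_ : FiniteDimensional (ZMod 2) E)
      (S : Pau F (End F V) E), S.PV ∧ S.R = R := by
  have a0 : ∀ {c : (End F V)ˣ} {t : F}, (c : End F V) = t • 1 → ∀ g, c * g = g * c :=
    fun h g => Units.ext (by simp [h])
  have a1 : ∀ g : (End F V)ˣ, (∀ r ∈ R, g * r = r * g) → ∃ t : F, (g : End F V) = t • 1 :=
    fun g hg => by
      obtain ⟨t, ht⟩ := Algebra.mem_bot.1 (Algebra.IsCentral.out (Subalgebra.mem_center_iff.2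
        fun a => Submodule.span_induction (p := fun a _ => a * g.1 = g.1 * a)
          (by rintro _ ⟨r, hr, rfl⟩; exact congrArg Units.val (hg r hr).symm) (by simp)
          (fun a b _ _ h h' => by rw [add_mul, mul_add, h, h']) (fun t a _ h => by simp [h])
          (hs.ge Submodule.mem_top) : (g : End F V) ∈ Subalgebra.center F (End F V)))
      exact ⟨t, ht.symm.trans (Algebra.algebraMap_eq_smul_one t)⟩
  have a2 : ∀ r ∈ R, ∀ s ∈ R, r * s = s * r ∨ r * s = -(s * r) := fun r hr s hs => by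
    obtain ⟨t, ht⟩ := hc r hr s hs
    have b1 := h4 _ (R.mul_mem (R.mul_mem (R.mul_mem hr hs) (R.inv_mem hr)) (R.inv_mem hs))
    obtain ⟨c, e⟩ : ∃ c, c = r * s * r⁻¹ * s⁻¹ := ⟨_, rfl⟩
    rw [← e] at ht b1
    have b2 : r * s = c * (s * r) := by rw [e]; group
    have b3 : ∀ g k, g * (c * k) = c * (g * k) := fun g k => by rw [← mul_assoc, ← a0 ht, mul_assoc]
    have b4 : ∀ k, r * (s * k) = c * (s * (r * k)) := fun k => by
      rw [← mul_assoc, b2]; simp only [mul_assoc]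
    have b5 : (s * r) ^ 4 = c ^ 4 * (c * c) * (s ^ 4 * r ^ 4) := by
      simp only [pow_succ, pow_zero, one_mul, mul_assoc, b4, b3 s, b3 r]
    rw [h4 _ (R.mul_mem hs hr), b1, h4 s hs, h4 r hr] at b5
    rcases pm_of_scalar ht (by simpa using b5.symm) with rfl | rfl <;> simp [b2]
  have a3 : ∀ r ∈ R, r * r = 1 ∨ r * r = -1 := fun r hr => by
    obtain ⟨t, ht⟩ := a1 (r * r) fun s hs => by
      rcases a2 r hr s hs with e | e <;> rw [mul_assoc, e] <;> simp [← mul_assoc, e]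
    exact pm_of_scalar ht (by simpa [pow_succ, mul_assoc] using h4 r hr)
  have a4 : -1 ∈ R := let ⟨r, h, h'⟩ := hn; (a3 r h).resolve_left h' ▸ R.mul_mem h h
  have a5 : (-1 : (End F V)ˣ) ≠ 1 := fun e => one_ne_zero (α := End F V)
    (smul_right_injective _ h2 (by
      simp only [two_smul, smul_zero]; nth_rewrite 1 [← Units.val_one, ← e]; simp))
  let M0 : Subgroup (End F V)ˣ :=
    { carrier := {r | r = 1 ∨ r = -1}
      mul_mem' := by rintro a b (rfl | rfl) (rfl | rfl) <;> simp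
      one_mem' := Or.inl rfl
      inv_mem' := by rintro a (rfl | rfl) <;> simp }
  have : M0.Normal := ⟨by rintro a (rfl | rfl) g <;> simp [M0]⟩
  let M := M0.subgroupOf R
  have a6 : ∀ r s : R, (r : R ⧸ M) = s ↔ r.1 = s ∨ r.1 = -s := fun r s => by
    rw [eq_comm, QuotientGroup.eq]
    simp [M, M0, Subgroup.mem_subgroupOf, inv_mul_eq_iff_eq_mul]
  let _ : CommGroup (R ⧸ M) :=
    { (inferInstance : Group (R ⧸ M)) with
      mul_comm := fun x y => by
        induction x using QuotientGroup.induction_on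
        induction y using QuotientGroup.induction_on
        exact (a6 _ _).2 (a2 _ (Subtype.prop _) _ (Subtype.prop _)) }
  let _ : Module (ZMod 2) (Additive (R ⧸ M)) := AddCommGroup.zmodModule fun x => by
    induction x using QuotientGroup.induction_on with
    | H r => exact (two_nsmul _).trans ((a6 (r * r) 1).2 (a3 r r.2))
  let Z : Subgroup (End F V)ˣ := R ⊓ Subgroup.center _
  have a7 : ∀ c ∈ Z, ∀ g, c * g = g * c := fun c hc g => (Subgroup.mem_center_iff.1 hc.2 g).symm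
  obtain ⟨U, hU⟩ := (AddSubgroup.toZModSubmodule 2
    ((Z.subgroupOf R).map (QuotientGroup.mk' M)).toAddSubgroup).exists_isCompl
  have a8 : ∀ x : U, ∃ r : R, (r : R ⧸ M) = x.1.toMul ∧ (x = 0 → r = 1) := fun x => by
    by_cases h : x = 0
    · exact ⟨1, by simp [h], fun _ => rfl⟩
    · obtain ⟨r, hr⟩ := QuotientGroup.mk_surjective x.1.toMul
      exact ⟨r, hr, fun e => absurd e h⟩
  choose P p1 p2 using a8
  have p3 : ∀ x y, (P x).1 * P y = P (x + y) ∨ (P x).1 * P y = -P (x + y) := fun x y =>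
    (a6 (P x * P y) _).1 (by rw [QuotientGroup.mk_mul, p1, p1, p1]; rfl)
  obtain ⟨Q, q1, q2⟩ := exists_Q (P := fun x => (P x).1) a5 (by simp [p2]) p3 fun x => a3 _ (P x).2
  have p4 : ∀ r ∈ R, ∃ x, ∃ c ∈ Z, r = c * P x := fun r hr => by
    obtain ⟨_, ⟨c, hc, rfl⟩, x, hx, e⟩ := Submodule.mem_sup.1
      (hU.sup_eq_top.ge (Submodule.mem_top (x := Additive.ofMul ((⟨r, hr⟩ : R) : R ⧸ M))))
    rcases (a6 ⟨r, hr⟩ (c * P ⟨x, hx⟩)).1 (by rw [QuotientGroup.mk_mul, p1]; exact e.symm) with h | h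
    · exact ⟨_, c, hc, h⟩
    · exact ⟨_, -1 * c, Z.mul_mem ⟨a4, Subgroup.mem_center_iff.2 (by simp)⟩ hc, by simpa using h⟩
  have p5 : ∀ x, (∀ y, polar Q x y = 0) → x = 0 := fun x hx => Subtype.ext (by
    refine (Submodule.mem_bot _).1 (hU.inf_eq_bot.le ⟨⟨P x, ⟨(P x).2, ?_⟩, p1 x⟩, x.2⟩)
    obtain ⟨t, ht⟩ := a1 (P x) fun r hr => by
      obtain ⟨y, c, hc, rfl⟩ := p4 r hr
      rw [← mul_assoc, ← a7 c hc, mul_assoc, q2, hx, sg_zero, one_mul, mul_assoc]
    exact Subgroup.mem_center_iff.2 fun g => (a0 ht g).symm)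
  have p6 : Submodule.span F (Set.range fun x => ((P x).1 : End F V)) = ⊤ := by
    refine eq_top_iff.2 (hs.ge.trans (Submodule.span_le.2 ?_))
    rintro _ ⟨r, hr, rfl⟩
    obtain ⟨y, c, hc, rfl⟩ := p4 r hr
    obtain ⟨t, ht⟩ := a1 c fun r _ => a7 c hc r
    simpa [ht] using Submodule.smul_mem _ t (Submodule.subset_span (Set.mem_range_self y))
  have p7 : LinearMap.trace F V 1 ≠ 0 := fun h => by
    have b1 : LinearMap.trace F V = 0 := LinearMap.ext_on p6 (by
      rintro _ ⟨x, rfl⟩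
      by_cases h0 : x = 0
      · simpa [h0, p2] using h
      obtain ⟨y, hy⟩ := exists_one p5 h0
      have b2 := LinearMap.trace_mul_comm F ((P y).1⁻¹ : (End F V)ˣ).1 ((P x).1 * P y).1
      rw [← Units.val_mul, ← Units.val_mul, mul_inv_cancel_right, q2, hy] at b2
      simp only [sg_one, neg_mul, one_mul, mul_neg, inv_mul_cancel_left, Units.val_neg,
        map_neg] at b2
      exact mul_left_cancel₀ h2 (by simp only [LinearMap.zero_apply]; linear_combination -b2))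
    obtain ⟨v, hv⟩ := exists_ne (0 : V)
    obtain ⟨φ, hφ⟩ := Module.Projective.exists_dual_ne_zero F hv
    exact hφ (by rw [← LinearMap.trace_smulRight, b1]; rfl)
  refine ⟨U, inferInstance, inferInstance, Module.Finite.of_finite,
    ⟨Q, fun x => P x, Z, LinearMap.trace F V, p5, h2, by simp [p2], p3, q1,
      ⟨a4, Subgroup.mem_center_iff.2 (by simp)⟩, fun c hc x => a7 c hc _, fun c hc d _ => a7 c hc d,
      fun c hc => let ⟨_, ht⟩ := a1 c fun r _ => a7 c hc r; pm_of_scalar ht, fun c hc => a3 c hc.1,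
      LinearMap.trace_mul_comm F, p7, fun g _ => ⟨1, Z.one_mem, sep_of_span p7 p6 g⟩⟩,
    ⟨rfl, p6, fun c hc => let ⟨t, ht⟩ := a1 c fun r _ => a7 c hc r
      ⟨t, fun v => by rw [usmul, ht]; rfl⟩⟩, le_antisymm ?_ p4⟩
  rintro _ ⟨x, c, hc, rfl⟩
  exact R.mul_mem hc.1 (P x).2

variable {E : Type v} [AddCommGroup E] [Module (ZMod 2) E] [FiniteDimensional (ZMod 2) E]
  {S : Pau F (End F V) E} {X C : Subgroup (End F V)ˣ}

namespace Pau

variable (S) in
/-- The preimage of a subspace. -/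
def pre (U : Submodule (ZMod 2) E) : Subgroup (End F V)ˣ where
  carrier := {r | ∃ x ∈ U, S.Ov r x}
  mul_mem' := fun ⟨_, a, h⟩ ⟨_, b, h'⟩ => ⟨_, U.add_mem a b, h.mul h'⟩
  one_mem' := ⟨0, U.zero_mem, S.ov_zero.2 S.Z.one_mem⟩
  inv_mem' := fun ⟨_, a, h⟩ => ⟨_, a, h.inv⟩

theorem card_pre (U : Submodule (ZMod 2) E) :
    Nat.card (S.pre U) = Nat.card S.Z * 2 ^ finrank (ZMod 2) U := by
  have := Module.natCard_eq_pow_finrank (K := ZMod 2) (V := U)
  rw [Nat.card_zmod] at this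
  rw [← this, ← Nat.card_prod]
  refine (Nat.card_eq_of_bijective (fun p : S.Z × U => (⟨p.1 * S.P p.2, p.2, p.2.2, p.1, p.1.2, rfl⟩ :
    S.pre U)) ⟨fun p q e => ?_, fun ⟨_, x, hx, c, hc, rfl⟩ => ⟨(⟨c, hc⟩, ⟨x, hx⟩), rfl⟩⟩).symm
  replace e : p.1.1 * S.P p.2 = q.1.1 * S.P q.2 := congrArg Subtype.val e
  have h : p.2 = q.2 := Subtype.ext (((S.ov_P _).zmul p.1.2).unique (e ▸ (S.ov_P _).zmul q.1.2))
  exact Prod.ext (Subtype.ext (by simpa [h] using e)) h

theorem card_R : Nat.card S.R = Nat.card S.Z * 2 ^ finrank (ZMod 2) E := by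
  rw [← finrank_top, ← card_pre]
  congr 2
  ext r
  exact ⟨fun ⟨x, h⟩ => ⟨x, trivial, h⟩, fun ⟨x, _, h⟩ => ⟨x, h⟩⟩

theorem PV.mem_Z (h : S.PV) {c : (End F V)ˣ} : c ∈ S.Z ↔ c ∈ S.R ∧ ∀ r ∈ S.R, r * c = c * r :=
  ⟨fun hc => ⟨S.Z_le hc, fun r _ => (h.mem_CZ r c hc).symm⟩, fun ⟨⟨x, hx⟩, hc⟩ =>
    S.ov_zero.1 (S.nd x (fun y => hx.polar0 (S.ov_P y) (hc _ (S.P_mem y)).symm) ▸ hx)⟩

theorem PV.card_Z (h : S.PV) : Nat.card S.Z = Nat.card (Subgroup.center S.R) := by
  rw [← Subgroup.card_map_of_injective S.R.subtype_injective]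
  congr 2
  ext c
  rw [h.mem_Z]
  exact ⟨fun ⟨h1, h2⟩ => ⟨⟨c, h1⟩, Subgroup.mem_center_iff.2 fun r => Subtype.ext (h2 r r.2), rfl⟩,
    fun ⟨d, h1, h2⟩ => h2 ▸ ⟨d.2, fun r hr =>
      congrArg Subtype.val (Subgroup.mem_center_iff.1 h1 ⟨r, hr⟩)⟩⟩

theorem two_of_card (h : Nat.card S.Z = 2) : S.Two := fun c hc => S.z1 c hc (by
  simpa [h, pow_two] using congrArg Subtype.val (pow_card_eq_one' (x := (⟨c, hc⟩ : S.Z))))

theorem exists_j_of_card (h : Nat.card S.Z = 4) : ∃ j ∈ S.Z, j * j = -1 := by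
  by_contra! h1
  have h2 := Set.ncard_le_ncard (s := (S.Z : Set (End F V)ˣ)) (t := {1, -1})
    fun c hc => S.z1 c hc ((S.z2 c hc).resolve_right (h1 c hc))
  have h3 := Set.ncard_insert_le (1 : (End F V)ˣ) {-1}
  rw [← Nat.card_coe_set_eq, SetLike.coe_sort_coe, h] at h2
  rw [Set.ncard_singleton] at h3
  omega

theorem Two.pre_comm (h2 : S.Two) {U : Submodule (ZMod 2) E} (hU : ∀ x ∈ U, S.Q x = 0) :
    (∀ r ∈ S.pre U, r * r = 1) ∧ ∀ r ∈ S.pre U, ∀ s ∈ S.pre U, r * s = s * r :=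
  ⟨fun _ ⟨x, h, h'⟩ => (h2.Q_zero h').2 (hU x h), fun _ ⟨x, a, a'⟩ _ ⟨y, b, b'⟩ => a'.comm0 b' (by
    simp [polar, hU _ a, hU _ b, hU _ (U.add_mem a b)])⟩

end Pau

section Form

variable {σ : F →+* F} {B : V →ₛₗ[σ] V →ₗ[F] F}

theorem hs_sim (h2 : (2 : F) ≠ 0) {u : (End F V)ˣ} (h : u ∈ Iso B) (hu : u * u = -1) (x y : V) :
    B (hs u • x) (hs u • y) = 2 * B x y := by
  have := h x (u • y)
  rw [← mul_smul, hu, Units.neg_smul, one_smul, map_neg] at this
  simp only [hs_smul h2 hu, map_add, LinearMap.add_apply, h x y]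
  linear_combination -this

theorem hd_mem_Iso (h2 : (2 : F) ≠ 0) {u v : (End F V)ˣ} (h : u ∈ Iso B) (h' : v ∈ Iso B)
    (hu : u * u = -1) (hv : v * v = -1) : hs u * (hs v)⁻¹ ∈ Iso B := fun x y => by
  rw [mul_smul, mul_smul, hs_sim h2 h hu, ← hs_sim h2 h' hv, smul_inv_smul, smul_inv_smul]

theorem exists_rot {c : F} (hc : c ≠ 0) (u : (End F V)ˣ) :
    ∃ g : (End F V)ˣ, (g : End F V) = c • u.1 :=
  ⟨Units.map (algebraMap F (End F V)).toMonoidHom (Units.mk0 c hc) * u, by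
    simp [Algebra.algebraMap_eq_smul_one]⟩

theorem rot_mem_Iso (h2 : (2 : F) ≠ 0) {u g : (End F V)ˣ} (h : u ∈ Iso B) (hu : u * u = -1) {c : F}
    (hc : 2 = c * c) (hσ : σ c = c) (hg : (g : End F V) = c⁻¹ • (hs u).1) : g ∈ Iso B := fun x y => by
  have h0 : c ≠ 0 := by rintro rfl; simp [h2] at hc
  have := hs_sim h2 h hu x y
  simp only [usmul, hg, LinearMap.smul_apply, LinearMap.map_smulₛₗ, map_inv₀, hσ, smul_eq_mul,
    RingHom.id_apply] at this ⊢
  rw [this, hc]; field_simp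

end Form

theorem Pau.PV.smul_mem_Nm (h : S.PV) {g k : (End F V)ˣ} {c : F} (e : (g : End F V) = c • k.1)
    (hk : k ∈ S.Nm) : g ∈ S.Nm := Pau.mem_Nm (h.mem_CZ g) fun x => by
  have : g * S.P x * g⁻¹ = k * S.P x * k⁻¹ := by
    rw [mul_inv_eq_iff_eq_mul]; exact Units.ext (by simp [e, mul_assoc])
  rw [this]; exact Pau.conj_mem hk (S.P_mem x)

theorem det_two (h2 : (2 : F) ≠ 0) {s : (End F V)ˣ} (hs : s * s = 1) {g : End F V} {α β : F}
    (h : ∀ v ∈ WW s, g v = α • v) (h' : ∀ v ∈ WW (-s), g v = β • v) {d : ℕ}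
    (hd : finrank F (WW s) = d) (hn : finrank F V = 2 * d) : LinearMap.det g = (α * β) ^ d := by
  have h1 : WW s ≤ (WW s).comap g := fun v hv => by
    rw [Submodule.mem_comap, h v hv]; exact Submodule.smul_mem _ _ hv
  have h3 : (WW s).mapQ (WW s) g h1 = β • 1 := Submodule.linearMap_qext _ (by
    ext v
    obtain ⟨a, ha, b, hb, rfl⟩ := exists_WW h2 hs v
    refine (Submodule.Quotient.eq _).2 ?_
    simp only [map_add, h a ha, h' b hb, smul_add, add_sub_add_right_eq_sub]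
    exact Submodule.sub_mem _ (Submodule.smul_mem _ _ ha) (Submodule.smul_mem _ _ ha))
  have h4 : g.restrict (p := WW s) (q := WW s) h1 = α • 1 := LinearMap.ext fun w => Subtype.ext (h w w.2)
  have h5 := (WW s).finrank_quotient_add_finrank
  rw [LinearMap.det_eq_det_mul_det _ _ h1, h3, h4, LinearMap.det_smul, LinearMap.det_smul, hd,
    show finrank F (V ⧸ WW s) = d by omega, mul_pow]
  simp

theorem Pau.PV.det_hs (h : S.PV) {j : (End F V)ˣ} (hj : j ∈ S.Z) (hjj : j * j = -1) {k : ℕ}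
    (hk : finrank (ZMod 2) E = 2 * k + 2) {u : (End F V)ˣ} {x : E} (hx : S.Ov u x)
    (hu : u * u = -1) (h0 : x ≠ 0 ∨ 2 ≤ k) : LinearMap.det (hs u).1 = 2 ^ 2 ^ k := by
  have h1 := h.finrank_eq (k := k + 1) hk
  have h2 : ∀ {j : (End F V)ˣ}, j ∈ S.Z → j * j = -1 → ∃ i : F, (j : End F V) = i • 1 ∧ i * i = -1 :=
    fun {j} hj hjj => by
      obtain ⟨t, ht⟩ := h.scal j hj
      have h1 : (j : End F V) = t • 1 := LinearMap.ext ht
      exact ⟨t, h1, smul_left_injective F S.one_ne (by simpa [h1, smul_smul] using val_sq hjj)⟩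
  by_cases h3 : x = 0
  · obtain ⟨i, a1, a2⟩ := h2 (S.ov_zero.1 (h3 ▸ hx)) hu
    obtain ⟨m, rfl⟩ := Nat.exists_eq_add_of_le (h0.resolve_left (by simp [h3]))
    rw [hs_val S.two hu, a1, ← one_smul F (1 : End F V), smul_smul, ← add_smul, LinearMap.det_smul,
      h1, map_one, mul_one, mul_one, pow_succ', pow_mul, pow_add, pow_mul, pow_mul]
    congr 1
    linear_combination (i ^ 6 + 8 * i ^ 5 + 27 * i ^ 4 + 48 * i ^ 3 + 43 * i ^ 2 + 8 * i - 15) * a2
  · obtain ⟨i, a1, a2⟩ := h2 hj hjj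
    have a3 : S.Inv (j * u) x := ⟨hx.zmul hj, h3, by
      rw [mul_assoc, ← mul_assoc u, ← hx.zcomm hj, mul_assoc, hu, mul_neg_one, mul_neg, hjj, neg_neg]⟩
    obtain ⟨b, hb⟩ := exists_one S.nd h3
    have a4 := finrank_EE S.nd hb
    have a5 : ∀ v : V, u • v = -i • (j * u) • v := fun v => by
      rw [mul_smul, usmul j, a1]; simp [smul_smul, a2]
    rw [det_two S.two a3.sq (α := 1 - i) (β := 1 + i) (fun v hv => ?_) (fun v hv => ?_)
      ((Pau.loc_PV (h := h) (hs := a3) (hb := hb)).finrank_eq (k := k) (by omega))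
      (by rw [h1, pow_succ']), show (1 - i) * (1 + i) = 2 by linear_combination -a2]
    · rw [← usmul, hs_smul S.two hu, a5, mem_WW.1 hv]; module
    · rw [← usmul, hs_smul S.two hu, a5, mem_WW_neg.1 hv]; module

end CfsgLib.C6
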