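import Mathlib
import Cfsg.Agent.Lib.C6.Ind

/-! Centre of order two: from the centralisers of the elements of order four to the normaliser. -/

set_option autoImplicit false
set_option linter.unusedSectionVars false

namespace CfsgLib.C6

open CfsgLib.OrthE CfsgLib.OMax Module QuadraticMap

universe u

theorem eq_top_of_fpf {G : Type*} [Group G] [Finite G] {A : Subgroup G} (h2 : ∀ a ∈ A, a * a = 1)
    (hN : Subgroup.normalizer (A : Set G) ≤ A) {x y : G} (hx : x ∈ A) (hy : y ∈ A)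
    (cx : ∀ g, g * x = x * g → g ∈ A) (cy : ∀ g, g * y = y * g → g ∈ A)
    (cxy : ∀ g, g * (x * y) = x * y * g → g ∈ A) : A = ⊤ := by
  have : Fact (Nat.Prime 2) := ⟨Nat.prime_two⟩
  have h1 : IsPGroup 2 A := fun a => ⟨1, Subtype.ext (by simpa [pow_two] using h2 a a.2)⟩
  obtain ⟨P, hP⟩ := h1.exists_le_sylow
  obtain rfl : A = P := by
    refine hP.antisymm (Subgroup.subgroupOf_eq_top.1 ?_)
    by_contra h3
    have := P.isPGroup'.isNilpotent
    obtain ⟨g, a1, a2⟩ := SetLike.exists_of_lt (Group.normalizerCondition_of_isNilpotent _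
      (lt_top_iff_ne_top.2 h3))
    rw [← Subgroup.subgroupOf_normalizer_eq hP] at a1
    exact a2 (hN a1)
  have h3 : Subgroup.normalizer ((P : Subgroup G) : Set G) ≤ Subgroup.centralizer (P : Set G) :=
    fun a ha b hb => by
      have := h2 _ (P.1.mul_mem hb (hN ha))
      rw [← mul_inv_eq_one, mul_inv_rev, inv_eq_of_mul_eq_one_right (h2 _ hb),
        inv_eq_of_mul_eq_one_right (h2 _ (hN ha)), this]
  have h4 := MonoidHom.ker_transferSylow_isComplement' P h3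
  generalize hO : (MonoidHom.transferSylow P h3).ker = O at h4
  have : O.Normal := hO ▸ inferInstance
  have h5 : ∀ z ∈ (P : Subgroup G), (∀ g, g * z = z * g → g ∈ (P : Subgroup G)) → ∀ o ∈ O,
      z * o * z⁻¹ = o⁻¹ := fun z hz cz o ho =>
    congrArg Subtype.val (congrFun (MonoidHom.FixedPointFree.coe_eq_inv_of_involutive
      (φ := MulAut.conjNormal (H := O) z) (fun o e => Subtype.ext (Subgroup.disjoint_def.1 h4.disjoint
        o.2 (cz _ (mul_inv_eq_iff_eq_mul.1 (congrArg Subtype.val e)).symm))) fun o => by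
          rw [← MulAut.mul_apply, ← map_mul, h2 z hz, map_one, MulAut.one_apply]) ⟨o, ho⟩)
  rw [eq_top_iff, ← h4.sup_eq_top]
  refine sup_le (fun o ho => cxy o ?_) le_rfl
  rw [eq_comm, ← mul_inv_eq_iff_eq_mul, show x * y * o * (x * y)⁻¹ = x * (y * o * y⁻¹) * x⁻¹ by group,
    h5 y hy cy o ho, h5 x hx cx _ (O.inv_mem ho), inv_inv]

theorem le_of_fpf {G : Type*} [Group G] [Finite G] {K T Z : Subgroup G} (hZ : Z ≤ T) (hT : T ≤ K)
    (hc : ∀ c ∈ Z, ∀ g, c * g = g * c) (h2 : ∀ a ∈ T, a * a ∈ Z)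
    (hN : ∀ g ∈ K, (∀ a ∈ T, g * a * g⁻¹ ∈ T) → g ∈ T) {x y : G} (hx : x ∈ T) (hy : y ∈ T)
    (h : ∀ z, z = x ∨ z = y ∨ z = x * y → ∀ g ∈ K, g * z * g⁻¹ * z⁻¹ ∈ Z → g ∈ T) : K ≤ T := by
  have : (Z.subgroupOf K).Normal := ⟨fun c e g => by
    simpa [Subgroup.mem_subgroupOf, ← hc c e] using e⟩
  let π := QuotientGroup.mk' (Z.subgroupOf K)
  have h1 : ∀ g : K, π g ∈ (T.subgroupOf K).map π ↔ g.1 ∈ T := fun g => by
    rw [← Subgroup.mem_comap, Subgroup.comap_map_eq_self (by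
      rw [QuotientGroup.ker_mk']; exact Subgroup.subgroupOf_mono _ hZ)]
    rfl
  have h3 : ∀ z : K, z.1 = x ∨ z.1 = y ∨ z.1 = x * y → ∀ g, g * π z = π z * g →
      g ∈ (T.subgroupOf K).map π := fun z hz g e => by
    obtain ⟨g, rfl⟩ := QuotientGroup.mk'_surjective _ g
    refine (h1 g).2 (h z hz g g.2 
      ((QuotientGroup.eq_one_iff (N := Z.subgroupOf K) (g * z * g⁻¹ * z⁻¹)).1 ?_))
    change π _ = 1
    rw [map_mul, map_mul, map_mul, map_inv, map_inv, show π g * π z = _ from e]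
    simp [π]
  have h4 := eq_top_of_fpf (A := (T.subgroupOf K).map π) (x := π ⟨x, hT hx⟩) (y := π ⟨y, hT hy⟩)
    (by
      rintro _ ⟨a, ha, rfl⟩
      exact (QuotientGroup.eq_one_iff (a * a)).2 (h2 a ha))
    (fun g hg => by
      obtain ⟨g, rfl⟩ := QuotientGroup.mk'_surjective _ g
      exact (h1 g).2 (hN g g.2 fun a ha => (h1 (g * ⟨a, hT ha⟩ * g⁻¹)).1
        ((Subgroup.mem_normalizer_iff.1 hg _).1 ((h1 ⟨a, hT ha⟩).2 ha))))
    ((h1 _).2 hx) ((h1 _).2 hy) (h3 _ (by simp)) (h3 _ (by simp))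
    (h3 (⟨x, hT hx⟩ * ⟨y, hT hy⟩) (by simp))
  exact fun g hg => (h1 ⟨g, hg⟩).1 (h4 ▸ trivial)

section F2

variable {E : Type*} [AddCommGroup E] [Module (ZMod 2) E] {Q : QuadraticForm (ZMod 2) E}
  [FiniteDimensional (ZMod 2) E]

theorem exists_ns_list (hQ : Nondeg Q) (l : List E) (h : 2 * l.length < finrank (ZMod 2) E) :
    ∃ f, Q f = 1 ∧ (∀ w ∈ l, polar Q w f = 0) ∧ ∃ u, (∀ w ∈ l, polar Q w u = 0) ∧ polar Q f u = 1 := by
  obtain ⟨u, v, a1, a2, a3⟩ := exists_hyp_orth hQ l h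
  rcases one_of_three' a3 with e | e | e
  · exact ⟨u, e, a1, v, a2, a3⟩
  · exact ⟨v, e, a2, u, a1, pc1 a3⟩
  · exact ⟨u + v, e, fun w hw => by simp [a1 w hw, a2 w hw], v, a2, by simp [a3]⟩

theorem exists_ns_dual (hQ : Nondeg Q) {c d : E} (hc : c ≠ 0) (hd : d ≠ 0)
    (h : 7 ≤ finrank (ZMod 2) E ∨ 5 ≤ finrank (ZMod 2) E ∧ c = d) :
    ∃ f, Q f = 1 ∧ polar Q c f = 1 ∧ polar Q d f = 1 := by
  obtain ⟨f, a1, a2⟩ : ∃ f, polar Q c f = 1 ∧ polar Q d f = 1 := by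
    by_cases e : c = d
    · simpa [e] using exists_one hQ hd
    · exact dual2 hQ hc hd e 1 1
  rcases z2 (Q f) with e | e
  · obtain ⟨w, b1, b2, b3, b4⟩ : ∃ w, Q w = 1 ∧ polar Q c w = 0 ∧ polar Q d w = 0 ∧
        polar Q f w = 0 := by
      rcases h with h | ⟨h, rfl⟩
      · obtain ⟨w, b1, b2, -⟩ := exists_ns_list hQ [c, d, f] (by simp; omega)
        exact ⟨w, b1, by simpa using b2⟩
      · obtain ⟨w, b1, b2, -⟩ := exists_ns_list hQ [c, f] (by simp; omega)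
        exact ⟨w, b1, by simpa using b2⟩
    exact ⟨f + w, by simp [Q_add, e, b1, b4], by simp [a1, b2], by simp [a2, b3]⟩
  · exact ⟨f, e, a1, a2⟩

theorem eq_one_of_semireg (hQ : Nondeg Q) (h5 : 5 ≤ finrank (ZMod 2) E)
    {K : Subgroup (E ≃ₗ[ZMod 2] E)} (iso : ∀ k ∈ K, ∀ x, Q (k x) = Q x)
    (nrm : ∀ c d, Q c = 1 → Q d = 1 → ∀ k ∈ K,
      tvE Q c * tvE Q d * k * (tvE Q c * tvE Q d)⁻¹ ∈ K)
    (fix : ∀ k ∈ K, ∀ e, Q e = 1 → k e = e → k = 1) {k : E ≃ₗ[ZMod 2] E} (hk : k ∈ K) : k = 1 := by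
  by_contra h1
  have h2 := polar_of_Q (iso k hk)
  have key : ∀ e c d, Q e = 1 → Q c = 1 → Q d = 1 → c ≠ d → polar Q c d = 0 → polar Q (k e) c = 0 →
      polar Q e c = 0 → polar Q (k e) d = 0 → polar Q e d = 0 → k c = d := by
    intro e c d a1 a2 a3 a4 a5 a6 a7 a8 a9
    have b1 := K.mul_mem hk (nrm c d a2 a3 _ (K.inv_mem hk))
    rw [← mul_assoc, ← mul_assoc, conj_tvE₂ h2] at b1
    have b2 := fix _ b1 (k e) ((iso k hk e).trans a1) (by
      rw [mul_inv_rev, tvE_inv, tvE_inv]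
      simp only [LinearEquiv.mul_apply]
      rw [tvE_of_zero (pc a6), tvE_of_zero (pc a8), tvE_of_zero ((h2 ..).trans (pc a9)),
        tvE_of_zero ((h2 ..).trans (pc a7))])
    have b3 := (iso k hk c).trans a2
    rcases mem_span_two.1 (mem_span_of_tvE hQ (k.injective.ne a4) (mul_inv_eq_one.1 b2)) with
      e | e | e | e
    · simp [e] at b3
    · exact absurd (fix k hk c a2 e) h1
    · exact e
    · simp [e, Q_add, a2, a3, a5, z11] at b3
  have k1 : ∀ e, Q e = 1 → polar Q e (k e) ≠ 0 := fun e a1 a2 => by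
    obtain ⟨f, b1, b2, u, b3, b4⟩ := exists_ns_list hQ [e, k e] (by simp; omega)
    simp only [List.mem_cons, List.not_mem_nil, or_false, forall_eq_or_imp, forall_eq] at b2 b3
    have := key e e f a1 a1 b1 (by rintro rfl; simp [b3.1] at b4) b2.1 (pc a2) (pss e) b2.2 b2.1
    simp [← this, b3.2] at b4
  obtain ⟨e, a1, -⟩ := exists_ns_list hQ [] (by simp; omega)
  have a2 := z2_ne.1 (k1 e a1)
  have a3 := finrank_EE hQ a2
  obtain ⟨c, b1, -⟩ := exists_ns_list (nd_QQ hQ a2) [] (by simp; omega)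
  obtain ⟨d, b2, b3, b4⟩ := exists_ns_orth (nd_QQ hQ a2) (by omega) c
  have b5 : polar Q (c : E) d = 0 := b3
  exact k1 c b1 (by rwa [key e c d a1 b1 b2 (fun h => b4 (Subtype.ext h.symm)) b5 (EE.right c)
    (EE.left c) (EE.right d) (EE.left d)])

end F2

namespace Pau

variable {F : Type*} {V : Type u} [Field F] [AddCommGroup V] [Module F V] {E : Type*}
  [AddCommGroup E] [Module (ZMod 2) E] [FiniteDimensional F V] [Finite F]
  [FiniteDimensional (ZMod 2) E] {S : Pau F (End F V) E} {X : Subgroup (End F V)ˣ}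
  {s : (End F V)ˣ} {a b : E} {B : LinearMap.BilinForm F V}

theorem Inv.faithful1 (hs : S.Inv s a) {r : (End F V)ˣ} {x : E} (hr : S.Ov r x)
    (h : ∀ v ∈ WW s, r • v = v) : x = 0 ∨ x = a := by
  by_contra! hn
  have e : (r : End F V) * (1 + s) = 1 + s := LinearMap.ext fun v => h _ (add_mem_WW hs.sq _)
  replace e := congrArg S.τ e
  simp only [mul_add, mul_one, map_add, ← Units.val_mul, hr.τ_eq hn.1,
    (hr.mul hs.ov).τ_eq (add_ne hn.2), hs.ov.τ_eq hs.ne, add_zero] at e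
  exact S.τ1 e.symm

theorem φ_resK {h : S.PV} {hs : S.Inv s a} {hb : polar S.Q a b = 1} {k : (End F V)ˣ}
    (hk : k ∈ S.Nm) (h1 : ∀ v ∈ WW (-s), k • v = v) {y : (End F (WW s))ˣ} (hy : Res k y) :
    ∃ e : y ∈ (loc h hs hb).Nm, (loc h hs hb).φ ⟨y, e⟩ = 1 := by
  have h2 : Commute k s := comm_of_resK S.two hs.sq h1 hy
  have h3 : y ∈ (loc h hs hb).Nm := mem_Nm (loc_PV.mem_CZ y) fun x =>
    mem_loc_R (conj_mem hk (S.P_mem x))
      ((h2.mul_left (hs.comm x (S.ov_P x))).mul_left h2.inv_left) (hy.conj (hs.res_P x))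
  refine ⟨h3, LinearEquiv.ext fun x => ?_⟩
  obtain ⟨t, a1, -, a2⟩ := exists_conj (y := ⟨y, h3⟩) hy (S.ov_P x)
  obtain ⟨z, a3⟩ := conj_mem hk (S.P_mem x)
  have a4 := hs.faithful1 (a1.inv.mul a3) fun v hv => by rw [mul_smul, a2 v hv, inv_smul_smul]
  have a5 := hs.neg.faithful1 ((S.ov_P x).inv.mul a3) fun v hv => by
    rw [mul_smul, mul_smul, mul_smul, inv_smul_eq_iff.2 (h1 v hv).symm,
      h1 _ (smul_mem_WW_neg (hs.comm x (S.ov_P x)) hv), inv_smul_smul]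
  change _ = x
  generalize (loc h hs hb).φ _ x = w at a4
  rcases a4 with e | e <;> rcases a5 with e' | e'
  · exact Subtype.ext (add_right_cancel (e.trans e'.symm))
  · exact absurd (add_right_cancel (b := z) (by rw [add_right_comm, e, e', zero_add]))
      (EE.ne_add hb x w)
  · exact absurd (add_right_cancel (b := z) (by rw [add_right_comm, e, e', zero_add]))
      (EE.ne_add hb w x)
  · exact Subtype.ext (add_right_cancel (e.trans e'.symm))

theorem Inv.exists_ne (hs : S.Inv s a) (h : S.PV) (hB : ∀ x, (∀ y, B x y = 0) → x = 0)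
    (hR : S.R ≤ Iso B) : ∃ u v, B.restrict (WW s) u v ≠ 0 := by
  by_contra! h1
  obtain ⟨b, hb⟩ := exists_one S.nd hs.ne
  exact (loc h hs hb).one_ne (LinearMap.ext fun v => Subtype.ext
    (nondeg_WW S.two hB (hR hs.ov.mem) hs.sq v.2 fun y hy => h1 v ⟨y, hy⟩))

variable (h : S.PV) (h2 : S.Two) (hX : S.OverF X) (hB : ∀ x, (∀ y, B x y = 0) → x = 0)
  (hXC : X ≤ Iso B) (h7 : 7 ≤ finrank (ZMod 2) E)
include h h2 hX hB hXC h7

theorem PV.resK_le (hC : ∀ e, S.Q e = 1 → S.CenAt X e) (hs : S.Inv s a) (hb : polar S.Q a b = 1) :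
    resK X s ≤ (loc h hs hb).R := by
  have h5 := finrank_EE S.nd hb
  have h3 := hX.le_resK h hs hb (by omega)
  have h4 : ∀ y : (loc h hs hb).Nm, y.1 ∈ resK X s → (loc h hs hb).φ y = 1 →
      y.1 ∈ (loc h hs hb).R := fun y hy e => by
    obtain ⟨r, a1, a2⟩ := inner e
    obtain ⟨k, a3, -, a4⟩ := (resK X s).mul_mem (h3 a1) hy
    exact (Subgroup.mul_mem_cancel_left _ a1).1 (loc_PV.mem_R_of_comm
      (hs.exists_ne h hB (hX.le.trans hXC)) (a4.mem_Iso (fun _ _ => rfl) (hXC a3)) a2)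
  have h6 : ∀ y ∈ resK X s, ∀ u c, (loc h hs hb).Ov u c → S.Q c = 1 →
      (loc h hs hb).Ov (y * u * y⁻¹) c → y ∈ (loc h hs hb).R := fun y hy u c a1 a2 a3 => by
    obtain ⟨t, b1, b2⟩ := a1.exists_comm (fun e => by simp [e] at a2) a3
    refine (Subgroup.mul_mem_cancel_right _ b1).1 ?_
    have b3 := (resK X s).mul_mem hy (h3 b1)
    obtain ⟨k, c1, c2, c3⟩ := id b3
    obtain ⟨r, c4, c5⟩ := exists_lift a1
    obtain ⟨c6, c7⟩ := φ_resK (h := h) (hs := hs) (hb := hb) (hC c a2 k c1 (c4.comm_P (h.mem_CZ k)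
      (ext_WW S.two hs.sq (fun v => (c3.mul c5).eq_on (b2 ▸ c5.mul c3)) fun v hv => by
        rw [mul_smul, mul_smul, c2 v hv, c2 _ (smul_mem_WW_neg (hs.comm c c4) hv)]))) c2 c3
    exact h4 ⟨_, c6⟩ b3 c7
  obtain ⟨c, a1, -⟩ := exists_ns_list (nd_QQ S.nd hb) [] (by simp; omega)
  obtain ⟨d, a2, a3, -⟩ := exists_ns_dual (nd_QQ S.nd hb) (ne_of_Q a1) (ne_of_Q a1)
    (Or.inr ⟨by omega, rfl⟩)
  refine le_of_fpf (loc h hs hb).Z_le h3 (fun c hc g => loc_PV.mem_CZ g c hc)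
    (fun r ⟨_, hr⟩ => hr.sq_mem) (fun y hy e => ?_) (P_mem _ c) (P_mem _ d) fun z hz y hy e => ?_
  · refine h4 ⟨y, mem_Nm (loc_PV.mem_CZ y) fun x => e _ (P_mem _ x)⟩ hy
      (eq_one_of_semireg (nd_QQ S.nd hb) (by omega) (K := (loc h hs hb).bar (resK X s))
        ?_ ?_ ?_ ⟨_, hy, rfl⟩)
    · rintro _ ⟨n, -, rfl⟩
      exact φ_Q (loc_two h2) n
    · rintro c d hc hd _ ⟨n, hn, rfl⟩
      obtain ⟨m, hm, e⟩ := ((hX.loc h hs hb).over fun g _ => loc_PV.mem_CZ g).tv_mem hc hd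
      exact ⟨m * n * m⁻¹, conj_mem_resK (fun g hg n hn => X.mul_mem (X.mul_mem hg hn) (X.inv_mem hg))
        _ hm _ hn, by rw [map_mul, map_mul, map_inv, e]; rfl⟩
    · rintro _ ⟨n, hn, rfl⟩ f b1 b2
      exact φ_R (h6 _ hn _ f (ov_P _ f) b1 (((ov_P _ f).φ n).congr b2))
  · obtain ⟨f, b1, b2⟩ : ∃ f, (loc h hs hb).Ov z f ∧ QQ S.Q a b f = 1 := by
      rcases hz with rfl | rfl | rfl
      exacts [⟨c, ov_P _ c, a1⟩, ⟨d, ov_P _ d, a2⟩, ⟨_, (ov_P _ c).mul (ov_P _ d), by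
        simp [Q_add, a1, a2, a3, z11]⟩]
    exact h6 y hy z f b1 b2 (by simpa using b1.zmul e)

/-- It is enough to control the centralisers of the elements of order four. -/
theorem PV.le_of_ns (hse : SE.{u}) (h8 : 8 ≤ finrank (ZMod 2) E)
    (hN : ∀ e, S.Q e = 1 → S.N0 X (S.P e)) : X ≤ S.Nm := by
  have h1 : X ≤ S.CZ := fun g _ => h.mem_CZ g
  have hC : ∀ e, S.Q e = 1 → S.CenAt X e := fun e he g hg hge => by
    obtain ⟨c, a1, a2, a3⟩ := exists_ns_orth S.nd (by omega) e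
    exact mem_of_N0 h1 hX.le (S.ov_P e) (S.ov_P c) (ne_of_Q he) (ne_of_Q a1) a3.symm a2 (hN e he)
      (hN c a1) hg hge fun y hy => (hX.over h1).trans (by omega)
        (ne_zero_of_conj (h1 hg) (S.ov_P c) (ne_of_Q a1) hy) (ne_of_Q a1) (h2.Q_eq (S.ov_P c) hy)
  refine PV.Loc.le_two (h := h) (fun s a b hs hb y hy => mem_Nm (loc_PV.mem_CZ y) fun x =>
    h.resK_le h2 hX hB hXC h7 hC hs hb (conj_mem_resK
      (fun g hg n hn => X.mul_mem (X.mul_mem hg hn) (X.inv_mem hg)) y hy _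
      (hX.le_resK h hs hb (by omega) (P_mem _ x)))) hX hse h2 (by omega)
    (fun a b _ hb => Or.inl (by have := finrank_EE S.nd hb; omega))
    fun g hg => h.mem_R_of_comm ?_ (hXC hg)
  by_contra! h4
  exact S.one_ne (LinearMap.ext fun v => hB v (h4 v))

end Pau

end CfsgLib.C6
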